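import Mathlib

set_option autoImplicit false

open scoped commutatorElement

namespace Cfsg.Agent.Helper24

variable {P : Type*} [Group P]

theorem conj_mem_centralizer_of_mem_normalizer (B : Subgroup P) {g c : P}
    (hg : g ∈ Subgroup.normalizer (B : Set P)) (hc : c ∈ Subgroup.centralizer (B : Set P)) :
    g * c * g⁻¹ ∈ Subgroup.centralizer (B : Set P) := by
  rw [Subgroup.mem_centralizer_iff] at hc ⊢
  intro b hb
  have hb' : g⁻¹ * b * g ∈ B := by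
    refine (Subgroup.mem_normalizer_iff.mp hg (g⁻¹ * b * g)).mpr ?_
    have e : g * (g⁻¹ * b * g) * g⁻¹ = b := by group
    rw [e]; exact hb
  have h1 := hc _ hb'
  calc b * (g * c * g⁻¹) = g * ((g⁻¹ * b * g) * c) * g⁻¹ := by group
    _ = g * (c * (g⁻¹ * b * g)) * g⁻¹ := by rw [h1]
    _ = g * c * g⁻¹ * b := by group

/-- The subgroup `B⟨x⟩` for `x` centralizing `B`. -/
def adjoinCentral (B : Subgroup P) (x : P) (hx : ∀ b ∈ B, b * x = x * b) : Subgroup P where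
  carrier := {y | ∃ b ∈ B, ∃ k : ℤ, y = b * x ^ k}
  mul_mem' := by
    rintro y₁ y₂ ⟨b₁, hb₁, k, rfl⟩ ⟨b₂, hb₂, l, rfl⟩
    refine ⟨b₁ * b₂, B.mul_mem hb₁ hb₂, k + l, ?_⟩
    have h1 : b₂ * x ^ k = x ^ k * b₂ :=
      ((show Commute b₂ x from hx b₂ hb₂).zpow_right k).eq
    calc b₁ * x ^ k * (b₂ * x ^ l) = b₁ * (x ^ k * b₂) * x ^ l := by group
      _ = b₁ * (b₂ * x ^ k) * x ^ l := by rw [h1]
      _ = b₁ * b₂ * x ^ (k + l) := by group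
  one_mem' := ⟨1, B.one_mem, 0, by simp⟩
  inv_mem' := by
    rintro y ⟨b, hb, k, rfl⟩
    refine ⟨b⁻¹, B.inv_mem hb, -k, ?_⟩
    have h1 : b⁻¹ * x ^ (-k) = x ^ (-k) * b⁻¹ :=
      ((show Commute b⁻¹ x from hx _ (B.inv_mem hb)).zpow_right (-k)).eq
    rw [h1]; group

theorem adjoinCentral_props (B T : Subgroup P) (x : P) (hxT : x ∈ T)
    (hTC : T ≤ Subgroup.centralizer (B : Set P))
    (hT : ∀ t ∈ T, ∀ g ∈ Subgroup.normalizer (B : Set P), t * g * t⁻¹ * g⁻¹ ∈ B) :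
    ∃ B' : Subgroup P, B ≤ B' ∧ x ∈ B' ∧
      (⁅B, B⁆ ≤ Subgroup.centralizer (B : Set P) →
        ⁅B', B'⁆ ≤ Subgroup.centralizer (B' : Set P)) ∧
      (B ⊓ Subgroup.centralizer (B : Set P) ≤ B' ⊓ Subgroup.centralizer (B' : Set P)) ∧
      (Subgroup.normalizer (B : Set P) ≤ Subgroup.normalizer (B' : Set P)) ∧
      (∀ g ∈ Subgroup.normalizer (B : Set P),
        (∀ b ∈ B, ⁅b, g⁆ ∈ B ⊓ Subgroup.centralizer (B : Set P)) →
        ∀ y ∈ B', ⁅y, g⁆ ∈ B' ⊓ Subgroup.centralizer (B' : Set P)) := by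
  have hx : ∀ b ∈ B, b * x = x * b := fun b hb =>
    (Subgroup.mem_centralizer_iff.mp (hTC hxT)) b hb
  have hxk : ∀ (k : ℤ) (b : P), b ∈ B → b * x ^ k = x ^ k * b := fun k b hb =>
    ((show Commute b x from hx b hb).zpow_right k).eq
  have hmem : ∀ y, y ∈ adjoinCentral B x hx ↔ ∃ b ∈ B, ∃ k : ℤ, y = b * x ^ k :=
    fun y => Iff.rfl
  have hBB' : B ≤ adjoinCentral B x hx := fun b hb => (hmem b).mpr ⟨b, hb, 0, by simp⟩
  have hZ : B ⊓ Subgroup.centralizer (B : Set P) ≤ adjoinCentral B x hx ⊓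
      Subgroup.centralizer ((adjoinCentral B x hx : Subgroup P) : Set P) := by
    intro z hz
    obtain ⟨hzB, hzC⟩ := Subgroup.mem_inf.mp hz
    refine Subgroup.mem_inf.mpr ⟨hBB' hzB, ?_⟩
    rw [Subgroup.mem_centralizer_iff]
    intro y hy
    obtain ⟨b, hb, k, rfl⟩ := (hmem y).mp hy
    have h1 : b * z = z * b := (Subgroup.mem_centralizer_iff.mp hzC) b hb
    have h2 : z * x ^ k = x ^ k * z := hxk k z hzB
    calc b * x ^ k * z = b * (x ^ k * z) := by group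
      _ = b * (z * x ^ k) := by rw [h2]
      _ = (b * z) * x ^ k := by group
      _ = (z * b) * x ^ k := by rw [h1]
      _ = z * (b * x ^ k) := by group
  have hw : ∀ (k : ℤ), ∀ g ∈ Subgroup.normalizer (B : Set P),
      x ^ k * g * (x ^ k)⁻¹ * g⁻¹ ∈ B ⊓ Subgroup.centralizer (B : Set P) := by
    intro k g hg
    have hxkT : x ^ k ∈ T := T.zpow_mem hxT k
    refine Subgroup.mem_inf.mpr ⟨hT _ hxkT g hg, ?_⟩
    have h1 : g * (x ^ k)⁻¹ * g⁻¹ ∈ Subgroup.centralizer (B : Set P) :=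
      conj_mem_centralizer_of_mem_normalizer B hg (Subgroup.inv_mem _ (hTC hxkT))
    have h2 := Subgroup.mul_mem _ (hTC hxkT) h1
    have e : x ^ k * (g * (x ^ k)⁻¹ * g⁻¹) = x ^ k * g * (x ^ k)⁻¹ * g⁻¹ := by group
    rwa [e] at h2
  refine ⟨adjoinCentral B x hx, hBB', (hmem x).mpr ⟨1, B.one_mem, 1, by simp⟩, ?_, hZ, ?_, ?_⟩
  · intro hB2
    rw [Subgroup.commutator_le]
    intro y₁ hy₁ y₂ hy₂
    obtain ⟨b₁, hb₁, k, rfl⟩ := (hmem y₁).mp hy₁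
    obtain ⟨b₂, hb₂, l, rfl⟩ := (hmem y₂).mp hy₂
    have e : ⁅b₁ * x ^ k, b₂ * x ^ l⁆ = ⁅b₁, b₂⁆ := by
      rw [commutatorElement_def, commutatorElement_def]
      calc (b₁ * x ^ k) * (b₂ * x ^ l) * (b₁ * x ^ k)⁻¹ * (b₂ * x ^ l)⁻¹
          = b₁ * (x ^ k * b₂) * x ^ l * (x ^ k)⁻¹ * b₁⁻¹ * (x ^ l)⁻¹ * b₂⁻¹ := by group
        _ = b₁ * (b₂ * x ^ k) * x ^ l * (x ^ k)⁻¹ * b₁⁻¹ * (x ^ l)⁻¹ * b₂⁻¹ := by
            rw [← hxk k b₂ hb₂]
        _ = b₁ * b₂ * (x ^ l * b₁⁻¹) * (x ^ l)⁻¹ * b₂⁻¹ := by group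
        _ = b₁ * b₂ * (b₁⁻¹ * x ^ l) * (x ^ l)⁻¹ * b₂⁻¹ := by
            rw [← hxk l b₁⁻¹ (B.inv_mem hb₁)]
        _ = b₁ * b₂ * b₁⁻¹ * b₂⁻¹ := by group
    rw [e]
    have hc : ⁅b₁, b₂⁆ ∈ Subgroup.centralizer (B : Set P) :=
      hB2 (Subgroup.commutator_mem_commutator hb₁ hb₂)
    have hcB : ⁅b₁, b₂⁆ ∈ B := by
      rw [commutatorElement_def]
      exact B.mul_mem (B.mul_mem (B.mul_mem hb₁ hb₂) (B.inv_mem hb₁)) (B.inv_mem hb₂)
    exact (Subgroup.mem_inf.mp (hZ (Subgroup.mem_inf.mpr ⟨hcB, hc⟩))).2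
  · intro g hg
    have hgi : g⁻¹ ∈ Subgroup.normalizer (B : Set P) := Subgroup.inv_mem _ hg
    have hconj : ∀ g ∈ Subgroup.normalizer (B : Set P), ∀ y ∈ adjoinCentral B x hx,
        g * y * g⁻¹ ∈ adjoinCentral B x hx := by
      intro g hg y hy
      obtain ⟨b, hb, k, rfl⟩ := (hmem y).mp hy
      have h1 : g * b * g⁻¹ ∈ B := (Subgroup.mem_normalizer_iff.mp hg b).mp hb
      have h2 := (Subgroup.mem_inf.mp (hw (-k) g hg)).1
      refine (hmem _).mpr ⟨(g * b * g⁻¹) * (x ^ (-k) * g * (x ^ (-k))⁻¹ * g⁻¹),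
        B.mul_mem h1 h2, k, ?_⟩
      have h3 := hxk k _ h2
      calc g * (b * x ^ k) * g⁻¹
          = (g * b * g⁻¹) * (x ^ k * (x ^ (-k) * g * (x ^ (-k))⁻¹ * g⁻¹)) := by group
        _ = (g * b * g⁻¹) * ((x ^ (-k) * g * (x ^ (-k))⁻¹ * g⁻¹) * x ^ k) := by rw [← h3]
        _ = (g * b * g⁻¹) * (x ^ (-k) * g * (x ^ (-k))⁻¹ * g⁻¹) * x ^ k := by group
    rw [Subgroup.mem_normalizer_iff]
    intro h
    constructor
    · exact hconj g hg h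
    · intro hh
      have h5 := hconj g⁻¹ hgi _ hh
      have e : g⁻¹ * (g * h * g⁻¹) * g⁻¹⁻¹ = h := by group
      rwa [e] at h5
  · intro g hg hBg y hy
    obtain ⟨b, hb, k, rfl⟩ := (hmem y).mp hy
    have hwk := hw k g hg
    have hbg := hBg b hb
    have hwC := (Subgroup.mem_centralizer_iff.mp (Subgroup.mem_inf.mp hwk).2) b hb
    have e : ⁅b * x ^ k, g⁆ = (x ^ k * g * (x ^ k)⁻¹ * g⁻¹) * ⁅b, g⁆ := by
      rw [commutatorElement_def, commutatorElement_def]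
      calc b * x ^ k * g * (b * x ^ k)⁻¹ * g⁻¹
          = (b * (x ^ k * g * (x ^ k)⁻¹ * g⁻¹)) * g * b⁻¹ * g⁻¹ := by group
        _ = ((x ^ k * g * (x ^ k)⁻¹ * g⁻¹) * b) * g * b⁻¹ * g⁻¹ := by rw [hwC]
        _ = (x ^ k * g * (x ^ k)⁻¹ * g⁻¹) * (b * g * b⁻¹ * g⁻¹) := by group
    rw [e]
    exact hZ (Subgroup.mul_mem _ hwk hbg)

end Cfsg.Agent.Helper24
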