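import Cfsg.Agent.Helper2.DefectZero
import Cfsg.Agent.Helper2.ConjClass
import Cfsg.Agent.Helper2.CharLinear
import Cfsg.Agent.Helper25.FSIndicator
import Cfsg.Agent.Helper24.CharBasic
import Cfsg.Agent.Helper24.CharInv
import Cfsg.Agent.Helper24.CharValues

set_option autoImplicit false

namespace Cfsg.Agent.Helper24

open Cfsg

/-- Squaring permutes the elements of odd order. -/
theorem sum_sq_odd {G : Type*} [Group G] [Fintype G] (f : G → ℂ) :
    ∑ h : G, (if Odd (orderOf h) then f (h * h) else 0)
      = ∑ h : G, (if Odd (orderOf h) then f h else 0) := by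
  classical
  rw [← Finset.sum_filter, ← Finset.sum_filter]
  refine Finset.sum_nbij' (fun h => h * h) (fun k => k ^ ((orderOf k + 1) / 2)) ?_ ?_ ?_ ?_ ?_
  · intro h hh
    simp only [Finset.mem_filter, Finset.mem_univ, true_and] at hh ⊢
    rw [← pow_two]
    exact Odd.of_dvd_nat hh (orderOf_pow_dvd 2)
  · intro k hk
    simp only [Finset.mem_filter, Finset.mem_univ, true_and] at hk ⊢
    exact Odd.of_dvd_nat hk (orderOf_pow_dvd _)
  · intro h hh
    simp only [Finset.mem_filter, Finset.mem_univ, true_and] at hh
    have hcop : (orderOf h).Coprime 2 := Nat.Coprime.symm (Nat.coprime_two_left.mpr hh)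
    show (h * h) ^ ((orderOf (h * h) + 1) / 2) = h
    rw [← pow_two, Nat.Coprime.orderOf_pow hcop, ← pow_mul]
    obtain ⟨m, hm⟩ := hh
    have h2 : 2 * ((orderOf h + 1) / 2) = orderOf h + 1 := by omega
    rw [h2, pow_succ, pow_orderOf_eq_one, one_mul]
  · intro k hk
    simp only [Finset.mem_filter, Finset.mem_univ, true_and] at hk
    show k ^ ((orderOf k + 1) / 2) * k ^ ((orderOf k + 1) / 2) = k
    rw [← pow_add]
    obtain ⟨m, hm⟩ := hk
    have h2 : (orderOf k + 1) / 2 + (orderOf k + 1) / 2 = orderOf k + 1 := by omega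
    rw [h2, pow_succ, pow_orderOf_eq_one, one_mul]
  · intro h hh
    rfl

set_option maxHeartbeats 800000 in
/-- An irreducible character of `2`-defect zero that also has `p`-defect zero for every odd
prime `p` such that `G` has an element of order `2p`: one class of involutions, with
centralizer of order `χ(1)`, and Frobenius–Schur indicator `1`. -/
theorem defect_inv_main {G : Type*} [Group G] [Fintype G] (heven : Even (Nat.card G))
    {χ : G → ℂ} (hχ : IsIrrCharacter G χ)
    (h2 : 2 ^ (Nat.card G).factorization 2 ∣ charDegree χ)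
    (hp : ∀ p : ℕ, p.Prime → p ≠ 2 → (∃ g : G, orderOf g = 2 * p) →
      p ^ (Nat.card G).factorization p ∣ charDegree χ) :
    (∀ s t : G, orderOf s = 2 → orderOf t = 2 → IsConj s t) ∧
    (∀ s : G, orderOf s = 2 →
      Nat.card (Subgroup.centralizer ({s} : Set G)) = charDegree χ ∧
      (Nat.card (Subgroup.centralizer ({s} : Set G))).Coprime
        (Subgroup.centralizer ({s} : Set G)).index) ∧
    (Nat.card G : ℂ)⁻¹ * ∑ g : G, χ (g * g) = 1 := by
  classical
  have hch := isCharacter_of_irr hχ
  have hdeg := charDegree_spec hch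
  have hGpos : 0 < Nat.card G := Nat.card_pos
  have hGne : (Nat.card G : ℂ) ≠ 0 := by exact_mod_cast hGpos.ne'
  have hvan : ∀ p : ℕ, p.Prime → p ^ (Nat.card G).factorization p ∣ charDegree χ →
      ∀ x : G, p ∣ orderOf x → χ x = 0 := by
    intro p hpp hd x hx
    exact Helper2.irr_defect_zero_vanish hχ p _ hpp (Nat.ordProj_dvd _ _)
      (Nat.pow_succ_factorization_not_dvd hGpos.ne' hpp) hd x hx
  have hvan2 : ∀ x : G, 2 ∣ orderOf x → χ x = 0 := hvan 2 Nat.prime_two h2
  have h2G : 2 ∣ Nat.card G := heven.two_dvd
  have hxpos : 0 < charDegree χ := irr_degree_pos hχ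
  have h2x : 2 ∣ charDegree χ := by
    have h1 : 0 < (Nat.card G).factorization 2 :=
      Nat.Prime.factorization_pos_of_dvd Nat.prime_two hGpos.ne' h2G
    exact dvd_trans (dvd_pow_self 2 (by omega)) h2
  have hne1 : χ ≠ fun _ => (1 : ℂ) := by
    intro h
    have h1 : χ 1 = 1 := by rw [h]
    rw [hdeg] at h1
    have h3 : charDegree χ = 1 := by exact_mod_cast h1
    rw [h3] at h2x
    omega
  have hsum0 : ∑ g : G, χ g = 0 := by
    have h := irr_orthonormal hχ Helper2.isIrrCharacter_one_fun
    rw [if_neg hne1] at h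
    simp only [mul_one] at h
    exact (mul_eq_zero.mp h).resolve_left (inv_ne_zero hGne)
  have hsplit : ∑ h : G, χ (h * h) = ∑ h : G, (if Odd (orderOf h) then χ (h * h) else 0)
      + ∑ h : G, (if orderOf h = 2 then (charDegree χ : ℂ) else 0) := by
    rw [← Finset.sum_add_distrib]
    refine Finset.sum_congr rfl fun h _ => ?_
    by_cases hodd : Odd (orderOf h)
    · have hne : orderOf h ≠ 2 := by
        intro h2'
        rw [h2'] at hodd
        exact absurd hodd (by decide)
      rw [if_pos hodd, if_neg hne, add_zero]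
    · rw [if_neg hodd, zero_add]
      by_cases h2' : orderOf h = 2
      · rw [if_pos h2', ← pow_two, ← h2', pow_orderOf_eq_one, hdeg]
      · rw [if_neg h2']
        have hev : Even (orderOf h) := Nat.not_odd_iff_even.mp hodd
        obtain ⟨m, hm⟩ := hev
        have hpos : 0 < orderOf h := orderOf_pos h
        have hm1 : 1 < m := by omega
        have hord2 : orderOf (h * h) = m := by
          rw [← pow_two, orderOf_pow' h (by norm_num : (2 : ℕ) ≠ 0), hm]
          have hg : (m + m).gcd 2 = 2 := Nat.gcd_eq_right ⟨m, by ring⟩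
          rw [hg]
          omega
        by_cases hm2 : 2 ∣ m
        · exact hvan2 _ (by rw [hord2]; exact hm2)
        · obtain ⟨p, hpp, hpm⟩ := Nat.exists_prime_and_dvd (by omega : m ≠ 1)
          have hp2 : p ≠ 2 := by
            rintro rfl
            exact hm2 hpm
          obtain ⟨k, hk⟩ := hpm
          have hk0 : 0 < k := by
            rcases Nat.eq_zero_or_pos k with h0 | h0
            · subst h0
              omega
            · exact h0
          have hex : ∃ g : G, orderOf g = 2 * p := by
            refine ⟨h ^ k, ?_⟩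
            rw [orderOf_pow' h hk0.ne', hm, hk]
            have hg : (p * k + p * k).gcd k = k := Nat.gcd_eq_right ⟨2 * p, by ring⟩
            rw [hg]
            exact Nat.div_eq_of_eq_mul_left hk0 (by ring)
          exact hvan p hpp (hp p hpp hp2 hex) _ (by rw [hord2, hk]; exact dvd_mul_right p k)
  have hodd0 : ∑ h : G, (if Odd (orderOf h) then χ (h * h) else 0) = 0 := by
    have h3 : ∑ h : G, (if Odd (orderOf h) then χ h else 0) = ∑ g : G, χ g := by
      refine Finset.sum_congr rfl fun h _ => ?_
      by_cases hodd : Odd (orderOf h)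
      · rw [if_pos hodd]
      · rw [if_neg hodd]
        exact (hvan2 h (Nat.not_odd_iff_even.mp hodd).two_dvd).symm
    rw [sum_sq_odd χ, h3, hsum0]
  obtain ⟨I, hI⟩ : ∃ I : Finset G, I = Finset.univ.filter (fun h : G => orderOf h = 2) :=
    ⟨_, rfl⟩
  have hinv : ∑ h : G, (if orderOf h = 2 then (charDegree χ : ℂ) else 0)
      = (I.card : ℂ) * (charDegree χ : ℂ) := by
    rw [← Finset.sum_filter, Finset.sum_const, nsmul_eq_mul, hI]
  have hnu : (Nat.card G : ℂ)⁻¹ * ∑ g : G, χ (g * g)
      = (Nat.card G : ℂ)⁻¹ * ((I.card : ℂ) * (charDegree χ : ℂ)) := by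
    rw [hsplit, hodd0, zero_add, hinv]
  have hIpos : 0 < I.card := by
    have : Fact (Nat.Prime 2) := ⟨Nat.prime_two⟩
    obtain ⟨t, ht⟩ := exists_prime_orderOf_dvd_card' 2 h2G
    exact Finset.card_pos.mpr ⟨t, by rw [hI]; simp [ht]⟩
  have hfs := Helper25.fs_indicator hχ
  have hν1 : (Nat.card G : ℂ)⁻¹ * ∑ g : G, χ (g * g) = 1 := by
    have hposval : (Nat.card G : ℂ)⁻¹ * ((I.card : ℂ) * (charDegree χ : ℂ))
        = (((I.card * charDegree χ : ℕ) : ℝ) / (Nat.card G : ℝ) : ℝ) := by
      push_cast
      ring
    have hposr : (0 : ℝ) < ((I.card * charDegree χ : ℕ) : ℝ) / (Nat.card G : ℝ) := by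
      apply div_pos
      · exact_mod_cast Nat.mul_pos hIpos hxpos
      · exact_mod_cast hGpos
    by_cases hreal : ∀ s : G, (χ s).im = 0
    · rcases hfs.1 hreal with h1 | h1
      · exact h1
      · exfalso
        rw [hnu, hposval] at h1
        have h3 := congrArg Complex.re h1
        simp only [Complex.ofReal_re, Complex.neg_re, Complex.one_re] at h3
        linarith
    · exfalso
      push Not at hreal
      have h0 := hfs.2 hreal
      rw [hnu, hposval] at h0
      have h3 := congrArg Complex.re h0
      simp only [Complex.ofReal_re, Complex.zero_re] at h3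
      linarith
  have hcount : I.card * charDegree χ = Nat.card G := by
    rw [hnu] at hν1
    have h3 : (I.card : ℂ) * (charDegree χ : ℂ) = (Nat.card G : ℂ) := by
      have h4 := congrArg (fun z => (Nat.card G : ℂ) * z) hν1
      simp only [mul_one] at h4
      rw [← mul_assoc, mul_inv_cancel₀ hGne, one_mul] at h4
      exact h4
    exact_mod_cast h3
  have hkeyAll : ∀ t : G, orderOf t = 2 → ∀ p : ℕ, p.Prime →
      p ∣ Nat.card (Subgroup.centralizer ({t} : Set G)) →
      p ^ (Nat.card G).factorization p ∣ charDegree χ := by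
    intro t ht p hpp hpC
    by_cases hp2 : p = 2
    · subst hp2
      exact h2
    · apply hp p hpp hp2
      have : Fact p.Prime := ⟨hpp⟩
      obtain ⟨u, hu⟩ := exists_prime_orderOf_dvd_card' p hpC
      refine ⟨t * (u : G), ?_⟩
      have hcomm : Commute t (u : G) :=
        Subgroup.mem_centralizer_iff.mp u.2 t (Set.mem_singleton t)
      have hou : orderOf (u : G) = p := by
        rw [Subgroup.orderOf_coe]
        exact hu
      have hcop : (orderOf t).Coprime (orderOf (u : G)) := by
        rw [ht, hou]
        exact (Nat.coprime_primes Nat.prime_two hpp).mpr (Ne.symm hp2)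
      rw [hcomm.orderOf_mul_eq_mul_orderOf_of_coprime hcop, ht, hou]
  have hCdvd : ∀ t : G, orderOf t = 2 →
      Nat.card (Subgroup.centralizer ({t} : Set G)) ∣ charDegree χ := by
    intro t ht
    have hCG : Nat.card (Subgroup.centralizer ({t} : Set G)) ∣ Nat.card G :=
      Subgroup.card_subgroup_dvd_card _
    rw [← Nat.factorization_le_iff_dvd Nat.card_pos.ne' hxpos.ne']
    intro p
    by_cases hpp : p.Prime
    · by_cases hpC : p ∣ Nat.card (Subgroup.centralizer ({t} : Set G))
      · calc (Nat.card (Subgroup.centralizer ({t} : Set G))).factorization p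
            ≤ (Nat.card G).factorization p :=
              (Nat.factorization_le_iff_dvd Nat.card_pos.ne' hGpos.ne').mpr hCG p
          _ ≤ (charDegree χ).factorization p :=
              (hpp.pow_dvd_iff_le_factorization hxpos.ne').mp (hkeyAll t ht p hpp hpC)
      · rw [Nat.factorization_eq_zero_of_not_dvd hpC]
        exact Nat.zero_le _
    · rw [Nat.factorization_eq_zero_of_not_prime _ hpp]
      exact Nat.zero_le _
  have hclass : ∀ t : G, orderOf t = 2 →
      Nat.card (Subgroup.centralizer ({t} : Set G)) = charDegree χ ∧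
      (∀ s : G, orderOf s = 2 → IsConj s t) := by
    intro t ht
    have hmul := Helper2.card_conj_mul_card_centralizer t
    have hdv := hCdvd t ht
    have hle : Nat.card (Subgroup.centralizer ({t} : Set G)) ≤ charDegree χ :=
      Nat.le_of_dvd hxpos hdv
    obtain ⟨K, hK⟩ : ∃ K : Finset G, K = Finset.univ.filter (fun x : G => IsConj x t) :=
      ⟨_, rfl⟩
    have hKcard : Nat.card {x : G // IsConj x t} = K.card := by
      rw [Nat.card_eq_fintype_card, Fintype.card_subtype, hK]
    have hKI : K ⊆ I := by
      intro x hx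
      rw [hK] at hx
      rw [hI]
      simp only [Finset.mem_filter, Finset.mem_univ, true_and] at hx ⊢
      obtain ⟨c, hc⟩ := isConj_iff.mp hx
      have h5 : orderOf (c * x * c⁻¹) = orderOf x :=
        orderOf_injective (MulAut.conj c).toMonoidHom (MulAut.conj c).injective x
      rw [← h5, hc, ht]
    have hKle : K.card ≤ I.card := Finset.card_le_card hKI
    rw [hKcard] at hmul
    have hCpos : 0 < Nat.card (Subgroup.centralizer ({t} : Set G)) := Nat.card_pos
    have h6 : K.card * Nat.card (Subgroup.centralizer ({t} : Set G))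
        ≤ I.card * Nat.card (Subgroup.centralizer ({t} : Set G)) :=
      Nat.mul_le_mul_right _ hKle
    have h7 : I.card * Nat.card (Subgroup.centralizer ({t} : Set G))
        ≤ I.card * charDegree χ := Nat.mul_le_mul_left _ hle
    have h8 : I.card * Nat.card (Subgroup.centralizer ({t} : Set G))
        = I.card * charDegree χ := by
      apply le_antisymm h7
      rw [hcount, ← hmul]
      exact h6
    have h9 : Nat.card (Subgroup.centralizer ({t} : Set G)) = charDegree χ :=
      Nat.eq_of_mul_eq_mul_left hIpos h8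
    have h10 : K.card = I.card := by
      have h11 : K.card * Nat.card (Subgroup.centralizer ({t} : Set G))
          = I.card * Nat.card (Subgroup.centralizer ({t} : Set G)) := by
        rw [hmul, h8, hcount]
      exact Nat.eq_of_mul_eq_mul_right hCpos h11
    have hKeq : K = I := Finset.eq_of_subset_of_card_le hKI (by omega)
    refine ⟨h9, fun s hs => ?_⟩
    have hsK : s ∈ K := by
      rw [hKeq, hI]
      simp [hs]
    rw [hK] at hsK
    simpa using hsK
  refine ⟨fun s t hs ht => (hclass t ht).2 s hs, fun s hs => ⟨(hclass s hs).1, ?_⟩, hν1⟩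
  have hCx := (hclass s hs).1
  apply Nat.coprime_of_dvd
  intro p hpp hpC hpidx
  have h1 := hkeyAll s hs p hpp hpC
  rw [← hCx] at h1
  have h3 : p ^ ((Nat.card G).factorization p + 1) ∣ Nat.card G := by
    have h4 := mul_dvd_mul h1 hpidx
    rw [Subgroup.card_mul_index (Subgroup.centralizer ({s} : Set G))] at h4
    rw [pow_succ]
    exact h4
  exact Nat.pow_succ_factorization_not_dvd hGpos.ne' hpp h3

end Cfsg.Agent.Helper24
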