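import Mathlib
import Cfsg.Agent.Helper24.TISmall
import Cfsg.Agent.Helper24.ItoPSolv
import Cfsg.Agent.Helper2.CharReg
import Cfsg.Agent.Helper2.CharOrtho
import Cfsg.Agent.Helper6.Inflate

set_option autoImplicit false

namespace Cfsg.Agent.Helper24

open Cfsg Finset
open scoped Pointwise commutatorElement

/-- For a TI Sylow `p`-subgroup `P`, `H ≥ N_G(P)` and a character `χ` of degree `< |P|`:
`[χ_H, 1_H] = [χ, 1_G]` (in cleared-denominator form). -/
theorem ti_sum_restrict {G : Type*} [Group G] [Fintype G] (p : ℕ) [Fact p.Prime] (P : Sylow p G)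
    (hTI : ∀ g : G, g ∉ Subgroup.normalizer ((P : Subgroup G) : Set G) →
      (P : Subgroup G) ⊓ (MulAut.conj g • (P : Subgroup G)) = ⊥)
    (H : Subgroup G) [Fintype ↥H] (hH : Subgroup.normalizer ((P : Subgroup G) : Set G) ≤ H)
    {χ : G → ℂ} (hχ : IsCharacter G χ) (hdeg : charDegree χ < Nat.card ↥(P : Subgroup G)) :
    (∑ h : ↥H, χ h) * (Nat.card G : ℂ) = (Nat.card ↥H : ℂ) * ∑ g : G, χ g := by
  classical
  obtain ⟨n, ρ, rfl⟩ := hχ
  have hχ' : IsCharacter G ρ.character := ⟨n, ρ, rfl⟩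
  have hdegn : charDegree ρ.character = n := by
    have h1 := charDegree_spec hχ'
    have h2 : ρ.character 1 = (n : ℂ) := by rw [Representation.char_one]; simp
    rw [h2] at h1
    exact (Nat.cast_injective h1).symm
  rw [hdegn] at hdeg
  have hG0 : (Nat.card G : ℂ) ≠ 0 := Nat.cast_ne_zero.mpr Nat.card_pos.ne'
  let EG : Module.End ℂ (Fin n → ℂ) := ∑ g : G, ρ g
  let EH : Module.End ℂ (Fin n → ℂ) := ∑ h : ↥H, ρ (h : G)
  have hEG : ∀ v, EG v = ∑ g : G, ρ g v := fun v => LinearMap.sum_apply _ _ _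
  have hEH : ∀ v, EH v = ∑ h : ↥H, ρ (h : G) v := fun v => LinearMap.sum_apply _ _ _
  have hmul : ∀ (g g' : G) v, ρ g (ρ g' v) = ρ (g * g') v := fun g g' v => by
    rw [map_mul]; rfl
  have hgEG : ∀ (g : G) v, ρ g (EG v) = EG v := by
    intro g v
    rw [hEG, map_sum]
    exact Fintype.sum_equiv (Equiv.mulLeft g) _ _ (fun g' => hmul g g' v)
  have hhEH : ∀ h ∈ H, ∀ v, ρ h (EH v) = EH v := by
    intro h hh v
    rw [hEH, map_sum]
    exact Fintype.sum_equiv (Equiv.mulLeft (⟨h, hh⟩ : ↥H)) _ _ (fun h' => hmul h h' v)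
  have hEGh : ∀ (h : G) v, EG (ρ h v) = EG v := by
    intro h v
    rw [hEG, hEG]
    exact Fintype.sum_equiv (Equiv.mulRight h) _ _ (fun g' => hmul g' h v)
  have hEGEH : ∀ v, EG (EH v) = (Nat.card ↥H : ℂ) • EG v := by
    intro v
    rw [hEH, map_sum, Finset.sum_congr rfl (fun (h : ↥H) _ => hEGh (h : G) v), Finset.sum_const,
      Finset.card_univ, ← Nat.card_eq_fintype_card, Nat.cast_smul_eq_nsmul]
  have hEGEG : ∀ v, EG (EG v) = (Nat.card G : ℂ) • EG v := by
    intro v
    rw [hEG (EG v), Finset.sum_congr rfl (fun g _ => hgEG g v), Finset.sum_const,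
      Finset.card_univ, ← Nat.card_eq_fintype_card, Nat.cast_smul_eq_nsmul]
  let coord : Fin n → (Fin n → ℂ) →ₗ[ℂ] ℂ := fun j => LinearMap.proj j
  have hsep : ∀ v : Fin n → ℂ, (∀ j, coord j v = 0) → v = 0 := fun v hv => funext hv
  have hdim : Module.finrank ℂ (⊤ : Submodule ℂ (Fin n → ℂ)) < Nat.card ↥(P : Subgroup G) := by
    rw [finrank_top, Module.finrank_fin_fun]; exact hdeg
  have hkey : ∀ v, EH v = ((Nat.card G : ℂ)⁻¹ * (Nat.card ↥H : ℂ)) • EG v := by
    intro v
    have hwH : ∀ h ∈ H, ρ h (EH v - (Nat.card G : ℂ)⁻¹ • EG (EH v)) =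
        EH v - (Nat.card G : ℂ)⁻¹ • EG (EH v) := by
      intro h hh
      rw [map_sub, map_smul, hhEH h hh, hgEG]
    have hwsum : ∑ g : G, ρ g (EH v - (Nat.card G : ℂ)⁻¹ • EG (EH v)) = 0 := by
      rw [← hEG, map_sub, map_smul, hEGEG, smul_smul, inv_mul_cancel₀ hG0, one_smul, sub_self]
    have hw0 := ti_fixed p P hTI H hH ρ coord hsep ⊤ (fun _ _ _ => Submodule.mem_top) hdim _
      Submodule.mem_top hwH hwsum
    rw [sub_eq_zero.mp hw0, hEGEH, smul_smul]
  have hEq : EH = ((Nat.card G : ℂ)⁻¹ * (Nat.card ↥H : ℂ)) • EG := LinearMap.ext hkey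
  have htr := congrArg (LinearMap.trace ℂ (Fin n → ℂ)) hEq
  rw [map_smul, map_sum, map_sum, smul_eq_mul] at htr
  have h1 : (∑ h : ↥H, ρ.character h) = ((Nat.card G : ℂ)⁻¹ * (Nat.card ↥H : ℂ)) *
      ∑ g : G, ρ.character g := htr
  rw [h1]
  field_simp

/-- If `P` is a TI Sylow `p`-subgroup and every irreducible character has degree `< |P|`,
then `P` is normal. -/
theorem normalizer_top_of_ti {G : Type*} [Group G] [Fintype G] (p : ℕ) [Fact p.Prime]
    (P : Sylow p G)
    (hTI : ∀ g : G, g ∉ Subgroup.normalizer ((P : Subgroup G) : Set G) →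
      (P : Subgroup G) ⊓ (MulAut.conj g • (P : Subgroup G)) = ⊥)
    (hdeg : ∀ χ : IrrCharacter G, charDegree (χ : G → ℂ) < Nat.card ↥(P : Subgroup G)) :
    Subgroup.normalizer ((P : Subgroup G) : Set G) = ⊤ := by
  classical
  haveI := finite_irrCharacter (G := G)
  haveI : Fintype (IrrCharacter G) := Fintype.ofFinite _
  have hG0 : (Nat.card G : ℂ) ≠ 0 := Nat.cast_ne_zero.mpr Nat.card_pos.ne'
  have hreg : ∀ g : G, ∑ χ : IrrCharacter G, (χ : G → ℂ) 1 * (χ : G → ℂ) g =
      if g = 1 then (Nat.card G : ℂ) else 0 := by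
    intro g
    have h := congrFun (Helper2.regular_char_eq_sum (G := G)) g
    rw [Helper2.regular_char, Finset.sum_apply] at h
    rw [h]
    rfl
  have hD1 : ∀ χ : IrrCharacter G,
      (∑ h : ↥(Subgroup.normalizer ((P : Subgroup G) : Set G)), (χ : G → ℂ) h) *
        (Nat.card G : ℂ) =
      (Nat.card ↥(Subgroup.normalizer ((P : Subgroup G) : Set G)) : ℂ) *
        ∑ g : G, (χ : G → ℂ) g :=
    fun χ => ti_sum_restrict p P hTI _ le_rfl (isCharacter_of_irr χ.2) (hdeg χ)
  have hL : ∑ χ : IrrCharacter G, (χ : G → ℂ) 1 *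
      ((∑ h : ↥(Subgroup.normalizer ((P : Subgroup G) : Set G)), (χ : G → ℂ) h) *
        (Nat.card G : ℂ)) = (Nat.card G : ℂ) * (Nat.card G : ℂ) := by
    have e : ∀ χ : IrrCharacter G, (χ : G → ℂ) 1 *
        ((∑ h : ↥(Subgroup.normalizer ((P : Subgroup G) : Set G)), (χ : G → ℂ) h) *
          (Nat.card G : ℂ)) =
        (∑ h : ↥(Subgroup.normalizer ((P : Subgroup G) : Set G)),
          (χ : G → ℂ) 1 * (χ : G → ℂ) h) * (Nat.card G : ℂ) := by
      intro χ; rw [← mul_assoc, Finset.mul_sum]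
    rw [Finset.sum_congr rfl (fun χ _ => e χ), ← Finset.sum_mul, Finset.sum_comm,
      Finset.sum_congr rfl
        (fun (h : ↥(Subgroup.normalizer ((P : Subgroup G) : Set G))) _ => hreg (h : G)), Finset.sum_eq_single 1]
    · simp
    · intro h _ hh
      rw [if_neg]
      intro h1
      exact hh (Subtype.ext h1)
    · intro h; exact absurd (Finset.mem_univ _) h
  have hRs : ∑ χ : IrrCharacter G, (χ : G → ℂ) 1 *
      ((Nat.card ↥(Subgroup.normalizer ((P : Subgroup G) : Set G)) : ℂ) *
        ∑ g : G, (χ : G → ℂ) g) =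
      (Nat.card ↥(Subgroup.normalizer ((P : Subgroup G) : Set G)) : ℂ) * (Nat.card G : ℂ) := by
    have e : ∀ χ : IrrCharacter G, (χ : G → ℂ) 1 *
        ((Nat.card ↥(Subgroup.normalizer ((P : Subgroup G) : Set G)) : ℂ) *
          ∑ g : G, (χ : G → ℂ) g) =
        (Nat.card ↥(Subgroup.normalizer ((P : Subgroup G) : Set G)) : ℂ) *
          ∑ g : G, (χ : G → ℂ) 1 * (χ : G → ℂ) g := by
      intro χ; rw [Finset.mul_sum, Finset.mul_sum, Finset.mul_sum]
      refine Finset.sum_congr rfl fun g _ => ?_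
      ring
    rw [Finset.sum_congr rfl (fun χ _ => e χ), ← Finset.mul_sum, Finset.sum_comm,
      Finset.sum_congr rfl (fun g _ => hreg g), Finset.sum_eq_single 1]
    · simp
    · intro g _ hg
      rw [if_neg hg]
    · intro h; exact absurd (Finset.mem_univ _) h
  have hcc : (Nat.card G : ℂ) * (Nat.card G : ℂ) =
      (Nat.card ↥(Subgroup.normalizer ((P : Subgroup G) : Set G)) : ℂ) * (Nat.card G : ℂ) := by
    rw [← hL, ← hRs]
    exact Finset.sum_congr rfl fun χ _ => by rw [hD1 χ]
  have hcard : Nat.card ↥(Subgroup.normalizer ((P : Subgroup G) : Set G)) = Nat.card G := by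
    have := mul_right_cancel₀ hG0 hcc
    exact_mod_cast this.symm
  exact (Subgroup.card_eq_iff_eq_top _).mp hcard

/-- Degrees `< p` pass to subgroups. -/
theorem degree_lt_subgroup {G : Type*} [Group G] [Finite G] (p : ℕ)
    (hb : ∀ χ : IrrCharacter G, charDegree (χ : G → ℂ) < p) (H : Subgroup G)
    (ψ : IrrCharacter ↥H) : charDegree (ψ : ↥H → ℂ) < p := by
  classical
  haveI : Fintype G := Fintype.ofFinite G
  obtain ⟨χ, hχ, hne⟩ := exists_irr_over H ψ.2
  have h1 := Helper2.charDegree_le_of_constituent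
    (isCharacter_restrict H (isCharacter_of_irr hχ)) ψ.2 hne
  have h2 : charDegree (fun h : ↥H => χ h) = charDegree χ := rfl
  have h3 := hb ⟨χ, hχ⟩
  have h4 : charDegree (ψ : ↥H → ℂ) ≤ charDegree χ := h2 ▸ h1
  exact lt_of_le_of_lt h4 h3

/-- Degrees `< p` pass to quotients. -/
theorem degree_lt_quotient {G : Type*} [Group G] [Finite G] (p : ℕ)
    (hb : ∀ χ : IrrCharacter G, charDegree (χ : G → ℂ) < p) (Z : Subgroup G) [Z.Normal]
    (ψ : IrrCharacter (G ⧸ Z)) : charDegree (ψ : G ⧸ Z → ℂ) < p := by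
  classical
  haveI : Fintype G := Fintype.ofFinite G
  haveI : Fintype (G ⧸ Z) := Fintype.ofFinite _
  have h1 := Helper6.isIrrCharacter_comp_surjective (QuotientGroup.mk' Z)
    (QuotientGroup.mk'_surjective Z) ψ.2
  have h2 := hb ⟨_, h1⟩
  have h3 : charDegree ((ψ : G ⧸ Z → ℂ) ∘ (QuotientGroup.mk' Z)) =
      charDegree (ψ : G ⧸ Z → ℂ) := by
    unfold charDegree; simp
  rw [← h3]; exact h2

/-- A `p`-group all of whose irreducible characters have degree `< p` is abelian. -/
theorem comm_of_pgroup_degree_lt {P : Type*} [Group P] [Finite P] (p : ℕ) [Fact p.Prime]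
    (hP : IsPGroup p P) (hdeg : ∀ χ : IrrCharacter P, charDegree (χ : P → ℂ) < p) (x y : P) :
    x * y = y * x := by
  classical
  haveI : Fintype P := Fintype.ofFinite P
  haveI := finite_irrCharacter (G := P)
  haveI : Fintype (IrrCharacter P) := Fintype.ofFinite _
  have hlin : ∀ χ : IrrCharacter P, (χ : P → ℂ) 1 = 1 := by
    intro χ
    have h1 : charDegree (χ : P → ℂ) ∣ Nat.card P := Helper2.irr_degree_dvd_card χ.2
    obtain ⟨k, hk⟩ := (IsPGroup.iff_card).mp hP
    rw [hk] at h1
    obtain ⟨j, _, hj⟩ := (Nat.dvd_prime_pow (Fact.out)).mp h1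
    have hlt := hdeg χ
    have hj0 : j = 0 := by
      by_contra hne
      have : p ≤ p ^ j := Nat.le_self_pow hne p
      omega
    rw [charDegree_spec (isCharacter_of_irr χ.2), hj, hj0]; simp
  have hw : ∀ w ∈ commutator P, w = 1 := by
    intro w hw
    by_contra hw1
    have h := congrFun (Helper2.regular_char_eq_sum (G := P)) w
    rw [Helper2.regular_char, if_neg hw1, Finset.sum_apply] at h
    have h2 : ∀ χ : IrrCharacter P, ((χ : P → ℂ) 1 • (χ : P → ℂ)) w =
        (χ : P → ℂ) 1 * (χ : P → ℂ) 1 := by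
      intro χ
      show (χ : P → ℂ) 1 * (χ : P → ℂ) w = _
      rw [linear_char_commutator (isCharacter_of_irr χ.2) (hlin χ) w hw, hlin χ]
    rw [Finset.sum_congr rfl (fun χ _ => h2 χ), Helper2.sum_degree_sq] at h
    exact (Nat.cast_ne_zero.mpr Nat.card_pos.ne') h.symm
  have h1 : ⁅x, y⁆ = 1 :=
    hw _ (Subgroup.commutator_mem_commutator (Subgroup.mem_top x) (Subgroup.mem_top y))
  exact commutatorElement_eq_one_iff_mul_comm.mp h1

universe u

/-- If all irreducible character degrees are `< p`, there is a normal Sylow `p`-subgroup. -/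
theorem exists_normal_sylow_of_degree_lt (p : ℕ) [hp : Fact p.Prime] :
    ∀ (n : ℕ) {G : Type u} [Group G] [Finite G], Nat.card G = n →
      (∀ χ : IrrCharacter G, charDegree (χ : G → ℂ) < p) →
      ∃ Q : Subgroup G, Q.Normal ∧ IsPGroup p Q ∧ ¬ p ∣ Q.index := by
  intro n
  induction n using Nat.strong_induction_on with
  | _ n ih =>
  intro G _ _ hcard hb
  classical
  haveI : Fintype G := Fintype.ofFinite G
  obtain ⟨P⟩ : Nonempty (Sylow p G) := inferInstance
  by_cases hPn : (P : Subgroup G).Normal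
  · exact ⟨P, hPn, P.isPGroup', P.not_dvd_index⟩
  by_cases hZ : (P : Subgroup G) ⊓ Subgroup.center G = ⊥
  · exfalso
    have hPab : ∀ x ∈ (P : Subgroup G), ∀ y ∈ (P : Subgroup G), x * y = y * x := by
      intro x hx y hy
      have := comm_of_pgroup_degree_lt p P.isPGroup' (degree_lt_subgroup p hb (P : Subgroup G))
        ⟨x, hx⟩ ⟨y, hy⟩
      exact congrArg Subtype.val this
    have hTI : ∀ g : G, g ∉ Subgroup.normalizer ((P : Subgroup G) : Set G) →
        (P : Subgroup G) ⊓ (MulAut.conj g • (P : Subgroup G)) = ⊥ := by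
      intro g hg
      by_contra hD
      let C := Subgroup.centralizer
        (((P : Subgroup G) ⊓ (MulAut.conj g • (P : Subgroup G)) : Subgroup G) : Set G)
      have hPC : (P : Subgroup G) ≤ C := by
        intro x hx
        rw [Subgroup.mem_centralizer_iff]
        intro d hd
        exact hPab d hd.1 x hx
      have hP'ab : ∀ x ∈ MulAut.conj g • (P : Subgroup G),
          ∀ y ∈ MulAut.conj g • (P : Subgroup G), x * y = y * x := by
        intro x hx y hy
        obtain ⟨a, ha, rfl⟩ := (Subgroup.mem_smul_pointwise_iff_exists _ _ _).mp hx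
        obtain ⟨b, hb', rfl⟩ := (Subgroup.mem_smul_pointwise_iff_exists _ _ _).mp hy
        simp only [MulAut.smul_def, MulAut.conj_apply]
        have := hPab a ha b hb'
        calc g * a * g⁻¹ * (g * b * g⁻¹) = g * (a * b) * g⁻¹ := by group
          _ = g * (b * a) * g⁻¹ := by rw [this]
          _ = g * b * g⁻¹ * (g * a * g⁻¹) := by group
      have hP'C : MulAut.conj g • (P : Subgroup G) ≤ C := by
        intro x hx
        rw [Subgroup.mem_centralizer_iff]
        intro d hd
        exact hP'ab d hd.2 x hx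
      have hCtop : C ≠ ⊤ := by
        intro hC
        apply hD
        rw [eq_bot_iff]
        intro d hd
        have hdc : d ∈ Subgroup.center G := by
          rw [Subgroup.mem_center_iff]
          intro x
          have hx : x ∈ C := by rw [hC]; exact Subgroup.mem_top x
          rw [Subgroup.mem_centralizer_iff] at hx
          exact (hx d hd).symm
        have : d ∈ (P : Subgroup G) ⊓ Subgroup.center G := ⟨hd.1, hdc⟩
        rw [hZ] at this
        exact this
      have hClt : Nat.card ↥C < n := by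
        rw [← hcard]
        exact lt_of_le_of_ne (Subgroup.card_le_card_group C)
          (fun h => hCtop ((Subgroup.card_eq_iff_eq_top C).mp h))
      obtain ⟨Q, hQn, hQp, hQi⟩ := @ih (Nat.card ↥C) hClt ↥C _ _ rfl
        (degree_lt_subgroup p hb C)
      let QS : Sylow p ↥C := hQp.toSylow hQi
      have hQSn : (QS : Subgroup ↥C).Normal := by
        rw [IsPGroup.toSylow_coe]; exact hQn
      have huniq := Sylow.unique_of_normal QS hQSn
      have hgPC : ((g • P : Sylow p G) : Subgroup G) ≤ C := by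
        rw [Sylow.coe_subgroup_smul]; exact hP'C
      have h12 : P.subtype hPC = (g • P).subtype hgPC := by
        haveI := huniq
        exact Subsingleton.elim _ _
      have hsub : ((g • P : Sylow p G) : Subgroup G) = (P : Subgroup G) := by
        apply le_antisymm
        · intro x hx
          have h1 : (⟨x, hgPC hx⟩ : ↥C) ∈ (((g • P).subtype hgPC : Sylow p ↥C) : Subgroup ↥C) := hx
          rw [← h12] at h1
          exact h1
        · intro x hx
          have h1 : (⟨x, hPC hx⟩ : ↥C) ∈ ((P.subtype hPC : Sylow p ↥C) : Subgroup ↥C) := hx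
          rw [h12] at h1
          exact h1
      have hgP : g • P = P := Sylow.ext hsub
      exact hg (Sylow.smul_eq_iff_mem_normalizer.mp hgP)
    have hPne : (P : Subgroup G) ≠ ⊥ := by
      intro h
      apply hPn
      rw [h]; infer_instance
    have hple : p ≤ Nat.card ↥(P : Subgroup G) := by
      have h1 : 1 < Nat.card ↥(P : Subgroup G) := (Subgroup.one_lt_card_iff_ne_bot _).mpr hPne
      obtain ⟨k, hk⟩ := (IsPGroup.iff_card).mp P.isPGroup'
      rw [hk] at h1 ⊢
      have hk0 : k ≠ 0 := by rintro rfl; simp at h1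
      exact Nat.le_self_pow hk0 p
    have hN := normalizer_top_of_ti p P hTI (fun χ => lt_of_lt_of_le (hb χ) hple)
    exact hPn (Subgroup.normalizer_eq_top_iff.mp hN)
  · haveI hZn : ((P : Subgroup G) ⊓ Subgroup.center G).Normal := ⟨fun z hz g => by
      have hc := Subgroup.mem_center_iff.mp hz.2 g
      have : g * z * g⁻¹ = z := by rw [hc, mul_inv_cancel_right]
      rw [this]; exact hz⟩
    have hlt : Nat.card (G ⧸ ((P : Subgroup G) ⊓ Subgroup.center G)) < n := by
      have h1 := Subgroup.card_eq_card_quotient_mul_card_subgroup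
        ((P : Subgroup G) ⊓ Subgroup.center G)
      have h2 : 1 < Nat.card ↥((P : Subgroup G) ⊓ Subgroup.center G) :=
        (Subgroup.one_lt_card_iff_ne_bot _).mpr hZ
      have h3 : 0 < Nat.card (G ⧸ ((P : Subgroup G) ⊓ Subgroup.center G)) := Nat.card_pos
      rw [← hcard, h1]
      nlinarith
    obtain ⟨Q, hQn, hQp, hQi⟩ := @ih _ hlt (G ⧸ ((P : Subgroup G) ⊓ Subgroup.center G)) _ _ rfl
      (degree_lt_quotient p hb _)
    refine ⟨Q.comap (QuotientGroup.mk' ((P : Subgroup G) ⊓ Subgroup.center G)),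
      hQn.comap _, ?_, ?_⟩
    · apply hQp.comap_of_ker_isPGroup
      rw [QuotientGroup.ker_mk']
      exact P.isPGroup'.to_le inf_le_left
    · rw [Subgroup.index_comap_of_surjective _ (QuotientGroup.mk'_surjective _)]
      exact hQi

end Cfsg.Agent.Helper24
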