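import Mathlib
import Cfsg.Agent.S0069
import Cfsg.Agent.Helper1.SZ

set_option autoImplicit false

universe u

namespace Cfsg.Agent.Helper24

open Cfsg

/-- The "elements of prime power order" property passes to quotients. -/
theorem eppo_quotient {G : Type*} [Group G] [Finite G]
    (h : ∀ g : G, IsPrimePow (orderOf g) ∨ g = 1) (N : Subgroup G) [N.Normal] :
    ∀ g : G ⧸ N, IsPrimePow (orderOf g) ∨ g = 1 := by
  intro g
  obtain ⟨g, rfl⟩ := QuotientGroup.mk_surjective g
  rcases h g with hg | rfl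
  · rw [isPrimePow_nat_iff] at hg
    obtain ⟨p, k, hp, hk, hpk⟩ := hg
    have hdvd : orderOf (QuotientGroup.mk' N g) ∣ p ^ k := by
      rw [hpk]
      exact orderOf_map_dvd _ g
    obtain ⟨j, hj, hj'⟩ := (Nat.dvd_prime_pow hp).mp hdvd
    rcases Nat.eq_zero_or_pos j with rfl | hjpos
    · right
      rw [pow_zero] at hj'
      exact orderOf_eq_one_iff.mp hj'
    · left
      rw [isPrimePow_nat_iff]
      exact ⟨p, j, hp, hjpos, hj'.symm⟩
  · right
    rfl

/-- In a group all of whose elements have prime power order, elements of distinct prime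
orders do not commute. -/
theorem eppo_not_commute {G : Type*} [Group G]
    (h : ∀ g : G, IsPrimePow (orderOf g) ∨ g = 1)
    {u v : G} (huv : Commute u v) {a b : ℕ} (ha : a.Prime) (hb : b.Prime) (hab : a ≠ b)
    (hu : orderOf u = a) (hv : orderOf v = b) : False := by
  have hcop : Nat.Coprime (orderOf u) (orderOf v) := by
    rw [hu, hv]
    exact (Nat.coprime_primes ha hb).mpr hab
  have hord : orderOf (u * v) = a * b := by
    rw [huv.orderOf_mul_eq_mul_orderOf_of_coprime hcop, hu, hv]
  rcases h (u * v) with hpp | h1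
  · rw [hord, isPrimePow_nat_iff] at hpp
    obtain ⟨p, k, hp, hk, hpk⟩ := hpp
    have h1 : a ∣ p ^ k := by rw [hpk]; exact dvd_mul_right a b
    have h2 : b ∣ p ^ k := by rw [hpk]; exact dvd_mul_left b a
    have h3 : a = p := (Nat.prime_dvd_prime_iff_eq ha hp).mp (ha.dvd_of_dvd_pow h1)
    have h4 : b = p := (Nat.prime_dvd_prime_iff_eq hb hp).mp (hb.dvd_of_dvd_pow h2)
    exact hab (h3.trans h4.symm)
  · rw [h1, orderOf_one] at hord
    exact ha.ne_one (Nat.dvd_one.mp ⟨b, hord⟩)

/-- **Higman**: a finite solvable group all of whose elements have prime power order has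
order divisible by at most two primes. -/
theorem eppo_solvable_card (n : ℕ) : ∀ (G : Type u) [Group G] [Finite G] [Group.IsSolvable G],
    Nat.card G = n → (∀ g : G, IsPrimePow (orderOf g) ∨ g = 1) →
      (Nat.card G).primeFactors.card ≤ 2 := by
  induction n using Nat.strong_induction_on with
  | _ n ih =>
  intro G _ _ _ hn h
  rcases subsingleton_or_nontrivial G with hsub | hnt
  · have h1 : Nat.card G = 1 := Nat.card_eq_one_iff_unique.mpr ⟨hsub, ⟨1⟩⟩
    rw [h1]
    simp
  obtain ⟨q, hq, A, hchar, hAne, hAcomm, hAexp⟩ := Cfsg.Agent.Helper1.exists_char_elemAbelian G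
  haveI : Fact q.Prime := ⟨hq⟩
  have hAq : IsPGroup q A := fun x =>
    ⟨1, by rw [pow_one]; exact Subtype.ext (by simpa using hAexp x x.2)⟩
  obtain ⟨a, ha⟩ := IsPGroup.iff_card.mp hAq
  have hApos : 1 < Nat.card A := (Subgroup.one_lt_card_iff_ne_bot A).mpr hAne
  have ha0 : a ≠ 0 := by
    rintro rfl
    rw [ha, pow_zero] at hApos
    exact lt_irrefl _ hApos
  have hcardG : Nat.card G = Nat.card (G ⧸ A) * Nat.card A :=
    Subgroup.card_eq_card_quotient_mul_card_subgroup A
  have hQpos : 0 < Nat.card (G ⧸ A) := Nat.card_pos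
  have hlt : Nat.card (G ⧸ A) < n := by
    rw [← hn, hcardG]
    nlinarith
  have ihQ := ih _ hlt (G ⧸ A) rfl (eppo_quotient h A)
  have hpf : (Nat.card G).primeFactors = (Nat.card (G ⧸ A)).primeFactors ∪ {q} := by
    rw [hcardG, Nat.primeFactors_mul hQpos.ne' Nat.card_pos.ne', ha,
      Nat.primeFactors_prime_pow ha0 hq]
  by_contra hcon
  push_neg at hcon
  have hqQ : q ∉ (Nat.card (G ⧸ A)).primeFactors := by
    intro hmem
    rw [hpf, Finset.union_eq_left.mpr (Finset.singleton_subset_iff.mpr hmem)] at hcon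
    omega
  have hQ2 : (Nat.card (G ⧸ A)).primeFactors.card = 2 := by
    rw [hpf, Finset.card_union_of_disjoint (Finset.disjoint_singleton_right.mpr hqQ),
      Finset.card_singleton] at hcon
    omega
  obtain ⟨r, s, hrs, hQrs⟩ := Finset.card_eq_two.mp hQ2
  have hqndvd : ¬ q ∣ Nat.card (G ⧸ A) := fun hd =>
    hqQ (Nat.mem_primeFactors.mpr ⟨hq, hd, hQpos.ne'⟩)
  have hcop : (Nat.card A).Coprime A.index := by
    rw [ha, Subgroup.index_eq_card]
    exact Nat.Coprime.pow_left a ((Nat.Prime.coprime_iff_not_dvd hq).mpr hqndvd)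
  obtain ⟨H, hH⟩ := Subgroup.exists_right_complement'_of_coprime hcop
  have hHcard : Nat.card H = Nat.card (G ⧸ A) := by
    have h1 := hH.card_mul_card
    rw [hcardG, mul_comm] at h1
    exact Nat.eq_of_mul_eq_mul_right (by omega) h1
  have hr : r ∈ (Nat.card (G ⧸ A)).primeFactors := by rw [hQrs]; simp
  have hs : s ∈ (Nat.card (G ⧸ A)).primeFactors := by rw [hQrs]; simp
  have hrp := (Nat.mem_primeFactors.mp hr).1
  have hsp := (Nat.mem_primeFactors.mp hs).1
  have hrd : r ∣ Nat.card H := by rw [hHcard]; exact (Nat.mem_primeFactors.mp hr).2.1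
  have hsd : s ∣ Nat.card H := by rw [hHcard]; exact (Nat.mem_primeFactors.mp hs).2.1
  have hHne : H ≠ ⊥ := by
    rw [← Subgroup.one_lt_card_iff_ne_bot]
    exact lt_of_lt_of_le hrp.one_lt (Nat.le_of_dvd Nat.card_pos hrd)
  -- fixed-point-free action
  have hfpf : ∀ x ∈ H, x ≠ 1 → A ⊓ Subgroup.centralizer {x} = ⊥ := by
    intro x hxH hx1
    rw [eq_bot_iff]
    intro m hm
    rw [Subgroup.mem_bot]
    by_contra hm1
    obtain ⟨hmA, hmC⟩ := Subgroup.mem_inf.mp hm
    have hmq : orderOf m = q := orderOf_eq_prime (hAexp m hmA) hm1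
    have hxord : orderOf x ≠ 1 := fun h1 => hx1 (orderOf_eq_one_iff.mp h1)
    have hxdvd : orderOf x ∣ Nat.card H := by
      have h1 : orderOf (⟨x, hxH⟩ : H) ∣ Nat.card H := orderOf_dvd_natCard _
      rwa [← Subgroup.orderOf_coe] at h1
    have hl := Nat.minFac_prime hxord
    have hld : (orderOf x).minFac ∣ orderOf x := Nat.minFac_dvd _
    have hlq : (orderOf x).minFac ≠ q := by
      intro heq
      apply hqndvd
      rw [← hHcard, ← heq]
      exact hld.trans hxdvd
    have hx0 : orderOf x ≠ 0 := (orderOf_pos x).ne'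
    have hord := orderOf_pow_orderOf_div hx0 hld
    have hcomm : Commute x m := by
      have := Subgroup.mem_centralizer_iff.mp hmC x (Set.mem_singleton x)
      exact this
    exact eppo_not_commute h (hcomm.pow_left _) hl hq hlq hord hmq
  have hZ := Cfsg.Agent.S0069.result A H hH hAne hHne hfpf
  have hZcard : 1 < Nat.card (Subgroup.center H) :=
    (Subgroup.one_lt_card_iff_ne_bot _).mpr hZ
  obtain ⟨l, hl, hld⟩ := Nat.exists_prime_and_dvd (ne_of_gt hZcard)
  haveI : Fact l.Prime := ⟨hl⟩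
  obtain ⟨z, hz⟩ := exists_prime_orderOf_dvd_card' l hld
  have hlH : l ∣ Nat.card H := hld.trans (Subgroup.card_subgroup_dvd_card _)
  have hlrs : l = r ∨ l = s := by
    have : l ∈ (Nat.card (G ⧸ A)).primeFactors := by
      rw [← hHcard]
      exact Nat.mem_primeFactors.mpr ⟨hl, hlH, Nat.card_pos.ne'⟩
    rw [hQrs] at this
    simpa using this
  -- the other prime
  obtain ⟨l', hl', hl'd, hne⟩ : ∃ l' : ℕ, l'.Prime ∧ l' ∣ Nat.card H ∧ l ≠ l' := by
    rcases hlrs with rfl | rfl
    · exact ⟨s, hsp, hsd, hrs⟩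
    · exact ⟨r, hrp, hrd, hrs.symm⟩
  haveI : Fact l'.Prime := ⟨hl'⟩
  obtain ⟨y, hy⟩ := exists_prime_orderOf_dvd_card' l' hl'd
  have hcomm : Commute ((z : H) : G) (y : G) := by
    have h1 : (y : H) * (z : H) = (z : H) * y := Subgroup.mem_center_iff.mp z.2 y
    have h2 := congrArg (fun t : H => (t : G)) h1
    simp only [Subgroup.coe_mul] at h2
    exact h2.symm
  have hzord : orderOf ((z : H) : G) = l := by
    rw [Subgroup.orderOf_coe, Subgroup.orderOf_coe, hz]
  have hyord : orderOf (y : G) = l' := by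
    rw [Subgroup.orderOf_coe, hy]
  exact eppo_not_commute h hcomm hl hl' hne hzord hyord

end Cfsg.Agent.Helper24
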