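import Mathlib
import Cfsg.Agent.Helper24.PNormalCenter

set_option autoImplicit false

namespace Cfsg.Agent.Helper24

variable {P : Type*} [Group P]

theorem exists_mem_notMem_finset (U : Subgroup P) (s : Finset P) (h : s.card < Nat.card U) :
    ∃ x ∈ U, x ∉ s := by
  by_contra hcon
  push_neg at hcon
  have h1 : Nat.card U ≤ Nat.card (↥s) :=
    Nat.card_le_card_of_injective (fun x : U => (⟨x.1, hcon x.1 x.2⟩ : ↥s))
      (fun x y hxy => Subtype.ext (congrArg (fun t : ↥s => (t : P)) hxy))
  have h2 : Nat.card (↥s) = s.card := by rw [Nat.card_eq_fintype_card, Fintype.card_coe]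
  omega

theorem reflTransGen_symm_of_symm {α : Type*} {r : α → α → Prop} (hs : ∀ a b, r a b → r b a)
    {a b : α} (h : Relation.ReflTransGen r a b) : Relation.ReflTransGen r b a := by
  induction h with
  | refl => exact Relation.ReflTransGen.refl
  | tail _ hbc ih => exact Relation.ReflTransGen.head (hs _ _ hbc) ih

/-- The four-group `{1, a, z, az}` on two commuting involutions. -/
def fourSub (a z : P) (ha : a * a = 1) (hz : z * z = 1) (hc : a * z = z * a) : Subgroup P where
  carrier := {x | x = 1 ∨ x = a ∨ x = z ∨ x = a * z}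
  one_mem' := Or.inl rfl
  mul_mem' := by
    intro x y hx hy
    have h1 : a * (a * z) = z := by rw [← mul_assoc, ha, one_mul]
    have h2 : z * (a * z) = a := by rw [← mul_assoc, ← hc, mul_assoc, hz, mul_one]
    have h3 : a * z * a = z := by rw [hc, mul_assoc, ha, mul_one]
    have h4 : a * z * z = a := by rw [mul_assoc, hz, mul_one]
    have h5 : a * z * (a * z) = 1 := by rw [← mul_assoc, h3, hz]
    have h6 : z * a = a * z := hc.symm
    rcases hx with hx | hx | hx | hx <;> rcases hy with hy | hy | hy | hy <;> rw [hx, hy] <;>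
    first
      | (apply Or.inl; simp [ha, hz, h1, h2, h3, h4, h5, h6]; done)
      | (apply Or.inr; apply Or.inl; simp [ha, hz, h1, h2, h3, h4, h5, h6]; done)
      | (apply Or.inr; apply Or.inr; apply Or.inl; simp [ha, hz, h1, h2, h3, h4, h5, h6]; done)
      | (apply Or.inr; apply Or.inr; apply Or.inr; simp [ha, hz, h1, h2, h3, h4, h5, h6]; done)
  inv_mem' := by
    intro x hx
    have hsq : x * x = 1 := by
      rcases hx with hx | hx | hx | hx <;> rw [hx]
      · exact one_mul 1
      · exact ha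
      · exact hz
      · rw [← mul_assoc, show a * z * a = z by rw [hc, mul_assoc, ha, mul_one], hz]
    rw [inv_eq_of_mul_eq_one_right hsq]
    exact hx

theorem fourSub_comm {a z : P} (ha : a * a = 1) (hz : z * z = 1) (hc : a * z = z * a) {g : P}
    (hga : g * a = a * g) (hgz : g * z = z * g) :
    ∀ x ∈ fourSub a z ha hz hc, g * x = x * g := by
  intro x hx
  rcases hx with hx | hx | hx | hx <;> rw [hx]
  · rw [mul_one, one_mul]
  · exact hga
  · exact hgz
  · calc g * (a * z) = (g * a) * z := (mul_assoc _ _ _).symm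
      _ = (a * g) * z := by rw [hga]
      _ = a * (g * z) := mul_assoc _ _ _
      _ = a * (z * g) := by rw [hgz]
      _ = a * z * g := (mul_assoc _ _ _).symm

theorem fourSub_isKleinFour {a z : P} (ha : a * a = 1) (hz : z * z = 1) (hc : a * z = z * a)
    (ha1 : a ≠ 1) (hz1 : z ≠ 1) (haz : a ≠ z) : IsKleinFour (fourSub a z ha hz hc) := by
  classical
  have h1az : a * z ≠ 1 := by
    intro h
    apply haz
    have h' : a * z = a * a := by rw [h, ha]
    exact (mul_left_cancel h').symm
  have haaz : a * z ≠ a := fun h => hz1 (mul_left_cancel (a := a) (by rw [h, mul_one]))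
  have hzaz : a * z ≠ z := fun h => ha1 (mul_right_cancel (b := z) (by rw [h, one_mul]))
  have hsq : ∀ x ∈ fourSub a z ha hz hc, x * x = 1 := by
    intro x hx
    rcases hx with hx | hx | hx | hx <;> rw [hx]
    · exact one_mul 1
    · exact ha
    · exact hz
    · rw [← mul_assoc, show a * z * a = z by rw [hc, mul_assoc, ha, mul_one], hz]
  constructor
  · have e : ↥(fourSub a z ha hz hc) ≃ ↥({1, a, z, a * z} : Finset P) :=
      Equiv.subtypeEquivRight (fun x => by
        rw [Finset.mem_insert, Finset.mem_insert, Finset.mem_insert, Finset.mem_singleton]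
        exact Iff.rfl)
    have h_z : z ∉ ({a * z} : Finset P) := by
      rw [Finset.mem_singleton]; exact fun h => hzaz h.symm
    have h_a : a ∉ ({z, a * z} : Finset P) := by
      rw [Finset.mem_insert, Finset.mem_singleton]
      rintro (h | h)
      · exact haz h
      · exact haaz h.symm
    have h_1 : (1 : P) ∉ ({a, z, a * z} : Finset P) := by
      rw [Finset.mem_insert, Finset.mem_insert, Finset.mem_singleton]
      rintro (h | h | h)
      · exact ha1 h.symm
      · exact hz1 h.symm
      · exact h1az h.symm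
    rw [Nat.card_congr e, Nat.card_eq_fintype_card, Fintype.card_coe]
    calc ({1, a, z, a * z} : Finset P).card = ({a, z, a * z} : Finset P).card + 1 :=
          Finset.card_insert_of_notMem h_1
      _ = (({z, a * z} : Finset P).card + 1) + 1 := by rw [Finset.card_insert_of_notMem h_a]
      _ = ((({a * z} : Finset P).card + 1) + 1) + 1 := by rw [Finset.card_insert_of_notMem h_z]
      _ = 4 := by simp
  · have hdvd : Monoid.exponent ↥(fourSub a z ha hz hc) ∣ 2 :=
      Monoid.exponent_dvd_of_forall_pow_eq_one (fun g => by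
        apply Subtype.ext
        rw [pow_two]
        exact hsq g.1 g.2)
    have hne : Monoid.exponent ↥(fourSub a z ha hz hc) ≠ 1 := by
      intro h1
      rw [Monoid.exp_eq_one_iff] at h1
      exact ha1 (congrArg Subtype.val
        (h1.elim (⟨a, Or.inr (Or.inl rfl)⟩ : ↥(fourSub a z ha hz hc)) ⟨1, Or.inl rfl⟩))
    rcases (Nat.dvd_prime Nat.prime_two).mp hdvd with h | h
    · exact absurd h hne
    · exact h

theorem exists_centralizing_elt [Finite P] (E : Subgroup P) [hEn : E.Normal]
    (hEc : ∀ x ∈ E, ∀ y ∈ E, x * y = y * x) (hE2 : ∀ e ∈ E, e * e = 1) (hE8 : 8 ≤ Nat.card E)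
    (z : P) (hzE : z ∈ E) (a : P) (ha : a * a = 1) :
    ∃ w ∈ E, w ≠ 1 ∧ w ≠ z ∧ a * w = w * a := by
  classical
  have hainv : a⁻¹ = a := inv_eq_of_mul_eq_one_right ha
  have hcE : ∀ e ∈ E, a * e * a ∈ E := by
    intro e he
    have h0 := hEn.conj_mem e he a
    rwa [hainv] at h0
  have hcc : ∀ e, a * (a * e * a) * a = e := by
    intro e
    calc a * (a * e * a) * a = (a * a) * e * (a * a) := by group
      _ = e := by rw [ha, one_mul, mul_one]
  have hcm : ∀ e e', a * (e * e') * a = (a * e * a) * (a * e' * a) := by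
    intro e e'
    calc a * (e * e') * a = a * e * 1 * e' * a := by group
      _ = a * e * (a * a) * e' * a := by rw [ha]
      _ = (a * e * a) * (a * e' * a) := by group
  have hfix : ∀ w, a * w * a = w → a * w = w * a := by
    intro w hw
    calc a * w = a * w * (a * a) := by rw [ha, mul_one]
      _ = (a * w * a) * a := by group
      _ = w * a := by rw [hw]
  have hinv : ∀ e ∈ E, e⁻¹ = e := fun e he => inv_eq_of_mul_eq_one_right (hE2 e he)
  obtain ⟨e₁, he₁E, he₁⟩ := exists_mem_notMem_finset E {1, z}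
    (lt_of_le_of_lt Finset.card_le_two (by omega))
  obtain ⟨e₂, he₂E, he₂⟩ := exists_mem_notMem_finset E {1, z, e₁, e₁ * z}
    (lt_of_le_of_lt Finset.card_le_four (by omega))
  simp only [Finset.mem_insert, Finset.mem_singleton, not_or] at he₁ he₂
  obtain ⟨he₁1, he₁z⟩ := he₁
  obtain ⟨he₂1, he₂z, he₂e₁, he₂e₁z⟩ := he₂
  by_cases h₁ : a * e₁ * a = e₁
  · exact ⟨e₁, he₁E, he₁1, he₁z, hfix e₁ h₁⟩
  by_cases h₂ : a * e₂ * a = e₂
  · exact ⟨e₂, he₂E, he₂1, he₂z, hfix e₂ h₂⟩
  have hf : ∀ e ∈ E, a * e * a ≠ e → (e * (a * e * a) ∈ E ∧ e * (a * e * a) ≠ 1 ∧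
      a * (e * (a * e * a)) = (e * (a * e * a)) * a) := by
    intro e he hne
    refine ⟨E.mul_mem he (hcE e he), ?_, ?_⟩
    · intro h
      apply hne
      have h' : a * e * a = e⁻¹ := (inv_eq_of_mul_eq_one_right h).symm
      rw [h', hinv e he]
    · apply hfix
      rw [hcm e (a * e * a), hcc e]
      exact hEc _ (hcE e he) _ he
  by_cases h₃ : e₁ * (a * e₁ * a) = z
  · by_cases h₄ : e₂ * (a * e₂ * a) = z
    · have hc₁ : a * e₁ * a = e₁ * z := by
        have h' : a * e₁ * a = e₁⁻¹ * z := by rw [← h₃]; group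
        rw [h', hinv e₁ he₁E]
      have hc₂ : a * e₂ * a = e₂ * z := by
        have h' : a * e₂ * a = e₂⁻¹ * z := by rw [← h₄]; group
        rw [h', hinv e₂ he₂E]
      refine ⟨e₁ * e₂, E.mul_mem he₁E he₂E, ?_, ?_, ?_⟩
      · intro h
        apply he₂e₁
        have h' : e₂ = e₁⁻¹ := (inv_eq_of_mul_eq_one_right h).symm
        rw [h', hinv e₁ he₁E]
      · intro h
        apply he₂e₁z
        have h' : e₂ = e₁⁻¹ * z := by rw [← h]; group
        rw [h', hinv e₁ he₁E]
      · apply hfix
        rw [hcm e₁ e₂, hc₁, hc₂]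
        have hze₂ : z * e₂ = e₂ * z := hEc z hzE e₂ he₂E
        calc e₁ * z * (e₂ * z) = e₁ * (z * e₂) * z := by group
          _ = e₁ * (e₂ * z) * z := by rw [hze₂]
          _ = e₁ * e₂ * (z * z) := by group
          _ = e₁ * e₂ := by rw [hE2 z hzE, mul_one]
    · obtain ⟨h5, h6, h7⟩ := hf e₂ he₂E h₂
      exact ⟨_, h5, h6, h₄, h7⟩
  · obtain ⟨h5, h6, h7⟩ := hf e₁ he₁E h₁
    exact ⟨_, h5, h6, h₃, h7⟩

end Cfsg.Agent.Helper24
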