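import Mathlib
import Cfsg.Agent.S0006

set_option autoImplicit false

namespace Cfsg.Agent.Helper24

open Cfsg

/-- If every nontrivial subgroup has, for each prime divisor `p` of its order, a proper
subgroup of `p`-power index, then every subgroup has a `p`-complement. -/
theorem exists_p_complement_of_chain {G : Type*} [Group G] [Finite G]
    (h : ∀ H : Subgroup G, H ≠ ⊥ → ∀ p : ℕ, p.Prime → p ∣ Nat.card H →
      ∃ K : Subgroup H, K ≠ ⊤ ∧ ∃ k : ℕ, K.index = p ^ k)
    (p : ℕ) (hp : p.Prime) (n : ℕ) : ∀ H : Subgroup G, Nat.card H = n →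
      ∃ L : Subgroup G, ¬ p ∣ Nat.card L ∧ ∃ m : ℕ, Nat.card H = p ^ m * Nat.card L := by
  induction n using Nat.strong_induction_on with
  | _ n ih =>
  intro H hn
  by_cases hdvd : p ∣ Nat.card H
  · have hne : H ≠ ⊥ := by
      rintro rfl
      rw [Subgroup.card_bot] at hdvd
      exact hp.one_lt.ne' (Nat.dvd_one.mp hdvd)
    obtain ⟨K, hK, k, hk⟩ := h H hne p hp hdvd
    have hcard : Nat.card K * K.index = Nat.card H := Subgroup.card_mul_index K
    have hidx : K.index ≠ 1 := fun h1 => hK (Subgroup.index_eq_one.mp h1)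
    have hmap : Nat.card (K.map H.subtype) = Nat.card K :=
      Subgroup.card_map_of_injective (Subgroup.subtype_injective H)
    have hlt : Nat.card (K.map H.subtype) < n := by
      rw [hmap, ← hn, ← hcard]
      have h1 : 0 < Nat.card K := Nat.card_pos
      have h2 : K.index ≠ 0 := Subgroup.index_ne_zero_of_finite
      have h3 : 2 ≤ K.index := by omega
      nlinarith
    obtain ⟨L, hL, m, hm⟩ := ih _ hlt (K.map H.subtype) rfl
    refine ⟨L, hL, m + k, ?_⟩
    rw [← hcard, hk, ← hmap, hm]
    ring
  · exact ⟨H, hdvd, 0, by simp⟩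

/-- A finite group in which every nontrivial subgroup has proper subgroups of `p`-power index
for all prime divisors `p` of its order is solvable. -/
theorem isSolvable_of_chain {G : Type*} [Group G] [Finite G]
    (h : ∀ H : Subgroup G, H ≠ ⊥ → ∀ p : ℕ, p.Prime → p ∣ Nat.card H →
      ∃ K : Subgroup H, K ≠ ⊤ ∧ ∃ k : ℕ, K.index = p ^ k) : Group.IsSolvable G := by
  apply Cfsg.Agent.S0006.result
  intro p hp
  obtain ⟨L, hL, m, hm⟩ := exists_p_complement_of_chain h p hp _ (⊤ : Subgroup G) rfl
  rw [Subgroup.card_top] at hm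
  refine ⟨L, ?_⟩
  have hLpos : 0 < Nat.card L := Nat.card_pos
  have h1 : Nat.card L * L.index = Nat.card G := Subgroup.card_mul_index L
  have hidx : L.index = p ^ m := by
    rw [hm, mul_comm] at h1
    exact Nat.eq_of_mul_eq_mul_right hLpos h1
  rw [hidx, hm]
  congr 1
  rw [Nat.factorization_mul (pow_ne_zero _ hp.ne_zero) hLpos.ne', hp.factorization_pow]
  simp [Nat.factorization_eq_zero_of_not_dvd hL]

end Cfsg.Agent.Helper24
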