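import Mathlib
import Cfsg.Agent.Helper24.ItoPSolv
import Cfsg.Agent.Helper1.SZ

/-!
Ito's theorem, abstract form (for any class of finite groups closed under quotients in which
every nontrivial member has a nontrivial normal `p`- or `p'`-subgroup), and the solvable case.
-/

set_option autoImplicit false

namespace Cfsg.Agent.Helper24

open Cfsg

universe u

/-- Abstract form of the hard direction of Ito's theorem. -/
theorem ito_sylow_normal_abstract (p : ℕ) [hp : Fact p.Prime]
    (C : ∀ (G : Type u) [Group G], Prop)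
    (hquot : ∀ (G : Type u) [Group G] [Finite G] (A : Subgroup G) [A.Normal], C G → C (G ⧸ A))
    (hset : ∀ (G : Type u) [Group G] [Finite G] [Nontrivial G], C G →
      ∃ A : Subgroup G, A.Normal ∧ A ≠ ⊥ ∧ (IsPGroup p A ∨ (Nat.card A).Coprime p)) :
    ∀ (n : ℕ) (G : Type u) [Group G] [Finite G],
    Nat.card G ≤ n → C G →
    (∀ χ : G → ℂ, IsIrrCharacter G χ → ¬ p ∣ charDegree χ) →
    ∀ P : Sylow p G, (P : Subgroup G).Normal := by
  intro n
  induction n with
  | zero =>
    intro G _ _ hcard
    exact absurd hcard (by have : 0 < Nat.card G := Nat.card_pos; omega)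
  | succ n ih =>
    intro G _ _ hcard hsolv hdeg P
    classical
    have := Fintype.ofFinite G
    by_cases hnt : Nontrivial G
    swap
    · rw [not_nontrivial_iff_subsingleton] at hnt
      exact ⟨fun x hx g => by rw [Subsingleton.elim (g * x * g⁻¹) x]; exact hx⟩
    obtain ⟨A, hAn, hAne, hA⟩ := hset G hsolv
    haveI := hAn
    have hcardq : Nat.card (G ⧸ A) ≤ n := by
      have h1 := Subgroup.card_eq_card_quotient_mul_card_subgroup A
      have h2 : 1 < Nat.card A := by
        rw [Subgroup.one_lt_card_iff_ne_bot]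
        exact hAne
      have h3 : 0 < Nat.card (G ⧸ A) := Nat.card_pos
      nlinarith
    have hdegq : ∀ ψ : G ⧸ A → ℂ, IsIrrCharacter (G ⧸ A) ψ → ¬ p ∣ charDegree ψ := by
      intro ψ hψ
      have h1 := Helper6.isIrrCharacter_comp_surjective (QuotientGroup.mk' A)
        (QuotientGroup.mk'_surjective A) hψ
      have h2 := hdeg _ h1
      rwa [charDegree_eq_of_one_eq (isCharacter_of_irr h1) (isCharacter_of_irr hψ) (by
        show ψ (QuotientGroup.mk' A 1) = ψ 1
        rw [map_one])] at h2
    have hqn := ih (G ⧸ A) hcardq (hquot G A hsolv) hdegq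
      (P.mapSurjective (QuotientGroup.mk'_surjective A))
    rw [Sylow.coe_mapSurjective] at hqn
    have hAPn : (A ⊔ (P : Subgroup G)).Normal := by
      rw [← QuotientGroup.comap_map_mk']
      exact hqn.comap _
    rcases hA with hA | hA
    · have h1 : A ⊔ (P : Subgroup G) = (P : Subgroup G) :=
        P.is_maximal' (IsPGroup.to_sup_of_normal_left hA P.isPGroup') le_sup_right
      rw [h1] at hAPn
      exact hAPn
    · obtain ⟨Q, hQdef⟩ : ∃ Q : Subgroup G, Q = A ⊔ (P : Subgroup G) := ⟨_, rfl⟩
      rw [← hQdef] at hAPn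
      haveI := hAPn
      have hAQ : A ≤ Q := hQdef ▸ le_sup_left
      have hPQ : (P : Subgroup G) ≤ Q := hQdef ▸ le_sup_right
      have := Fintype.ofFinite Q
      haveI : (A.subgroupOf Q).Normal := Subgroup.normal_subgroupOf
      have hcop : (Nat.card (A.subgroupOf Q)).Coprime p := by
        rw [Nat.card_congr (Subgroup.subgroupOfEquivOfLe hAQ).toEquiv]
        exact hA
      have hsup : A.subgroupOf Q ⊔ ((P.subtype hPQ : Sylow p Q) : Subgroup Q) = ⊤ := by
        rw [Sylow.coe_subtype, ← Subgroup.subgroupOf_sup hAQ hPQ, ← hQdef,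
          Subgroup.subgroupOf_self]
      have hdegQ : ∀ χ : Q → ℂ, IsIrrCharacter Q χ → ¬ p ∣ charDegree χ := by
        intro θ hθ hpθ
        obtain ⟨χ, hχ, hcon⟩ := exists_irr_over Q hθ
        obtain ⟨hd1, -⟩ := charDegree_dvd_of_constituent Q hχ hθ hcon
        exact hdeg χ hχ (dvd_trans hpθ hd1)
      have hPn := sylow_normal_of_coprime_normal_sup p (A.subgroupOf Q) hcop
        (P.subtype hPQ) hsup hdegQ
      haveI hchar := Sylow.characteristic_of_normal (P.subtype hPQ) hPn
      have h2 := ConjAct.normal_of_characteristic_of_normal (H := Q)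
        (K := ((P.subtype hPQ : Sylow p Q) : Subgroup Q))
      rw [Sylow.coe_subtype, Subgroup.map_subgroupOf_eq_of_le hPQ] at h2
      exact h2

/-- A nontrivial finite solvable group has a nontrivial normal subgroup that is a `p`-group
or a `p'`-group. -/
theorem solvable_setup {G : Type u} [Group G] [Finite G] [Nontrivial G] (p : ℕ)
    [hp : Fact p.Prime] (hG : Group.IsSolvable G) :
    ∃ A : Subgroup G, A.Normal ∧ A ≠ ⊥ ∧ (IsPGroup p A ∨ (Nat.card A).Coprime p) := by
  obtain ⟨q, hq, A, hchar, hne, hcomm, hexp⟩ := Cfsg.Agent.Helper1.exists_char_elemAbelian G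
  haveI := hchar
  have hqf : Fact q.Prime := ⟨hq⟩
  have hAq : IsPGroup q A := by
    intro x
    refine ⟨1, ?_⟩
    rw [pow_one]
    apply Subtype.ext
    have := hexp x x.2
    simpa using this
  refine ⟨A, inferInstance, hne, ?_⟩
  by_cases hqp : q = p
  · left
    rw [← hqp]
    exact hAq
  · right
    obtain ⟨e, he⟩ := hAq.exists_card_eq
    rw [he]
    exact Nat.Coprime.pow_left e ((Nat.coprime_primes hq hp.out).mpr hqp)

/-- Ito's theorem (hard direction) for solvable groups. -/
theorem ito_sylow_normal_of_solvable {G : Type u} [Group G] [Finite G] (p : ℕ)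
    [hp : Fact p.Prime] (hG : Group.IsSolvable G)
    (hdeg : ∀ χ : G → ℂ, IsIrrCharacter G χ → ¬ p ∣ charDegree χ) (P : Sylow p G) :
    (P : Subgroup G).Normal :=
  ito_sylow_normal_abstract p (fun G _ => Group.IsSolvable G)
    (fun G _ _ A _ h => by haveI := h; infer_instance)
    (fun G _ _ _ h => solvable_setup p h) (Nat.card G) G le_rfl hG hdeg P

end Cfsg.Agent.Helper24
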