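import Mathlib

set_option autoImplicit false

open Matrix

namespace Cfsg.Agent.Helper24

theorem count_even_of_rank_even_odd {t : ℕ} (d : Fin t → ℕ)
    (h : ∀ k, Even k → Even (∑ i, (d i - k))) (j : ℕ) (hj : Odd j) :
    Even (Finset.univ.filter (fun i : Fin t => d i = j)).card := by
  have hj0 : 0 < j := hj.pos
  have h1 : Even (j - 1) := by
    obtain ⟨m, hm⟩ := hj
    exact ⟨m, by omega⟩
  have h2 : Even (j + 1) := hj.add_one
  have key : (Finset.univ.filter (fun i : Fin t => d i = j)).card + 2 * ∑ i, (d i - j)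
      = ∑ i, (d i - (j - 1)) + ∑ i, (d i - (j + 1)) := by
    rw [Finset.card_filter, Finset.mul_sum, ← Finset.sum_add_distrib, ← Finset.sum_add_distrib]
    apply Finset.sum_congr rfl
    intro i _
    split_ifs with hi <;> omega
  obtain ⟨a, ha⟩ := h _ h1
  obtain ⟨b, hb⟩ := h _ h2
  rw [ha, hb] at key
  exact ⟨a + b - ∑ i, (d i - j), by omega⟩

end Cfsg.Agent.Helper24
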