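import Mathlib
import Cfsg.Agent.Helper24.NormalEA

set_option autoImplicit false

namespace Cfsg.Agent.Helper24

open scoped commutatorElement

/-- For odd `p`, a non-cyclic normal subgroup `S` of a finite `p`-group contains a normal
elementary abelian subgroup of the whole group of order `p ^ 2`. -/
theorem exists_normal_elementary_sq_le {R : Type*} [Group R] [Finite R] {p : ℕ} [Fact p.Prime]
    (hp : p ≠ 2) (hR : IsPGroup p R) (S : Subgroup R) [hSn : S.Normal] (hnc : ¬ IsCyclic S) :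
    ∃ A : Subgroup R, A ≤ S ∧ A.Normal ∧ Cfsg.IsElementaryAbelian p A ∧ Nat.card A = p ^ 2 := by
  have hpp : p.Prime := Fact.out
  haveI : Group.IsNilpotent R := hR.isNilpotent
  obtain ⟨A₀, ⟨hA₀S, hA₀n, hA₀c⟩, hmin⟩ := wellFounded_gt.has_min
    {A : Subgroup R | A ≤ S ∧ A.Normal ∧ IsMulCommutative A}
    ⟨⊥, bot_le, Subgroup.normal_bot, ⟨⟨fun a b => Subsingleton.elim _ _⟩⟩⟩
  have hmax : ∀ B : Subgroup R, B ≤ S → B.Normal → IsMulCommutative B → A₀ ≤ B → B = A₀ := by
    intro B hBS hBn hBc hAB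
    by_contra hne
    exact hmin B ⟨hBS, hBn, hBc⟩ (lt_of_le_of_ne hAB (Ne.symm hne))
  haveI := hA₀n
  have hA₀comm : ∀ a ∈ A₀, ∀ b ∈ A₀, a * b = b * a := by
    intro a ha b hb
    have := hA₀c.is_comm.comm ⟨a, ha⟩ ⟨b, hb⟩
    exact congrArg Subtype.val this
  by_cases hcyc : IsCyclic A₀
  · -- cyclic case
    have hne : ¬ S ≤ A₀ := by
      intro h
      apply hnc
      have htop : A₀ = S := le_antisymm hA₀S h
      have e : A₀ ≃* S := MulEquiv.subgroupCongr htop
      exact e.isCyclic.mp hcyc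
    obtain ⟨x, hxS, hxA, hxc, hxp⟩ := exists_mem_not_mem_central_pow_mem hR S A₀ hne
    obtain ⟨B, hB⟩ : ∃ B : Subgroup R, B = A₀ ⊔ Subgroup.zpowers x := ⟨_, rfl⟩
    have hBn : B.Normal := hB ▸ sup_zpowers_normal A₀ x hxc
    have hAB : A₀ ≤ B := hB ▸ le_sup_left
    have hBS : B ≤ S := by
      rw [hB]
      exact sup_le hA₀S (by rw [Subgroup.zpowers_le]; exact hxS)
    have hxB : x ∈ B := hB ▸ (le_sup_right : Subgroup.zpowers x ≤ _) (Subgroup.mem_zpowers x)
    have hBcard : Nat.card B = Nat.card A₀ * p := by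
      rw [hB]; exact card_sup_zpowers_of_pow_mem hpp A₀ x hxA hxp
    have hrel : (A₀.subgroupOf B).index = p := by
      have h1 := Subgroup.relIndex_mul_relIndex ⊥ A₀ B bot_le hAB
      rw [Subgroup.relIndex_bot_left, Subgroup.relIndex_bot_left, hBcard] at h1
      exact Nat.eq_of_mul_eq_mul_left Nat.card_pos h1
    have hBnc : ¬ IsCyclic B := by
      intro hBc
      have hBcomm : IsMulCommutative B := ⟨⟨fun a b => by
        haveI := hBc
        exact (IsCyclic.commGroup).mul_comm a b⟩⟩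
      have := hmax B hBS hBn hBcomm hAB
      exact hxA (this ▸ hxB)
    have hcycS : IsCyclic (A₀.subgroupOf B) :=
      (Subgroup.subgroupOfEquivOfLe hAB).isCyclic.mpr hcyc
    obtain ⟨K, hK, hKcard⟩ := omega_of_cyclic_index_p hp (hR.to_subgroup B) hBnc
      (A₀.subgroupOf B) hcycS hrel
    refine ⟨K.map B.subtype, ?_, ⟨fun a ha g => ?_⟩, ?_, ?_⟩
    · rintro _ ⟨k, -, rfl⟩
      exact hBS k.2
    · rw [Subgroup.mem_map] at ha ⊢
      obtain ⟨k, hk, rfl⟩ := ha
      have hkp : k ^ p = 1 := (hK k).mp hk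
      refine ⟨⟨g * (k : R) * g⁻¹, hBn.conj_mem _ k.2 g⟩, ?_, rfl⟩
      rw [hK]
      apply Subtype.ext
      show (g * (k : R) * g⁻¹) ^ p = 1
      have hkp' : (k : R) ^ p = 1 := by
        have := congrArg Subtype.val hkp
        simpa using this
      rw [conj_pow, hkp', mul_one, mul_inv_cancel]
    · have hcard : Nat.card (K.map B.subtype) = p ^ 2 := by
        rw [Subgroup.card_map_of_injective B.subtype_injective, hKcard]
      refine ⟨IsPGroup.isMulCommutative_of_card_eq_prime_sq hcard, fun a ha => ?_⟩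
      rw [Subgroup.mem_map] at ha
      obtain ⟨k, hk, rfl⟩ := ha
      have hkp : k ^ p = 1 := (hK k).mp hk
      have := congrArg Subtype.val hkp
      simpa using this
    · rw [Subgroup.card_map_of_injective B.subtype_injective, hKcard]
  · -- non-cyclic case: `Ω₁(A₀)`
    let Ω : Subgroup R :=
      { carrier := {a | a ∈ A₀ ∧ a ^ p = 1}
        one_mem' := ⟨A₀.one_mem, one_pow p⟩
        mul_mem' := by
          rintro a b ⟨ha, hap⟩ ⟨hb, hbp⟩
          refine ⟨A₀.mul_mem ha hb, ?_⟩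
          rw [Commute.mul_pow (hA₀comm a ha b hb), hap, hbp, one_mul]
        inv_mem' := by
          rintro a ⟨ha, hap⟩
          exact ⟨A₀.inv_mem ha, by rw [inv_pow, hap, inv_one]⟩ }
    have hΩmem : ∀ a, a ∈ Ω ↔ a ∈ A₀ ∧ a ^ p = 1 := fun a => Iff.rfl
    have hΩn : Ω.Normal := by
      refine ⟨fun a ha g => ?_⟩
      rw [hΩmem] at ha ⊢
      exact ⟨hA₀n.conj_mem a ha.1 g, by rw [conj_pow, ha.2, mul_one, mul_inv_cancel]⟩
    haveI := hΩn
    have hΩA : Ω ≤ A₀ := fun a ha => ((hΩmem a).mp ha).1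
    have hΩe : ∀ a ∈ Ω, a ^ p = 1 := fun a ha => ((hΩmem a).mp ha).2
    obtain ⟨k, hΩcard⟩ := IsPGroup.iff_card.mp (hR.to_subgroup Ω)
    have hk2 : 2 ≤ k := by
      by_contra hk
      apply hcyc
      apply isCyclic_of_card_omega_le (hR.to_subgroup A₀)
        (fun a b => Subtype.ext (hA₀comm a a.2 b b.2)) (Ω.subgroupOf A₀)
      · intro x
        rw [Subgroup.mem_subgroupOf, hΩmem]
        constructor
        · intro h
          apply Subtype.ext
          simpa using h.2
        · intro h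
          refine ⟨x.2, ?_⟩
          have := congrArg Subtype.val h
          simpa using this
      · have h1 : Nat.card (Ω.subgroupOf A₀) = Nat.card Ω :=
          Nat.card_congr (Subgroup.subgroupOfEquivOfLe hΩA).toEquiv
        rw [h1, hΩcard]
        calc p ^ k ≤ p ^ 1 := Nat.pow_le_pow_right hpp.pos (by omega)
          _ = p := pow_one p
    obtain ⟨B, hBn, hBΩ, hBcard⟩ := exists_normal_le_card_pow hR Ω hΩe k hΩcard 2 hk2
    refine ⟨B, (hBΩ.trans hΩA).trans hA₀S, hBn, ⟨IsPGroup.isMulCommutative_of_card_eq_prime_sq hBcard,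
      fun a ha => hΩe a (hBΩ ha)⟩, hBcard⟩

end Cfsg.Agent.Helper24
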