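import Mathlib

set_option autoImplicit false

namespace Cfsg.Agent.Helper24

/-- If every orbit has cardinality divisible by `k`, so has the whole set. -/
theorem dvd_card_of_dvd_orbits {M X : Type*} [Group M] [MulAction M X] [Finite X] (k : ℕ)
    (hk : ∀ x : X, k ∣ Nat.card (MulAction.orbit M x)) : k ∣ Nat.card X := by
  classical
  haveI : Fintype (MulAction.orbitRel.Quotient M X) := Fintype.ofFinite _
  rw [Nat.card_congr (MulAction.selfEquivSigmaOrbits' M X), Nat.card_sigma]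
  refine Finset.dvd_sum (fun ω _ => ?_)
  induction ω using Quotient.inductionOn' with
  | h x =>
    have e : MulAction.orbitRel.Quotient.orbit (Quotient.mk'' x : MulAction.orbitRel.Quotient M X)
        = MulAction.orbit M x := rfl
    rw [e]
    exact hk x

/-- Simultaneous conjugation action of `P` on pairs `(y, z)` with `y ∼ g`, `z ∼ h`,
`z y⁻¹ ∈ P`. -/
def pairConjAct {G : Type*} [Group G] (P : Subgroup G) (g h : G) :
    MulAction (↥P) {yz : G × G // IsConj g yz.1 ∧ IsConj h yz.2 ∧ yz.2 * yz.1⁻¹ ∈ P} where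
  smul u x := ⟨((u : G) * x.1.1 * (u : G)⁻¹, (u : G) * x.1.2 * (u : G)⁻¹),
    x.2.1.trans (isConj_iff.mpr ⟨(u : G), rfl⟩),
    x.2.2.1.trans (isConj_iff.mpr ⟨(u : G), rfl⟩),
    by
      have e : (u : G) * x.1.2 * (u : G)⁻¹ * ((u : G) * x.1.1 * (u : G)⁻¹)⁻¹
          = (u : G) * (x.1.2 * x.1.1⁻¹) * (u : G)⁻¹ := by group
      show (u : G) * x.1.2 * (u : G)⁻¹ * ((u : G) * x.1.1 * (u : G)⁻¹)⁻¹ ∈ P
      rw [e]
      exact P.mul_mem (P.mul_mem u.2 x.2.2.2) (P.inv_mem u.2)⟩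
  one_smul x := by
    refine Subtype.ext (Prod.ext ?_ ?_)
    · show ((1 : ↥P) : G) * x.1.1 * ((1 : ↥P) : G)⁻¹ = x.1.1
      simp
    · show ((1 : ↥P) : G) * x.1.2 * ((1 : ↥P) : G)⁻¹ = x.1.2
      simp
  mul_smul u v x := by
    refine Subtype.ext (Prod.ext ?_ ?_)
    · show ((u * v : ↥P) : G) * x.1.1 * ((u * v : ↥P) : G)⁻¹
        = (u : G) * ((v : G) * x.1.1 * (v : G)⁻¹) * (u : G)⁻¹
      rw [Subgroup.coe_mul]; group
    · show ((u * v : ↥P) : G) * x.1.2 * ((u * v : ↥P) : G)⁻¹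
        = (u : G) * ((v : G) * x.1.2 * (v : G)⁻¹) * (u : G)⁻¹
      rw [Subgroup.coe_mul]; group

theorem pairConjAct_smul_fst {G : Type*} [Group G] (P : Subgroup G) (g h : G) (u : ↥P)
    (x : {yz : G × G // IsConj g yz.1 ∧ IsConj h yz.2 ∧ yz.2 * yz.1⁻¹ ∈ P}) :
    (((pairConjAct P g h).toSMul.smul u x)).1.1 = (u : G) * x.1.1 * (u : G)⁻¹ := rfl

end Cfsg.Agent.Helper24
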