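import Mathlib
import Cfsg.Agent.Helper6.Inertia
import Cfsg.Agent.Helper6.DetChar
import Cfsg.Agent.Helper10.AbDual
import Cfsg.Agent.Helper24.SignOrbit
import Cfsg.Agent.Helper24.LinearChar
import Cfsg.Agent.S0867

set_option autoImplicit false

namespace Cfsg.Agent.Helper24

open Cfsg

/-- `G` acts on the irreducible characters of a normal subgroup by conjugation. -/
noncomputable def conjAction {G : Type*} [Group G] (N : Subgroup G) [hN : N.Normal] [Fintype N] :
    MulAction G (IrrCharacter N) where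
  smul g ψ := ⟨Helper6.conjFun N g⁻¹ (ψ : N → ℂ), Helper6.isIrrCharacter_conjFun N g⁻¹ ψ.2⟩
  one_smul ψ := by
    apply Subtype.ext
    show Helper6.conjFun N (1 : G)⁻¹ (ψ : N → ℂ) = (ψ : N → ℂ)
    rw [inv_one, Helper6.conjFun_one]
  mul_smul g h ψ := by
    apply Subtype.ext
    show Helper6.conjFun N (g * h)⁻¹ (ψ : N → ℂ)
      = Helper6.conjFun N g⁻¹ (Helper6.conjFun N h⁻¹ (ψ : N → ℂ))
    rw [mul_inv_rev, Helper6.conjFun_mul]

attribute [local instance] conjAction

theorem conjAction_apply {G : Type*} [Group G] (N : Subgroup G) [hN : N.Normal] [Fintype N]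
    (g : G) (ψ : IrrCharacter N) :
    ((g • ψ : IrrCharacter N) : N → ℂ) = Helper6.conjFun N g⁻¹ (ψ : N → ℂ) := rfl

/-- The group of `G`-invariant homomorphisms `N →* ℂˣ`. -/
def invHom {G : Type*} [Group G] (N : Subgroup G) [hN : N.Normal] : Subgroup (N →* ℂˣ) where
  carrier := {μ | ∀ (g : G) (k : N), μ ⟨g * k * g⁻¹, hN.conj_mem (k : G) k.2 g⟩ = μ k}
  mul_mem' := by
    intro μ ν hμ hν g k
    have h1 : μ ⟨g * k * g⁻¹, hN.conj_mem (k : G) k.2 g⟩ = μ k := hμ g k
    have h2 : ν ⟨g * k * g⁻¹, hN.conj_mem (k : G) k.2 g⟩ = ν k := hν g k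
    rw [MonoidHom.mul_apply, MonoidHom.mul_apply, h1, h2]
  one_mem' := by
    intro g k
    rfl
  inv_mem' := by
    intro μ hμ g k
    have h1 : μ ⟨g * k * g⁻¹, hN.conj_mem (k : G) k.2 g⟩ = μ k := hμ g k
    rw [MonoidHom.inv_apply, MonoidHom.inv_apply, h1]

theorem mem_invHom {G : Type*} [Group G] (N : Subgroup G) [hN : N.Normal] (μ : N →* ℂˣ) :
    μ ∈ invHom N ↔ ∀ (g : G) (k : N), μ ⟨g * k * g⁻¹, hN.conj_mem (k : G) k.2 g⟩ = μ k :=
  Iff.rfl

/-- A character fixed by the conjugation action is invariant. -/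
theorem invariant_of_fixed {G : Type*} [Group G] (N : Subgroup G) [hN : N.Normal] [Fintype N]
    (ψ : IrrCharacter N) (hfix : ∀ g : G, g • ψ = ψ) (g : G) (k : N) :
    (ψ : N → ℂ) ⟨g * k * g⁻¹, hN.conj_mem (k : G) k.2 g⟩ = (ψ : N → ℂ) k := by
  have h : Helper6.conjFun N (g⁻¹)⁻¹ (ψ : N → ℂ) k = (ψ : N → ℂ) k :=
    congrFun (congrArg Subtype.val (hfix g⁻¹)) k
  rw [inv_inv] at h
  exact h

/-- The fixed linear characters of a normal subgroup correspond to the invariant homomorphisms. -/
theorem card_fixed_linear {G : Type*} [Group G] (N : Subgroup G) [hN : N.Normal] [Fintype N] :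
    Nat.card {ψ : IrrCharacter N // (∀ g : G, g • ψ = ψ) ∧ charDegree (ψ : N → ℂ) = 1}
      = Nat.card (invHom (G := G) N) := by
  have hdeg : ∀ μ : N →* ℂˣ, charDegree (fun k : N => ((μ k : ℂˣ) : ℂ)) = 1 := by
    intro μ
    have h := charDegree_spec (Helper2.isCharacter_of_hom μ)
    have h1 : ((μ 1 : ℂˣ) : ℂ) = 1 := by rw [map_one, Units.val_one]
    have h2 : (charDegree (fun k : N => ((μ k : ℂˣ) : ℂ)) : ℂ) = 1 := by
      rw [← h]; exact h1
    exact_mod_cast h2
  have hfix : ∀ (μ : invHom (G := G) N) (g : G),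
      g • (⟨fun k : N => (((μ : N →* ℂˣ) k : ℂˣ) : ℂ),
        Helper2.isIrrCharacter_of_hom (μ : N →* ℂˣ)⟩ : IrrCharacter N)
      = ⟨fun k : N => (((μ : N →* ℂˣ) k : ℂˣ) : ℂ),
        Helper2.isIrrCharacter_of_hom (μ : N →* ℂˣ)⟩ := by
    intro μ g
    apply Subtype.ext
    funext k
    have h1 := (mem_invHom N (μ : N →* ℂˣ)).1 μ.2 g⁻¹ k
    show (((μ : N →* ℂˣ) ⟨g⁻¹ * k * g⁻¹⁻¹, hN.conj_mem (k : G) k.2 g⁻¹⟩ : ℂˣ) : ℂ)
      = (((μ : N →* ℂˣ) k : ℂˣ) : ℂ)
    rw [h1]
  symm
  apply Nat.card_congr
  refine Equiv.ofBijective (fun μ : invHom (G := G) N =>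
    (⟨⟨fun k : N => (((μ : N →* ℂˣ) k : ℂˣ) : ℂ),
        Helper2.isIrrCharacter_of_hom (μ : N →* ℂˣ)⟩, ⟨hfix μ, hdeg (μ : N →* ℂˣ)⟩⟩ :
      {ψ : IrrCharacter N // (∀ g : G, g • ψ = ψ) ∧ charDegree (ψ : N → ℂ) = 1})) ⟨?_, ?_⟩
  · intro μ ν h
    apply Subtype.ext
    refine MonoidHom.ext fun k => Units.ext ?_
    exact congrFun (congrArg (fun ψ : {ψ : IrrCharacter N //
      (∀ g : G, g • ψ = ψ) ∧ charDegree (ψ : N → ℂ) = 1} => ((ψ : IrrCharacter N) : N → ℂ)) h) k
  · rintro ⟨⟨χ, hχ⟩, hfx, hd1⟩
    have hχc := isCharacter_of_irr hχ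
    have hd1' : charDegree χ = 1 := hd1
    have h1 : χ 1 = 1 := by
      rw [charDegree_spec hχc, hd1']
      exact Nat.cast_one
    have hmul := linear_char_mul hχc h1
    let F : N →* ℂ := { toFun := χ, map_one' := h1, map_mul' := hmul }
    have hmem : F.toHomUnits ∈ invHom (G := G) N := by
      rw [mem_invHom]
      intro g k
      apply Units.ext
      rw [MonoidHom.coe_toHomUnits, MonoidHom.coe_toHomUnits]
      exact invariant_of_fixed N ⟨χ, hχ⟩ hfx g k
    refine ⟨⟨F.toHomUnits, hmem⟩, ?_⟩
    apply Subtype.ext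
    apply Subtype.ext
    funext k
    exact MonoidHom.coe_toHomUnits F k

/-- The normal subgroup generated by the elements of order prime to `p`. -/
def opResidual (p : ℕ) (G : Type*) [Group G] : Subgroup G :=
  Subgroup.normalClosure {g : G | g ^ (Nat.card G / p ^ (Nat.card G).factorization p) = 1}

instance opResidual_normal (p : ℕ) (G : Type*) [Group G] : (opResidual p G).Normal :=
  Subgroup.normalClosure_normal

theorem opResidual_index (p : ℕ) (hp : p.Prime) (G : Type*) [Group G] [Finite G] :
    ∃ a : ℕ, (opResidual p G).index = p ^ a := by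
  haveI := Fact.mk hp
  have hquot : IsPGroup p (G ⧸ opResidual p G) := by
    intro x
    obtain ⟨g, rfl⟩ := QuotientGroup.mk_surjective x
    refine ⟨(Nat.card G).factorization p, ?_⟩
    rw [← QuotientGroup.mk_pow, QuotientGroup.eq_one_iff]
    apply Subgroup.subset_normalClosure
    show (g ^ p ^ (Nat.card G).factorization p)
      ^ (Nat.card G / p ^ (Nat.card G).factorization p) = 1
    rw [← pow_mul, Nat.ordProj_mul_ordCompl_eq_self, pow_card_eq_one']
  obtain ⟨a, ha⟩ := IsPGroup.iff_card.mp hquot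
  exact ⟨a, by rw [Subgroup.index_eq_card]; exact ha⟩

/-- Every homomorphism from the `p`-residual to `ℂˣ` has exponent dividing the `p'`-part of
the group order. -/
theorem opResidual_hom_pow (p : ℕ) {G : Type*} [Group G] (μ : opResidual p G →* ℂˣ)
    (k : opResidual p G) :
    μ k ^ (Nat.card G / p ^ (Nat.card G).factorization p) = 1 := by
  have key : ∀ (x : G) (hx : x ∈ opResidual p G),
      μ ⟨x, hx⟩ ^ (Nat.card G / p ^ (Nat.card G).factorization p) = 1 := by
    intro x hx
    refine Subgroup.closure_induction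
      (p := fun x hx => μ ⟨x, hx⟩ ^ (Nat.card G / p ^ (Nat.card G).factorization p) = 1)
      ?_ ?_ ?_ ?_ hx
    · intro y hy
      obtain ⟨b, hb, hconj⟩ := Group.mem_conjugatesOfSet_iff.1 hy
      obtain ⟨c, hc⟩ := isConj_iff.1 hconj
      have hym : y ^ (Nat.card G / p ^ (Nat.card G).factorization p) = 1 := by
        rw [← hc, conj_pow,
          show b ^ (Nat.card G / p ^ (Nat.card G).factorization p) = 1 from hb, mul_one,
          mul_inv_cancel]
      rw [← map_pow]
      have h1 : (⟨y, Subgroup.subset_closure hy⟩ : opResidual p G)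
          ^ (Nat.card G / p ^ (Nat.card G).factorization p) = 1 :=
        Subtype.ext (by rw [Subgroup.coe_pow]; exact hym)
      rw [h1, map_one]
    · rw [show (⟨1, Subgroup.one_mem _⟩ : opResidual p G) = 1 from rfl, map_one, one_pow]
    · intro x y hx hy h1 h2
      rw [show (⟨x * y, Subgroup.mul_mem _ hx hy⟩ : opResidual p G) = ⟨x, hx⟩ * ⟨y, hy⟩ from rfl,
        map_mul, mul_pow, h1, h2, one_mul]
    · intro x hx h1
      rw [show (⟨x⁻¹, Subgroup.inv_mem _ hx⟩ : opResidual p G) = (⟨x, hx⟩ : opResidual p G)⁻¹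
        from rfl, map_inv, inv_pow, h1, inv_one]
  exact key k.1 k.2

/-- **Thompson's theorem**: if `p` divides the degree of every nonlinear irreducible character
of `G`, then the `p`-residual of `G` has order prime to `p` (so it is a normal `p`-complement). -/
theorem card_opResidual_coprime {G : Type*} [Group G] [Finite G] (p : ℕ) (hp : p.Prime)
    (hdeg : ∀ χ : IrrCharacter G, charDegree (χ : G → ℂ) ≠ 1 → p ∣ charDegree (χ : G → ℂ)) :
    (Nat.card (opResidual p G)).Coprime p := by
  classical
  haveI := Fact.mk hp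
  have := Fintype.ofFinite G
  haveI hKn : (opResidual p G).Normal := opResidual_normal p G
  haveI : Fintype (opResidual p G) := Fintype.ofFinite _
  have := finite_irrCharacter (G := opResidual p G)
  haveI := Fintype.ofFinite (IrrCharacter (opResidual p G))
  rw [Nat.coprime_comm, Nat.Prime.coprime_iff_not_dvd hp]
  intro hpK
  have hcop_m : Nat.Coprime p (Nat.card G / p ^ (Nat.card G).factorization p) :=
    Nat.coprime_ordCompl hp Nat.card_pos.ne'
  obtain ⟨a, ha⟩ := opResidual_index p hp G
  have hdegspec : ∀ ψ : IrrCharacter (opResidual p G),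
      (ψ : opResidual p G → ℂ) 1 = (charDegree (ψ : opResidual p G → ℂ) : ℂ) :=
    fun ψ => charDegree_spec (isCharacter_of_irr ψ.2)
  have hdegsmul : ∀ (l : G) (ψ : IrrCharacter (opResidual p G)),
      charDegree ((l • ψ : IrrCharacter (opResidual p G)) : opResidual p G → ℂ)
        = charDegree (ψ : opResidual p G → ℂ) := by
    intro l ψ
    have h1 : ((l • ψ : IrrCharacter (opResidual p G)) : opResidual p G → ℂ) 1
        = (ψ : opResidual p G → ℂ) 1 :=
      Helper6.conjFun_one_apply (opResidual p G) l⁻¹ (ψ : opResidual p G → ℂ)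
    rw [hdegspec, hdegspec] at h1
    exact_mod_cast h1
  have hfixsmul : ∀ (l : G) (ψ : IrrCharacter (opResidual p G)),
      (∀ g : G, g • (l • ψ) = l • ψ) ↔ (∀ g : G, g • ψ = ψ) := by
    intro l ψ
    constructor
    · intro h
      have h1 : l • ψ = ψ := by
        have h2 := h l⁻¹
        rw [inv_smul_smul] at h2
        exact h2.symm
      intro g
      have h3 := h g
      rw [h1] at h3
      exact h3
    · intro h g
      rw [h l, h g]
  -- the weight function
  obtain ⟨f, hf_def⟩ : ∃ f : IrrCharacter (opResidual p G) → ℤ, ∀ ψ, f ψ =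
      if (∀ g : G, g • ψ = ψ) ∧ charDegree (ψ : opResidual p G → ℂ) = 1 then 0
      else (charDegree (ψ : opResidual p G → ℂ) : ℤ) ^ 2 := ⟨_, fun ψ => rfl⟩
  have hinv : ∀ (l : G) (ψ : IrrCharacter (opResidual p G)), f (l • ψ) = f ψ := by
    intro l ψ
    rw [hf_def, hf_def, hdegsmul l ψ]
    exact if_congr (and_congr (hfixsmul l ψ) Iff.rfl) rfl rfl
  have hdvd : ∀ ψ : IrrCharacter (opResidual p G),
      (p : ℤ) ∣ (Nat.card (MulAction.orbit G ψ) : ℤ) * f ψ := by
    intro ψ
    by_cases hfix : ∀ g : G, g • ψ = ψ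
    · by_cases hd1 : charDegree (ψ : opResidual p G → ℂ) = 1
      · have h0 : f ψ = 0 := by rw [hf_def, if_pos ⟨hfix, hd1⟩]
        rw [h0, mul_zero]
        exact dvd_zero _
      · have hf : f ψ = (charDegree (ψ : opResidual p G → ℂ) : ℤ) ^ 2 := by
          rw [hf_def, if_neg (fun h => hd1 h.2)]
        have hpd : p ∣ charDegree (ψ : opResidual p G → ℂ) := by
          by_contra hnd
          have hcopd : Nat.Coprime p (charDegree (ψ : opResidual p G → ℂ)) :=
            (Nat.Prime.coprime_iff_not_dvd hp).2 hnd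
          have hdetlin := Helper6.detChar_isLinear (isCharacter_of_irr ψ.2)
          have hdetmul := linear_char_mul hdetlin.1 hdetlin.2
          let F : opResidual p G →* ℂ :=
            { toFun := detChar (ψ : opResidual p G → ℂ), map_one' := hdetlin.2,
              map_mul' := hdetmul }
          have hdetpow : detChar (ψ : opResidual p G → ℂ)
              ^ (Nat.card G / p ^ (Nat.card G).factorization p) = 1 := by
            funext k
            have h1 := opResidual_hom_pow p F.toHomUnits k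
            have h2 : ((F.toHomUnits k : ℂˣ) : ℂ)
                ^ (Nat.card G / p ^ (Nat.card G).factorization p) = 1 := by
              rw [← Units.val_pow_eq_pow_val, h1, Units.val_one]
            rw [MonoidHom.coe_toHomUnits] at h2
            exact h2
          have hdo : detOrder (ψ : opResidual p G → ℂ)
              ∣ (Nat.card G / p ^ (Nat.card G).factorization p) :=
            orderOf_dvd_of_pow_eq_one hdetpow
          have hcop : Nat.Coprime (opResidual p G).index
              (detOrder (ψ : opResidual p G → ℂ) * charDegree (ψ : opResidual p G → ℂ)) := by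
            rw [ha]
            exact Nat.Coprime.pow_left a
              (Nat.Coprime.mul_right (Nat.Coprime.coprime_dvd_right hdo hcop_m) hcopd)
          obtain ⟨χ, ⟨hχ, hχK, -⟩, -⟩ := Cfsg.Agent.S0867.result (opResidual p G)
            (ψ : opResidual p G → ℂ) ψ.2 (invariant_of_fixed (opResidual p G) ψ hfix)
            (charDegree (ψ : opResidual p G → ℂ)) (hdegspec ψ) hcop
          have hχ1 : charDegree χ = charDegree (ψ : opResidual p G → ℂ) := by
            have h1 : χ 1 = (ψ : opResidual p G → ℂ) 1 := hχK 1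
            rw [charDegree_spec (isCharacter_of_irr hχ), hdegspec] at h1
            exact_mod_cast h1
          have h3 : p ∣ charDegree χ := hdeg ⟨χ, hχ⟩ (by
            show charDegree χ ≠ 1
            rw [hχ1]
            exact hd1)
          rw [hχ1] at h3
          exact hnd h3
        rw [hf]
        exact Dvd.dvd.mul_left (Dvd.dvd.pow (Int.natCast_dvd_natCast.2 hpd) two_ne_zero) _
    · have hstab : MulAction.stabilizer G ψ ≠ ⊤ := by
        intro h
        apply hfix
        intro g
        have hg : g ∈ MulAction.stabilizer G ψ := by rw [h]; exact Subgroup.mem_top g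
        exact MulAction.mem_stabilizer_iff.1 hg
      have hKle : opResidual p G ≤ MulAction.stabilizer G ψ := by
        intro k hk
        rw [MulAction.mem_stabilizer_iff]
        have hk' := (Helper6.mem_inertia (opResidual p G) (ψ : opResidual p G → ℂ) k⁻¹).1
          (Helper6.le_inertia (opResidual p G) (Helper2.IsIrrCharacter.isClassFunction ψ.2)
            ((opResidual p G).inv_mem hk))
        apply Subtype.ext
        funext n
        exact hk' n
      have h1 : (MulAction.stabilizer G ψ).index ∣ p ^ a := by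
        rw [← ha]
        exact Subgroup.index_dvd_of_le hKle
      obtain ⟨j, -, hj⟩ := (Nat.dvd_prime_pow hp).1 h1
      have hj0 : j ≠ 0 := by
        rintro rfl
        rw [pow_zero] at hj
        exact hstab (Subgroup.index_eq_one.1 hj)
      have h2 : p ∣ Nat.card (MulAction.orbit G ψ) := by
        rw [Nat.card_coe_set_eq, ← MulAction.index_stabilizer, hj]
        exact dvd_pow_self p hj0
      exact Dvd.dvd.mul_right (Int.natCast_dvd_natCast.2 h2) _
  have hsum := dvd_sum_of_orbit (Λ := G) f (p : ℤ) hinv hdvd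
  have hsq : ∑ ψ : IrrCharacter (opResidual p G),
      (charDegree (ψ : opResidual p G → ℂ) : ℤ) ^ 2 = (Nat.card (opResidual p G) : ℤ) := by
    have h1 := Helper2.sum_degree_sq (G := opResidual p G)
    have h2 : ((∑ ψ : IrrCharacter (opResidual p G),
        (charDegree (ψ : opResidual p G → ℂ) : ℤ) ^ 2 : ℤ) : ℂ)
        = ((Nat.card (opResidual p G) : ℤ) : ℂ) := by
      push_cast
      rw [← h1]
      refine Finset.sum_congr rfl fun ψ _ => ?_
      rw [hdegspec ψ, pow_two]
    exact_mod_cast h2
  have hsplit : ∑ ψ : IrrCharacter (opResidual p G), f ψ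
      = (Nat.card (opResidual p G) : ℤ)
        - (Nat.card {ψ : IrrCharacter (opResidual p G) //
            (∀ g : G, g • ψ = ψ) ∧ charDegree (ψ : opResidual p G → ℂ) = 1} : ℤ) := by
    have h1 : ∀ ψ : IrrCharacter (opResidual p G), f ψ
        = (charDegree (ψ : opResidual p G → ℂ) : ℤ) ^ 2
          - (if (∀ g : G, g • ψ = ψ) ∧ charDegree (ψ : opResidual p G → ℂ) = 1
              then (1 : ℤ) else 0) := by
      intro ψ
      rw [hf_def]
      by_cases hc : (∀ g : G, g • ψ = ψ) ∧ charDegree (ψ : opResidual p G → ℂ) = 1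
      · rw [if_pos hc, if_pos hc, hc.2]
        norm_num
      · rw [if_neg hc, if_neg hc, sub_zero]
    rw [Finset.sum_congr rfl (fun ψ _ => h1 ψ), Finset.sum_sub_distrib, hsq]
    congr 1
    rw [Finset.sum_boole, Nat.card_eq_fintype_card, Fintype.card_subtype]
  have hX : p ∣ Nat.card {ψ : IrrCharacter (opResidual p G) //
      (∀ g : G, g • ψ = ψ) ∧ charDegree (ψ : opResidual p G → ℂ) = 1} := by
    have h1 : (p : ℤ) ∣ (Nat.card (opResidual p G) : ℤ) := Int.natCast_dvd_natCast.2 hpK
    rw [hsplit] at hsum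
    have h2 := dvd_sub h1 hsum
    rw [sub_sub_cancel] at h2
    exact Int.natCast_dvd_natCast.1 h2
  rw [card_fixed_linear] at hX
  haveI : Finite (opResidual p G →* ℂˣ) := Helper10.finite_hom_units (Q := opResidual p G)
  obtain ⟨μ, hμ⟩ := exists_prime_orderOf_dvd_card' p hX
  have hμm : μ ^ (Nat.card G / p ^ (Nat.card G).factorization p) = 1 := by
    apply Subtype.ext
    refine MonoidHom.ext fun k => ?_
    show (μ : opResidual p G →* ℂˣ) k ^ (Nat.card G / p ^ (Nat.card G).factorization p) = 1
    exact opResidual_hom_pow p (μ : opResidual p G →* ℂˣ) k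
  have h1 : p ∣ (Nat.card G / p ^ (Nat.card G).factorization p) := by
    have h0 := orderOf_dvd_of_pow_eq_one hμm
    rw [hμ] at h0
    exact h0
  exact (Nat.Prime.coprime_iff_not_dvd hp).1 hcop_m h1

end Cfsg.Agent.Helper24
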