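import Mathlib
import Cfsg.Agent.Helper24.PResidual
import Cfsg.Agent.Helper6.GoingDown
import Cfsg.Agent.Helper6.InvariantDegree
import Cfsg.Agent.Helper2.CharConstituent

set_option autoImplicit false

namespace Cfsg.Agent.Helper24

open Cfsg

attribute [local instance] conjAction

/-- For a finite group, `opResidual` is the subgroup generated by the `p'`-elements. -/
theorem opResidual_eq_pResidual (p : ℕ) (hp : p.Prime) (G : Type*) [Group G] [Finite G] :
    opResidual p G = Cfsg.pResidual p G := by
  have hcop_m : Nat.Coprime p (Nat.card G / p ^ (Nat.card G).factorization p) :=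
    Nat.coprime_ordCompl hp Nat.card_pos.ne'
  unfold opResidual Cfsg.pResidual Subgroup.normalClosure
  congr 1
  ext y
  constructor
  · intro hy
    obtain ⟨b, hb, hconj⟩ := Group.mem_conjugatesOfSet_iff.1 hy
    obtain ⟨c, hc⟩ := isConj_iff.1 hconj
    have hym : y ^ (Nat.card G / p ^ (Nat.card G).factorization p) = 1 := by
      rw [← hc, conj_pow,
        show b ^ (Nat.card G / p ^ (Nat.card G).factorization p) = 1 from hb, mul_one,
        mul_inv_cancel]
    show Nat.Coprime (orderOf y) p
    exact Nat.Coprime.coprime_dvd_left (orderOf_dvd_of_pow_eq_one hym) hcop_m.symm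
  · intro hy
    apply Group.subset_conjugatesOfSet
    show y ^ (Nat.card G / p ^ (Nat.card G).factorization p) = 1
    have hy' : Nat.Coprime (orderOf y) p := hy
    have h1 : orderOf y ∣ p ^ (Nat.card G).factorization p
        * (Nat.card G / p ^ (Nat.card G).factorization p) := by
      rw [Nat.ordProj_mul_ordCompl_eq_self]
      exact orderOf_dvd_natCard y
    have h2 : orderOf y ∣ Nat.card G / p ^ (Nat.card G).factorization p :=
      (Nat.Coprime.dvd_mul_left (Nat.Coprime.pow_right _ hy')).1 h1
    exact orderOf_dvd_iff_pow_eq_one.1 h2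

/-- The determinantal order of a character of the `p`-residual divides the `p'`-part of the
group order. -/
theorem detOrder_opResidual_dvd (p : ℕ) {G : Type*} [Group G] [Finite G]
    {ψ : opResidual p G → ℂ} (hψ : IsCharacter (opResidual p G) ψ) :
    detOrder ψ ∣ (Nat.card G / p ^ (Nat.card G).factorization p) := by
  have hdetlin := Helper6.detChar_isLinear hψ
  have hdetmul := linear_char_mul hdetlin.1 hdetlin.2
  let F : opResidual p G →* ℂ :=
    { toFun := detChar ψ, map_one' := hdetlin.2, map_mul' := hdetmul }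
  have hdetpow : detChar ψ ^ (Nat.card G / p ^ (Nat.card G).factorization p) = 1 := by
    funext k
    have h1 := opResidual_hom_pow p F.toHomUnits k
    have h2 : ((F.toHomUnits k : ℂˣ) : ℂ)
        ^ (Nat.card G / p ^ (Nat.card G).factorization p) = 1 := by
      rw [← Units.val_pow_eq_pow_val, h1, Units.val_one]
    rw [MonoidHom.coe_toHomUnits] at h2
    exact h2
  exact orderOf_dvd_of_pow_eq_one hdetpow

/-- An irreducible character of degree prime to `p` restricts irreducibly to the `p`-residual. -/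
theorem isIrrCharacter_res_opResidual {G : Type*} [Group G] [Finite G] (p : ℕ) (hp : p.Prime)
    {χ : G → ℂ} (hχ : IsIrrCharacter G χ) (hpχ : ¬ p ∣ charDegree χ) :
    IsIrrCharacter (opResidual p G) (fun n : opResidual p G => χ n) := by
  classical
  have := Fintype.ofFinite G
  haveI hKn : (opResidual p G).Normal := opResidual_normal p G
  haveI : Fintype (opResidual p G) := Fintype.ofFinite _
  obtain ⟨a, ha⟩ := opResidual_index p hp G
  have hχc := isCharacter_of_irr hχ
  have hresc : IsCharacter (opResidual p G) (fun n : opResidual p G => χ n) :=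
    isCharacter_restrict (opResidual p G) hχc
  have hres0 : (fun n : opResidual p G => χ n) ≠ 0 := by
    intro h
    have h1 := congrFun h 1
    exact irr_one_ne_zero hχ h1
  obtain ⟨φ, hφ, hne⟩ :=
    Helper2.exists_irr_constituent (Helper2.IsCharacter.isClassFunction hresc) hres0
  obtain ⟨e, F, he, hF, hφF, hcard, hres, -, -⟩ :=
    Helper6.clifford_finset (opResidual p G) hχ hφ hne
  have hIle : opResidual p G ≤ Helper6.inertia (opResidual p G) φ :=
    Helper6.le_inertia (opResidual p G) (Helper2.IsIrrCharacter.isClassFunction hφ)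
  have hidx : (Helper6.inertia (opResidual p G) φ).index = F.card := by
    have h1 := Subgroup.card_mul_index (Helper6.inertia (opResidual p G) φ)
    have hpos : 0 < Nat.card (Helper6.inertia (opResidual p G) φ) := Nat.card_pos
    have h2 : Nat.card (Helper6.inertia (opResidual p G) φ)
          * (Helper6.inertia (opResidual p G) φ).index
        = Nat.card (Helper6.inertia (opResidual p G) φ) * F.card := by
      rw [h1, mul_comm, hcard]
    exact Nat.eq_of_mul_eq_mul_left hpos h2
  have hFdvd : F.card ∣ p ^ a := by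
    rw [← hidx, ← ha]
    exact Subgroup.index_dvd_of_le hIle
  have hval1 : χ 1 = (e : ℂ) * ((F.card : ℂ) * φ 1) := by
    have h1 := congrFun hres 1
    rw [Pi.smul_apply, Finset.sum_apply, smul_eq_mul] at h1
    have h2 : ∑ ψ ∈ F, ψ 1 = (F.card : ℂ) * φ 1 := by
      rw [Finset.sum_congr rfl (g := fun _ => φ 1) (fun ψ hψ => by
        obtain ⟨g, rfl⟩ := hF ψ hψ
        exact Helper6.conjFun_one_apply (opResidual p G) g φ), Finset.sum_const, nsmul_eq_mul]
    rw [h2] at h1
    exact h1
  have hdegN : charDegree χ = e * (F.card * charDegree φ) := by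
    rw [charDegree_spec hχc, charDegree_spec (isCharacter_of_irr hφ)] at hval1
    exact_mod_cast hval1
  have hF1 : F.card = 1 := by
    obtain ⟨j, -, hj⟩ := (Nat.dvd_prime_pow hp).1 hFdvd
    rcases Nat.eq_zero_or_pos j with hj0 | hjpos
    · rw [hj, hj0, pow_zero]
    · exfalso
      apply hpχ
      rw [hdegN, hj]
      exact Dvd.dvd.mul_left (Dvd.dvd.mul_right (dvd_pow_self p hjpos.ne') _) _
  have hItop : Helper6.inertia (opResidual p G) φ = ⊤ :=
    Subgroup.index_eq_one.1 (hidx.trans hF1)
  have hφinv : ∀ (g : G) (n : opResidual p G),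
      φ ⟨g * n * g⁻¹, hKn.conj_mem (n : G) n.2 g⟩ = φ n := by
    intro g
    have hg : g ∈ Helper6.inertia (opResidual p G) φ := by
      rw [hItop]; exact Subgroup.mem_top g
    exact (Helper6.mem_inertia (opResidual p G) φ g).1 hg
  obtain ⟨b, hb, hbdvd⟩ :=
    Helper6.degree_ratio_dvd_index_of_invariant (opResidual p G) hφ hφinv hχ hne
  have hb1 : b = 1 := by
    rw [ha] at hbdvd
    obtain ⟨j, -, hj⟩ := (Nat.dvd_prime_pow hp).1 hbdvd
    rcases Nat.eq_zero_or_pos j with hj0 | hjpos
    · rw [hj, hj0, pow_zero]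
    · exfalso
      apply hpχ
      rw [hb, hj]
      exact Dvd.dvd.mul_right (dvd_pow_self p hjpos.ne') _
  have hφpos : 0 < charDegree φ := irr_degree_pos hφ
  have he1 : e = 1 := by
    have h5 := hdegN
    rw [hb, hb1, hF1] at h5
    simp only [one_mul] at h5
    have h6 : e * charDegree φ = 1 * charDegree φ := by rw [one_mul]; exact h5.symm
    exact Nat.eq_of_mul_eq_mul_right hφpos h6
  obtain ⟨a₀, hFa⟩ := Finset.card_eq_one.1 hF1
  have hφa : φ = a₀ := by
    rw [hFa] at hφF
    exact Finset.mem_singleton.1 hφF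
  have hfin : (fun n : opResidual p G => χ n) = φ := by
    rw [hres, he1, hFa, Finset.sum_singleton, Nat.cast_one, one_smul, hφa]
  rw [hfin]
  exact hφ

/-- `|O^p(G)|` is congruent modulo `p` to the sum of the squares of the degrees of the
irreducible characters of `G` of degree and determinantal order prime to `p`. -/
theorem card_opResidual_modEq {G : Type*} [Group G] [Finite G] (p : ℕ) (hp : p.Prime) :
    (Nat.card (opResidual p G) : ℤ) ≡
      (∑ᶠ χ ∈ {χ : IrrCharacter G | ¬ p ∣ charDegree (χ : G → ℂ) ∧ ¬ p ∣ detOrder (χ : G → ℂ)},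
        (charDegree (χ : G → ℂ) : ℤ) ^ 2) [ZMOD p] := by
  classical
  haveI := Fact.mk hp
  have := Fintype.ofFinite G
  haveI hKn : (opResidual p G).Normal := opResidual_normal p G
  haveI : Fintype (opResidual p G) := Fintype.ofFinite _
  have := finite_irrCharacter (G := opResidual p G)
  haveI := Fintype.ofFinite (IrrCharacter (opResidual p G))
  have hcop_m : Nat.Coprime p (Nat.card G / p ^ (Nat.card G).factorization p) :=
    Nat.coprime_ordCompl hp Nat.card_pos.ne'
  obtain ⟨a, ha⟩ := opResidual_index p hp G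
  have hdegspec : ∀ ψ : IrrCharacter (opResidual p G),
      (ψ : opResidual p G → ℂ) 1 = (charDegree (ψ : opResidual p G → ℂ) : ℂ) :=
    fun ψ => charDegree_spec (isCharacter_of_irr ψ.2)
  have hdegsmul : ∀ (l : G) (ψ : IrrCharacter (opResidual p G)),
      charDegree ((l • ψ : IrrCharacter (opResidual p G)) : opResidual p G → ℂ)
        = charDegree (ψ : opResidual p G → ℂ) := by
    intro l ψ
    have h1 : ((l • ψ : IrrCharacter (opResidual p G)) : opResidual p G → ℂ) 1
        = (ψ : opResidual p G → ℂ) 1 :=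
      Helper6.conjFun_one_apply (opResidual p G) l⁻¹ (ψ : opResidual p G → ℂ)
    rw [hdegspec, hdegspec] at h1
    exact_mod_cast h1
  have hfixsmul : ∀ (l : G) (ψ : IrrCharacter (opResidual p G)),
      (∀ g : G, g • (l • ψ) = l • ψ) ↔ (∀ g : G, g • ψ = ψ) := by
    intro l ψ
    constructor
    · intro h
      have h1 : l • ψ = ψ := by
        have h2 := h l⁻¹
        rw [inv_smul_smul] at h2
        exact h2.symm
      intro g
      have h3 := h g
      rw [h1] at h3
      exact h3
    · intro h g
      rw [h l, h g]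
  obtain ⟨f, hf_def⟩ : ∃ f : IrrCharacter (opResidual p G) → ℤ, ∀ ψ, f ψ =
      if (∀ g : G, g • ψ = ψ) ∧ ¬ p ∣ charDegree (ψ : opResidual p G → ℂ) then 0
      else (charDegree (ψ : opResidual p G → ℂ) : ℤ) ^ 2 := ⟨_, fun ψ => rfl⟩
  have hinv : ∀ (l : G) (ψ : IrrCharacter (opResidual p G)), f (l • ψ) = f ψ := by
    intro l ψ
    rw [hf_def, hf_def, hdegsmul l ψ]
    exact if_congr (and_congr (hfixsmul l ψ) Iff.rfl) rfl rfl
  have hdvd : ∀ ψ : IrrCharacter (opResidual p G),
      (p : ℤ) ∣ (Nat.card (MulAction.orbit G ψ) : ℤ) * f ψ := by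
    intro ψ
    by_cases hfix : ∀ g : G, g • ψ = ψ
    · by_cases hd1 : p ∣ charDegree (ψ : opResidual p G → ℂ)
      · have hf : f ψ = (charDegree (ψ : opResidual p G → ℂ) : ℤ) ^ 2 := by
          rw [hf_def, if_neg (fun h => h.2 hd1)]
        rw [hf]
        exact Dvd.dvd.mul_left (Dvd.dvd.pow (Int.natCast_dvd_natCast.2 hd1) two_ne_zero) _
      · have h0 : f ψ = 0 := by rw [hf_def, if_pos ⟨hfix, hd1⟩]
        rw [h0, mul_zero]
        exact dvd_zero _
    · have hstab : MulAction.stabilizer G ψ ≠ ⊤ := by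
        intro h
        apply hfix
        intro g
        have hg : g ∈ MulAction.stabilizer G ψ := by rw [h]; exact Subgroup.mem_top g
        exact MulAction.mem_stabilizer_iff.1 hg
      have hKle : opResidual p G ≤ MulAction.stabilizer G ψ := by
        intro k hk
        rw [MulAction.mem_stabilizer_iff]
        have hk' := (Helper6.mem_inertia (opResidual p G) (ψ : opResidual p G → ℂ) k⁻¹).1
          (Helper6.le_inertia (opResidual p G) (Helper2.IsIrrCharacter.isClassFunction ψ.2)
            ((opResidual p G).inv_mem hk))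
        apply Subtype.ext
        funext n
        exact hk' n
      have h1 : (MulAction.stabilizer G ψ).index ∣ p ^ a := by
        rw [← ha]
        exact Subgroup.index_dvd_of_le hKle
      obtain ⟨j, -, hj⟩ := (Nat.dvd_prime_pow hp).1 h1
      have hj0 : j ≠ 0 := by
        rintro rfl
        rw [pow_zero] at hj
        exact hstab (Subgroup.index_eq_one.1 hj)
      have h2 : p ∣ Nat.card (MulAction.orbit G ψ) := by
        rw [Nat.card_coe_set_eq, ← MulAction.index_stabilizer, hj]
        exact dvd_pow_self p hj0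
      exact Dvd.dvd.mul_right (Int.natCast_dvd_natCast.2 h2) _
  have hsum := dvd_sum_of_orbit (Λ := G) f (p : ℤ) hinv hdvd
  have hsq : ∑ ψ : IrrCharacter (opResidual p G),
      (charDegree (ψ : opResidual p G → ℂ) : ℤ) ^ 2 = (Nat.card (opResidual p G) : ℤ) := by
    have h1 := Helper2.sum_degree_sq (G := opResidual p G)
    have h2 : ((∑ ψ : IrrCharacter (opResidual p G),
        (charDegree (ψ : opResidual p G → ℂ) : ℤ) ^ 2 : ℤ) : ℂ)
        = ((Nat.card (opResidual p G) : ℤ) : ℂ) := by
      push_cast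
      rw [← h1]
      refine Finset.sum_congr rfl fun ψ _ => ?_
      rw [hdegspec ψ, pow_two]
    exact_mod_cast h2
  -- the sum over the fixed characters of degree prime to `p`
  have ht : (∑ᶠ ψ ∈ {ψ : IrrCharacter (opResidual p G) |
        (∀ g : G, g • ψ = ψ) ∧ ¬ p ∣ charDegree (ψ : opResidual p G → ℂ)},
        (charDegree (ψ : opResidual p G → ℂ) : ℤ) ^ 2)
      = (Nat.card (opResidual p G) : ℤ) - ∑ ψ : IrrCharacter (opResidual p G), f ψ := by
    rw [finsum_mem_def, finsum_eq_sum_of_fintype, ← hsq, ← Finset.sum_sub_distrib]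
    refine Finset.sum_congr rfl fun ψ _ => ?_
    rw [hf_def, Set.indicator_apply]
    by_cases hc : (∀ g : G, g • ψ = ψ) ∧ ¬ p ∣ charDegree (ψ : opResidual p G → ℂ)
    · rw [if_pos hc, if_pos (show ψ ∈ {ψ : IrrCharacter (opResidual p G) |
        (∀ g : G, g • ψ = ψ) ∧ ¬ p ∣ charDegree (ψ : opResidual p G → ℂ)} from hc), sub_zero]
    · rw [if_neg hc, if_neg (show ψ ∉ {ψ : IrrCharacter (opResidual p G) |
        (∀ g : G, g • ψ = ψ) ∧ ¬ p ∣ charDegree (ψ : opResidual p G → ℂ)} from hc), sub_self]
  -- the restriction map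
  obtain ⟨resK, hresK⟩ : ∃ resK : IrrCharacter G → IrrCharacter (opResidual p G),
      ∀ χ : IrrCharacter G, ¬ p ∣ charDegree (χ : G → ℂ) →
        ((resK χ : IrrCharacter (opResidual p G)) : opResidual p G → ℂ)
          = fun n : opResidual p G => (χ : G → ℂ) n := by
    refine ⟨fun χ => if h : IsIrrCharacter (opResidual p G)
        (fun n : opResidual p G => (χ : G → ℂ) n) then ⟨_, h⟩
        else ⟨fun _ => 1, Helper2.isIrrCharacter_one_fun⟩, ?_⟩
    intro χ hχp
    have h := isIrrCharacter_res_opResidual p hp χ.2 hχp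
    simp only [dif_pos h]
  have hdegres : ∀ χ : IrrCharacter G, ¬ p ∣ charDegree (χ : G → ℂ) →
      charDegree ((resK χ : IrrCharacter (opResidual p G)) : opResidual p G → ℂ)
        = charDegree (χ : G → ℂ) := by
    intro χ hχp
    have h1 : ((resK χ : IrrCharacter (opResidual p G)) : opResidual p G → ℂ) 1
        = (χ : G → ℂ) 1 := by
      rw [hresK χ hχp]
      rfl
    rw [hdegspec, charDegree_spec (isCharacter_of_irr χ.2)] at h1
    exact_mod_cast h1
  have hcopψ : ∀ ψ : IrrCharacter (opResidual p G),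
      ¬ p ∣ charDegree (ψ : opResidual p G → ℂ) →
      Nat.Coprime (opResidual p G).index
        (detOrder (ψ : opResidual p G → ℂ) * charDegree (ψ : opResidual p G → ℂ)) := by
    intro ψ hψp
    rw [ha]
    exact Nat.Coprime.pow_left a (Nat.Coprime.mul_right
      (Nat.Coprime.coprime_dvd_right (detOrder_opResidual_dvd p (isCharacter_of_irr ψ.2)) hcop_m)
      ((Nat.Prime.coprime_iff_not_dvd hp).2 hψp))
  have hbij : Set.BijOn resK
      {χ : IrrCharacter G | ¬ p ∣ charDegree (χ : G → ℂ) ∧ ¬ p ∣ detOrder (χ : G → ℂ)}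
      {ψ : IrrCharacter (opResidual p G) |
        (∀ g : G, g • ψ = ψ) ∧ ¬ p ∣ charDegree (ψ : opResidual p G → ℂ)} := by
    refine ⟨?_, ?_, ?_⟩
    · intro χ hχ
      obtain ⟨hχp, -⟩ := hχ
      refine ⟨?_, ?_⟩
      · intro g
        apply Subtype.ext
        funext n
        have hcf := Helper2.IsIrrCharacter.isClassFunction χ.2
        show ((resK χ : IrrCharacter (opResidual p G)) : opResidual p G → ℂ)
            ⟨g⁻¹ * n * g⁻¹⁻¹, hKn.conj_mem (n : G) n.2 g⁻¹⟩
          = ((resK χ : IrrCharacter (opResidual p G)) : opResidual p G → ℂ) n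
        rw [hresK χ hχp]
        exact hcf (n : G) g⁻¹
      · rw [hdegres χ hχp]
        exact hχp
    · intro χ hχ χ' hχ' heq
      obtain ⟨hχp, hχd⟩ := hχ
      obtain ⟨hχ'p, hχ'd⟩ := hχ'
      have hψp : ¬ p ∣ charDegree ((resK χ : IrrCharacter (opResidual p G)) :
          opResidual p G → ℂ) := by
        rw [hdegres χ hχp]; exact hχp
      have hfixψ : ∀ (g : G) (n : opResidual p G),
          ((resK χ : IrrCharacter (opResidual p G)) : opResidual p G → ℂ)
            ⟨g * n * g⁻¹, hKn.conj_mem (n : G) n.2 g⟩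
          = ((resK χ : IrrCharacter (opResidual p G)) : opResidual p G → ℂ) n := by
        intro g n
        rw [hresK χ hχp]
        exact Helper2.IsIrrCharacter.isClassFunction χ.2 (n : G) g
      obtain ⟨χ₀, -, huniq⟩ := Cfsg.Agent.S0867.result (opResidual p G)
        ((resK χ : IrrCharacter (opResidual p G)) : opResidual p G → ℂ) (resK χ).2 hfixψ
        (charDegree ((resK χ : IrrCharacter (opResidual p G)) : opResidual p G → ℂ))
        (hdegspec (resK χ)) (hcopψ (resK χ) hψp)
      have h1 : (χ : G → ℂ) = χ₀ := by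
        apply huniq (χ : G → ℂ) χ.2
        · intro n
          rw [hresK χ hχp]
        · rw [ha]
          exact Nat.Coprime.pow_left a ((Nat.Prime.coprime_iff_not_dvd hp).2 hχd)
      have h2 : (χ' : G → ℂ) = χ₀ := by
        apply huniq (χ' : G → ℂ) χ'.2
        · intro n
          rw [heq, hresK χ' hχ'p]
        · rw [ha]
          exact Nat.Coprime.pow_left a ((Nat.Prime.coprime_iff_not_dvd hp).2 hχ'd)
      exact Subtype.ext (h1.trans h2.symm)
    · intro ψ hψ
      obtain ⟨hfix, hψp⟩ := hψ
      obtain ⟨χ₀, ⟨hχ₀, hχ₀K, hχ₀d⟩, -⟩ := Cfsg.Agent.S0867.result (opResidual p G)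
        (ψ : opResidual p G → ℂ) ψ.2 (invariant_of_fixed (opResidual p G) ψ hfix)
        (charDegree (ψ : opResidual p G → ℂ)) (hdegspec ψ) (hcopψ ψ hψp)
      have hχ₀1 : charDegree χ₀ = charDegree (ψ : opResidual p G → ℂ) := by
        have h1 : χ₀ 1 = (ψ : opResidual p G → ℂ) 1 := hχ₀K 1
        rw [charDegree_spec (isCharacter_of_irr hχ₀), hdegspec] at h1
        exact_mod_cast h1
      have hχ₀p : ¬ p ∣ charDegree χ₀ := by rw [hχ₀1]; exact hψp
      refine ⟨⟨χ₀, hχ₀⟩, ⟨hχ₀p, ?_⟩, ?_⟩
      · show ¬ p ∣ detOrder χ₀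
        rw [hχ₀d]
        intro hdv
        have h3 : p ∣ Nat.card G / p ^ (Nat.card G).factorization p :=
          dvd_trans hdv (detOrder_opResidual_dvd p (isCharacter_of_irr ψ.2))
        exact (Nat.Prime.coprime_iff_not_dvd hp).1 hcop_m h3
      · apply Subtype.ext
        rw [hresK ⟨χ₀, hχ₀⟩ hχ₀p]
        funext n
        exact hχ₀K n
  have hC := finsum_mem_eq_of_bijOn
    (f := fun χ : IrrCharacter G => (charDegree (χ : G → ℂ) : ℤ) ^ 2)
    (g := fun ψ : IrrCharacter (opResidual p G) =>
      (charDegree (ψ : opResidual p G → ℂ) : ℤ) ^ 2) resK hbij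
    (fun χ hχ => by
      show (charDegree (χ : G → ℂ) : ℤ) ^ 2
        = (charDegree ((resK χ : IrrCharacter (opResidual p G)) : opResidual p G → ℂ) : ℤ) ^ 2
      rw [hdegres χ hχ.1])
  rw [hC, ht]
  rw [Int.modEq_iff_dvd]
  have h9 : (Nat.card (opResidual p G) : ℤ) - ∑ ψ : IrrCharacter (opResidual p G), f ψ
      - (Nat.card (opResidual p G) : ℤ) = -∑ ψ : IrrCharacter (opResidual p G), f ψ := by ring
  rw [h9]
  exact (dvd_neg).2 hsum

end Cfsg.Agent.Helper24
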