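import Cfsg.Agent.Helper24.PermMultFree
import Cfsg.Agent.Helper24.GaloisChar
import Cfsg.Agent.Helper2.DefectZero

set_option autoImplicit false

namespace Cfsg.Agent.Helper24

open Cfsg Polynomial

/-- An idempotent endomorphism of trace one compresses every endomorphism to a scalar multiple
of itself. -/
theorem rank_one_idem {V : Type*} [AddCommGroup V] [Module ℂ V] [FiniteDimensional ℂ V]
    (e M : Module.End ℂ V) (he : e * e = e) (htr : LinearMap.trace ℂ V e = 1) :
    e * M * e = LinearMap.trace ℂ V (M * e) • e := by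
  have hproj : LinearMap.IsProj (LinearMap.range e) e :=
    LinearMap.IsIdempotentElem.isProj_range e he
  have h1 := hproj.trace
  rw [htr] at h1
  have hfr : Module.finrank ℂ (LinearMap.range e) = 1 := by exact_mod_cast h1.symm
  obtain ⟨v, -, hv⟩ := finrank_eq_one_iff'.mp hfr
  have hev : ∀ x : V, ∃ c : ℂ, e x = c • (v : V) := by
    intro x
    obtain ⟨c, hc⟩ := hv ⟨e x, LinearMap.mem_range_self e x⟩
    exact ⟨c, (congrArg Subtype.val hc).symm⟩
  obtain ⟨μ, hμ⟩ := hev (M (v : V))
  have hmain : e * M * e = μ • e := by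
    apply LinearMap.ext
    intro x
    obtain ⟨c, hc⟩ := hev x
    show e (M (e x)) = μ • e x
    rw [hc, map_smul, map_smul, hμ, smul_comm]
  have h2 : LinearMap.trace ℂ V (e * M * e) = LinearMap.trace ℂ V (M * e) := by
    rw [mul_assoc, LinearMap.trace_mul_comm, mul_assoc, he]
  rw [← h2, hmain, map_smul, htr, smul_eq_mul, mul_one]

section PermBiinv

variable {G : Type*} [Group G] [Fintype G] {Ω : Type*} [Fintype Ω] [MulAction G Ω]

open scoped Classical in
/-- Left multiplication of a left-invariant sum by the stabiliser sum. -/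
theorem perm_stab_mul_left {V : Type*} [AddCommGroup V] [Module ℂ V]
    (ρ : Representation ℂ G V) (a : Ω) (P : G → Prop)
    (hPl : ∀ h g : G, h • a = a → (P (h * g) ↔ P g)) :
    (∑ g : G, if g • a = a then (ρ g : Module.End ℂ V) else 0)
        * (∑ g : G, if P g then (ρ g : Module.End ℂ V) else 0)
      = ((Finset.univ.filter (fun g : G => g • a = a)).card : ℂ)
        • ∑ g : G, if P g then (ρ g : Module.End ℂ V) else 0 := by
  rw [Finset.sum_mul]
  have h1 : ∀ g : G, (if g • a = a then (ρ g : Module.End ℂ V) else 0)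
        * (∑ y : G, if P y then (ρ y : Module.End ℂ V) else 0)
      = if g • a = a then (∑ y : G, if P y then (ρ y : Module.End ℂ V) else 0) else 0 := by
    intro g
    by_cases hg : g • a = a
    · rw [if_pos hg, if_pos hg, Finset.mul_sum]
      refine Fintype.sum_equiv (Equiv.mulLeft g) _ _ (fun y => ?_)
      show ρ g * (if P y then ρ y else 0) = if P (g * y) then ρ (g * y) else 0
      by_cases hy : P y
      · rw [if_pos hy, if_pos ((hPl g y hg).mpr hy), map_mul]
      · rw [if_neg hy, if_neg (fun h : P (g * y) => hy ((hPl g y hg).mp h)), mul_zero]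
    · rw [if_neg hg, if_neg hg, zero_mul]
  rw [Finset.sum_congr rfl (fun g _ => h1 g), ← Finset.sum_filter, Finset.sum_const,
    Nat.cast_smul_eq_nsmul]

open scoped Classical in
/-- Right multiplication of a right-invariant sum by the stabiliser sum. -/
theorem perm_stab_mul_right {V : Type*} [AddCommGroup V] [Module ℂ V]
    (ρ : Representation ℂ G V) (a : Ω) (P : G → Prop)
    (hPr : ∀ h g : G, h • a = a → (P (g * h) ↔ P g)) :
    (∑ g : G, if P g then (ρ g : Module.End ℂ V) else 0)
        * (∑ g : G, if g • a = a then (ρ g : Module.End ℂ V) else 0)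
      = ((Finset.univ.filter (fun g : G => g • a = a)).card : ℂ)
        • ∑ g : G, if P g then (ρ g : Module.End ℂ V) else 0 := by
  rw [Finset.mul_sum]
  have h1 : ∀ g : G, (∑ y : G, if P y then (ρ y : Module.End ℂ V) else 0)
        * (if g • a = a then (ρ g : Module.End ℂ V) else 0)
      = if g • a = a then (∑ y : G, if P y then (ρ y : Module.End ℂ V) else 0) else 0 := by
    intro g
    by_cases hg : g • a = a
    · rw [if_pos hg, if_pos hg, Finset.sum_mul]
      refine Fintype.sum_equiv (Equiv.mulRight g) _ _ (fun y => ?_)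
      show (if P y then ρ y else 0) * ρ g = if P (y * g) then ρ (y * g) else 0
      by_cases hy : P y
      · rw [if_pos hy, if_pos ((hPr g y hg).mpr hy), map_mul]
      · rw [if_neg hy, if_neg (fun h : P (y * g) => hy ((hPr g y hg).mp h)), zero_mul]
    · rw [if_neg hg, if_neg hg, mul_zero]
  rw [Finset.sum_congr rfl (fun g _ => h1 g), ← Finset.sum_filter, Finset.sum_const,
    Nat.cast_smul_eq_nsmul]

open scoped Classical in
/-- The trace of a product of two group-algebra sums as a double character sum. -/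
theorem trace_double_sum {V : Type*} [AddCommGroup V] [Module ℂ V]
    (ρ : Representation ℂ G V) (P Q : G → Prop) :
    LinearMap.trace ℂ V ((∑ x : G, if Q x then (ρ x : Module.End ℂ V) else 0)
        * (∑ g : G, if P g then (ρ g : Module.End ℂ V) else 0))
      = ∑ x : G, ∑ g : G, if Q x ∧ P g then ρ.character (x * g) else 0 := by
  rw [Finset.sum_mul, map_sum]
  refine Finset.sum_congr rfl fun x _ => ?_
  rw [Finset.mul_sum, map_sum]
  refine Finset.sum_congr rfl fun g _ => ?_
  by_cases hx : Q x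
  · by_cases hg : P g
    · rw [if_pos hx, if_pos hg, if_pos (⟨hx, hg⟩ : Q x ∧ P g), ← map_mul]
      rfl
    · rw [if_neg hg, if_neg (fun h : Q x ∧ P g => hg h.2), mul_zero, map_zero]
  · rw [if_neg hx, if_neg (fun h : Q x ∧ P g => hx h.1), zero_mul, map_zero]

open scoped Classical in
/-- If the character has no fixed vectors under the stabiliser, every left-invariant sum of
the representation vanishes. -/
theorem perm_biinv_zero {V : Type*} [AddCommGroup V] [Module ℂ V] [FiniteDimensional ℂ V]
    (ρ : Representation ℂ G V) (a : Ω) (P : G → Prop)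
    (hPl : ∀ h g : G, h • a = a → (P (h * g) ↔ P g))
    (h0 : (∑ g : G, if g • a = a then ρ.character g else 0) = 0) :
    (∑ g : G, if P g then (ρ g : Module.End ℂ V) else 0) = 0 := by
  have hE := fixed_sum_eq_zero ρ a h0
  have hES := perm_stab_mul_left ρ a P hPl
  rw [hE, zero_mul] at hES
  have hpos : 0 < (Finset.univ.filter (fun g : G => g • a = a)).card :=
    Finset.card_pos.mpr ⟨1, by simp⟩
  have hcne : (((Finset.univ.filter (fun g : G => g • a = a)).card : ℕ) : ℂ) ≠ 0 := by
    exact_mod_cast hpos.ne'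
  exact (smul_eq_zero.mp hES.symm).resolve_left hcne

open scoped Classical in
/-- If the character has a one-dimensional space of fixed vectors under the stabiliser, all
bi-invariant sums of the representation are multiples of one idempotent of trace one. -/
theorem perm_biinv_idem {V : Type*} [AddCommGroup V] [Module ℂ V] [FiniteDimensional ℂ V]
    (ρ : Representation ℂ G V) (a : Ω)
    (hmult : (∑ g : G, if g • a = a then ρ.character g else 0)
      = ((Finset.univ.filter (fun g : G => g • a = a)).card : ℂ)) :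
    ∃ e : Module.End ℂ V, e * e = e ∧ LinearMap.trace ℂ V e = 1 ∧
      ∀ P : G → Prop, (∀ h g : G, h • a = a → (P (h * g) ↔ P g)) →
        (∀ h g : G, h • a = a → (P (g * h) ↔ P g)) →
        (∑ g : G, if P g then (ρ g : Module.End ℂ V) else 0)
          = (∑ g : G, if P g then ρ.character g else 0) • e := by
  obtain ⟨E, hE⟩ : ∃ E : Module.End ℂ V,
      E = ∑ g : G, if g • a = a then (ρ g : Module.End ℂ V) else 0 := ⟨_, rfl⟩
  obtain ⟨hc, hhc⟩ : ∃ hc : ℕ, hc = (Finset.univ.filter (fun g : G => g • a = a)).card :=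
    ⟨_, rfl⟩
  have hcpos : 0 < hc := by
    rw [hhc]
    exact Finset.card_pos.mpr ⟨1, by simp⟩
  have hcne : (hc : ℂ) ≠ 0 := by exact_mod_cast hcpos.ne'
  rw [← hhc] at hmult
  have hstabl : ∀ h g : G, h • a = a → ((h * g) • a = a ↔ g • a = a) := by
    intro h g hh
    rw [mul_smul]
    exact ⟨fun h1 => smul_left_cancel h (h1.trans hh.symm), fun h1 => by rw [h1, hh]⟩
  have hEE : E * E = (hc : ℂ) • E := by
    rw [hE, hhc]
    exact perm_stab_mul_left ρ a (fun g => g • a = a) hstabl
  have htrE : LinearMap.trace ℂ V E = (hc : ℂ) := by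
    rw [hE, map_sum, ← hmult]
    refine Finset.sum_congr rfl fun g _ => ?_
    by_cases hg : g • a = a
    · rw [if_pos hg, if_pos hg]
      rfl
    · rw [if_neg hg, if_neg hg, map_zero]
  obtain ⟨e, he⟩ : ∃ e : Module.End ℂ V, e = (hc : ℂ)⁻¹ • E := ⟨_, rfl⟩
  have hee : e * e = e := by
    rw [he, smul_mul_smul_comm, hEE, smul_smul, mul_assoc, inv_mul_cancel₀ hcne, mul_one]
  have htre : LinearMap.trace ℂ V e = 1 := by
    rw [he, map_smul, htrE, smul_eq_mul, inv_mul_cancel₀ hcne]
  refine ⟨e, hee, htre, ?_⟩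
  intro P hPl hPr
  obtain ⟨S, hS⟩ : ∃ S : Module.End ℂ V,
      S = ∑ g : G, if P g then (ρ g : Module.End ℂ V) else 0 := ⟨_, rfl⟩
  have hES : E * S = (hc : ℂ) • S := by
    rw [hE, hS, hhc]
    exact perm_stab_mul_left ρ a P hPl
  have hSE : S * E = (hc : ℂ) • S := by
    rw [hE, hS, hhc]
    exact perm_stab_mul_right ρ a P hPr
  have heS : e * S = S := by
    rw [he, smul_mul_assoc, hES, smul_smul, inv_mul_cancel₀ hcne, one_smul]
  have hSe : S * e = S := by
    rw [he, mul_smul_comm, hSE, smul_smul, inv_mul_cancel₀ hcne, one_smul]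
  have htrS : LinearMap.trace ℂ V S = ∑ g : G, if P g then ρ.character g else 0 := by
    rw [hS, map_sum]
    refine Finset.sum_congr rfl fun g _ => ?_
    by_cases hg : P g
    · rw [if_pos hg, if_pos hg]
      rfl
    · rw [if_neg hg, if_neg hg, map_zero]
  have h1 := rank_one_idem e S hee htre
  rw [heS, hSe, htrS] at h1
  rw [← hS]
  exact h1

open scoped Classical in
/-- Double character sums over two bi-invariant sets, for a character of multiplicity zero or
one in the permutation character. -/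
theorem perm_biinv_char {χ : G → ℂ} (hχ : IsCharacter G χ) (a : Ω) (P Q : G → Prop)
    (hPl : ∀ h g : G, h • a = a → (P (h * g) ↔ P g))
    (hPr : ∀ h g : G, h • a = a → (P (g * h) ↔ P g))
    (hQl : ∀ h g : G, h • a = a → (Q (h * g) ↔ Q g))
    (hQr : ∀ h g : G, h • a = a → (Q (g * h) ↔ Q g)) :
    ((∑ g : G, if g • a = a then χ g else 0) = 0 →
      (∑ x : G, ∑ g : G, if Q x ∧ P g then χ (x * g) else 0) = 0) ∧
    ((∑ g : G, if g • a = a then χ g else 0)
        = ((Finset.univ.filter (fun g : G => g • a = a)).card : ℂ) →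
      (∑ x : G, ∑ g : G, if Q x ∧ P g then χ (x * g) else 0)
        = (∑ g : G, if Q g then χ g else 0) * (∑ g : G, if P g then χ g else 0)) := by
  obtain ⟨d, ρ, rfl⟩ := hχ
  have htr := trace_double_sum ρ P Q
  constructor
  · intro h0
    rw [← htr, perm_biinv_zero ρ a P hPl h0, mul_zero, map_zero]
  · intro h1
    obtain ⟨e, hee, htre, hall⟩ := perm_biinv_idem ρ a h1
    rw [← htr, hall P hPl hPr, hall Q hQl hQr, smul_mul_smul_comm, hee, map_smul, htre,
      smul_eq_mul, mul_one]

open scoped Classical in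
/-- The double-coset version of `perm_biinv_char`. -/
theorem perm_dc_char {χ : G → ℂ} (hχ : IsCharacter G χ) (a b : Ω) :
    ((∑ g : G, if g • a = a then χ g else 0) = 0 →
      (∑ x : G, ∑ g : G, if dcMem a b x⁻¹ ∧ dcMem a b g then χ (x * g) else 0) = 0) ∧
    ((∑ g : G, if g • a = a then χ g else 0)
        = ((Finset.univ.filter (fun g : G => g • a = a)).card : ℂ) →
      (∑ x : G, ∑ g : G, if dcMem a b x⁻¹ ∧ dcMem a b g then χ (x * g) else 0)
        = (∑ g : G, if dcMem a b g⁻¹ then χ g else 0)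
          * (∑ g : G, if dcMem a b g then χ g else 0)) := by
  have hPl : ∀ h g : G, h • a = a → (dcMem a b (h * g) ↔ dcMem a b g) :=
    fun h g hh => dcMem_mul_left hh g
  have hPr : ∀ h g : G, h • a = a → (dcMem a b (g * h) ↔ dcMem a b g) := by
    intro h g hh
    unfold dcMem
    rw [mul_smul, hh]
  have hinv : ∀ h : G, h • a = a → h⁻¹ • a = a := by
    intro h hh
    rw [inv_smul_eq_iff, hh]
  have hQl : ∀ h g : G, h • a = a → (dcMem a b (h * g)⁻¹ ↔ dcMem a b g⁻¹) := by
    intro h g hh
    rw [mul_inv_rev]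
    exact hPr h⁻¹ g⁻¹ (hinv h hh)
  have hQr : ∀ h g : G, h • a = a → (dcMem a b (g * h)⁻¹ ↔ dcMem a b g⁻¹) := by
    intro h g hh
    rw [mul_inv_rev]
    exact hPl h⁻¹ g⁻¹ (hinv h hh)
  exact perm_biinv_char hχ a (dcMem a b) (fun g => dcMem a b g⁻¹) hPl hPr hQl hQr

open scoped Classical in
/-- A sum over the irreducible characters weighted by the indicator of one of them. -/
theorem irr_sum_single [Fintype (IrrCharacter G)] (ψ : G → ℂ) (hψ : IsIrrCharacter G ψ)
    (F : (G → ℂ) → ℂ) :
    (∑ χ : IrrCharacter G, (if ψ = (χ : G → ℂ) then (1 : ℂ) else 0) * F (χ : G → ℂ)) = F ψ := by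
  have h1 : ψ = ((⟨ψ, hψ⟩ : IrrCharacter G) : G → ℂ) := rfl
  rw [Finset.sum_eq_single (⟨ψ, hψ⟩ : IrrCharacter G)]
  · rw [if_pos h1, one_mul]
  · intro χ _ hne
    rw [if_neg (fun h : ψ = (χ : G → ℂ) => hne (Subtype.ext h.symm)), zero_mul]
  · intro h
    exact absurd (Finset.mem_univ _) h

open scoped Classical in
/-- First orthogonality with a classical decidability instance. -/
theorem classInner_irr_cl {χ ψ : G → ℂ} (hχ : IsIrrCharacter G χ) (hψ : IsIrrCharacter G ψ) :
    classInner χ ψ = if χ = ψ then (1 : ℂ) else 0 := by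
  refine (Helper2.classInner_irr hχ hψ).trans ?_
  by_cases h : χ = ψ
  · simp only [if_pos h]
  · simp only [if_neg h]

set_option maxHeartbeats 1600000 in
open scoped Classical in
/-- The two eigenvalue equations for a suborbit of a multiplicity-free transitive permutation
character. -/
theorem perm_mf_eqs [MulAction.IsPretransitive G Ω] [Fintype (IrrCharacter G)] (a b : Ω)
    (hab : b ≠ a)
    (hmf : ∀ χ : IrrCharacter G,
      classInner (fun g : G => (Nat.card (MulAction.fixedBy Ω g) : ℂ)) (χ : G → ℂ) = 0 ∨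
      classInner (fun g : G => (Nat.card (MulAction.fixedBy Ω g) : ℂ)) (χ : G → ℂ) = 1) :
    (∑ χ : IrrCharacter G,
        classInner (fun g : G => (Nat.card (MulAction.fixedBy Ω g) : ℂ)) (χ : G → ℂ)
          * ((χ : G → ℂ) 1 * ∑ g : G, if dcMem a b g then (χ : G → ℂ) g else 0)) = 0 ∧
    (∑ χ : IrrCharacter G,
        classInner (fun g : G => (Nat.card (MulAction.fixedBy Ω g) : ℂ)) (χ : G → ℂ)
          * ((χ : G → ℂ) 1 * ((∑ g : G, if dcMem a b g⁻¹ then (χ : G → ℂ) g else 0)
            * ∑ g : G, if dcMem a b g then (χ : G → ℂ) g else 0)))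
      = (Nat.card G : ℂ) * ((Finset.univ.filter (fun g : G => dcMem a b g)).card : ℂ) := by
  have hkey : ∀ χ : IrrCharacter G,
      (classInner (fun g : G => (Nat.card (MulAction.fixedBy Ω g) : ℂ)) (χ : G → ℂ)
          * ((χ : G → ℂ) 1 * ∑ g : G, if dcMem a b g then (χ : G → ℂ) g else 0)
        = (χ : G → ℂ) 1 * ∑ g : G, if dcMem a b g then (χ : G → ℂ) g else 0) ∧
      (classInner (fun g : G => (Nat.card (MulAction.fixedBy Ω g) : ℂ)) (χ : G → ℂ)
          * ((χ : G → ℂ) 1 * ((∑ g : G, if dcMem a b g⁻¹ then (χ : G → ℂ) g else 0)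
            * ∑ g : G, if dcMem a b g then (χ : G → ℂ) g else 0))
        = (χ : G → ℂ) 1 * ∑ x : G, ∑ g : G,
            if dcMem a b x⁻¹ ∧ dcMem a b g then (χ : G → ℂ) (x * g) else 0) := by
    intro χ
    obtain ⟨mχ, hm1, hm2⟩ := perm_inner_nat a (isCharacter_of_irr χ.2)
    have hch := perm_dc_char (isCharacter_of_irr χ.2) a b
    have hvan : (∑ g : G, if g • a = a then (χ : G → ℂ) g else 0) = 0 →
        (∑ g : G, if dcMem a b g then (χ : G → ℂ) g else 0) = 0 := by
      obtain ⟨d, ρ, hirr, hρ⟩ := χ.2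
      have h := (perm_rep_main ρ a b).2
      rw [hρ] at h
      exact h
    rcases hmf χ with h0 | h1
    · have hz : (mχ : ℂ) = 0 := by
        rw [← hm1]
        exact h0
      rw [hz, mul_zero] at hm2
      refine ⟨?_, ?_⟩
      · rw [h0, zero_mul, hvan hm2, mul_zero]
      · rw [h0, zero_mul, hch.1 hm2, mul_zero]
    · have hz : (mχ : ℂ) = 1 := by
        rw [← hm1]
        exact h1
      rw [hz, mul_one, ← perm_hc a] at hm2
      refine ⟨?_, ?_⟩
      · rw [h1, one_mul]
      · rw [h1, one_mul, hch.2 hm2]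
  have hnd1 : ¬ dcMem a b (1 : G) := by
    rintro ⟨h, h1, h2⟩
    rw [one_smul] at h2
    apply hab
    have h3 : h • b = h • a := by rw [h2, h1]
    exact smul_left_cancel h h3
  have hsum1 : ∑ χ : IrrCharacter G, (χ : G → ℂ) 1
      * (∑ g : G, if dcMem a b g then (χ : G → ℂ) g else 0) = 0 := by
    have h1 : ∀ χ : IrrCharacter G, (χ : G → ℂ) 1
        * (∑ g : G, if dcMem a b g then (χ : G → ℂ) g else 0)
        = ∑ g : G, if dcMem a b g then (χ : G → ℂ) 1 * (χ : G → ℂ) g else 0 := by
      intro χ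
      rw [Finset.mul_sum]
      refine Finset.sum_congr rfl fun g _ => ?_
      rw [mul_ite, mul_zero]
    rw [Finset.sum_congr rfl (fun χ _ => h1 χ), Finset.sum_comm]
    refine Finset.sum_eq_zero fun g _ => ?_
    by_cases hg : dcMem a b g
    · have hg1 : g ≠ 1 := by
        rintro rfl
        exact hnd1 hg
      simp only [if_pos hg]
      rw [irr_regular_sum g, if_neg hg1]
    · simp only [if_neg hg, Finset.sum_const_zero]
  have hsum2 : ∑ χ : IrrCharacter G, (χ : G → ℂ) 1
      * (∑ x : G, ∑ g : G,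
          if dcMem a b x⁻¹ ∧ dcMem a b g then (χ : G → ℂ) (x * g) else 0)
      = (Nat.card G : ℂ) * ((Finset.univ.filter (fun g : G => dcMem a b g)).card : ℂ) := by
    have h1 : ∀ χ : IrrCharacter G, (χ : G → ℂ) 1
        * (∑ x : G, ∑ g : G,
            if dcMem a b x⁻¹ ∧ dcMem a b g then (χ : G → ℂ) (x * g) else 0)
        = ∑ x : G, ∑ g : G, if dcMem a b x⁻¹ ∧ dcMem a b g
            then (χ : G → ℂ) 1 * (χ : G → ℂ) (x * g) else 0 := by
      intro χ
      rw [Finset.mul_sum]
      refine Finset.sum_congr rfl fun x _ => ?_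
      rw [Finset.mul_sum]
      refine Finset.sum_congr rfl fun g _ => ?_
      rw [mul_ite, mul_zero]
    rw [Finset.sum_congr rfl (fun χ _ => h1 χ), Finset.sum_comm]
    have h2 : ∀ x : G, (∑ χ : IrrCharacter G, ∑ g : G, if dcMem a b x⁻¹ ∧ dcMem a b g
          then (χ : G → ℂ) 1 * (χ : G → ℂ) (x * g) else 0)
        = ∑ g : G, if dcMem a b x⁻¹ ∧ dcMem a b g
            then (if x * g = 1 then (Nat.card G : ℂ) else 0) else 0 := by
      intro x
      rw [Finset.sum_comm]
      refine Finset.sum_congr rfl fun g _ => ?_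
      by_cases hc : dcMem a b x⁻¹ ∧ dcMem a b g
      · simp only [if_pos hc]
        rw [irr_regular_sum (x * g)]
      · simp only [if_neg hc, Finset.sum_const_zero]
    rw [Finset.sum_congr rfl (fun x _ => h2 x), Finset.sum_comm]
    have h3 : ∀ g : G, (∑ x : G, if dcMem a b x⁻¹ ∧ dcMem a b g
          then (if x * g = 1 then (Nat.card G : ℂ) else 0) else 0)
        = if dcMem a b g then (Nat.card G : ℂ) else 0 := by
      intro g
      rw [Finset.sum_eq_single g⁻¹]
      · by_cases hg : dcMem a b g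
        · have hc : dcMem a b g⁻¹⁻¹ ∧ dcMem a b g := ⟨by rw [inv_inv]; exact hg, hg⟩
          rw [if_pos hc, if_pos (inv_mul_cancel g), if_pos hg]
        · rw [if_neg (fun h : dcMem a b g⁻¹⁻¹ ∧ dcMem a b g => hg h.2), if_neg hg]
      · intro x _ hx
        have hne : x * g ≠ 1 := fun h => hx (eq_inv_of_mul_eq_one_left h)
        rw [if_neg hne, ite_self]
      · intro h
        exact absurd (Finset.mem_univ _) h
    rw [Finset.sum_congr rfl (fun g _ => h3 g), ← Finset.sum_filter, Finset.sum_const,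
      nsmul_eq_mul, mul_comm]
  constructor
  · refine Eq.trans ?_ hsum1
    exact Finset.sum_congr rfl (fun χ _ => (hkey χ).1)
  · refine Eq.trans ?_ hsum2
    exact Finset.sum_congr rfl (fun χ _ => (hkey χ).2)

open scoped Classical in
/-- Stabiliser sums are unchanged by a power map coprime to the group order. -/
theorem perm_stab_sum_pow (a : Ω) (φ : G → ℂ) (k : ℕ) (hk : (Nat.card G).Coprime k) :
    (∑ g : G, if g • a = a then φ (g ^ k) else 0) = ∑ g : G, if g • a = a then φ g else 0 := by
  refine Fintype.sum_equiv (powCoprime hk) _ _ (fun g => ?_)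
  show (if g • a = a then φ (g ^ k) else 0) = if (g ^ k) • a = a then φ (g ^ k) else 0
  have hiff : (g ^ k) • a = a ↔ g • a = a := by
    constructor
    · intro h
      have h1 : g ^ k ∈ MulAction.stabilizer G a := MulAction.mem_stabilizer_iff.mpr h
      have h2 : (powCoprime hk).symm (g ^ k) = g := (powCoprime hk).symm_apply_apply g
      have h3 : (g ^ k) ^ ((Nat.card G).gcdB k) ∈ MulAction.stabilizer G a :=
        Subgroup.zpow_mem _ h1 _
      have h4 : (g ^ k) ^ ((Nat.card G).gcdB k) = g := h2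
      rw [h4] at h3
      exact MulAction.mem_stabilizer_iff.mp h3
    · intro h
      have h1 : g ∈ MulAction.stabilizer G a := MulAction.mem_stabilizer_iff.mpr h
      exact MulAction.mem_stabilizer_iff.mp (Subgroup.pow_mem _ h1 k)
  by_cases hg : g • a = a
  · rw [if_pos hg, if_pos (hiff.mpr hg)]
  · rw [if_neg hg, if_neg (fun h : (g ^ k) • a = a => hg (hiff.mp h))]

open scoped Classical in
/-- The multiplicity in the permutation character is invariant under Galois conjugation. -/
theorem perm_inner_pow [MulAction.IsPretransitive G Ω] (a : Ω) {χ : G → ℂ}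
    (hχ : IsCharacter G χ) (k : ℕ) (hk : k.Coprime (Nat.card G)) :
    classInner (fun g : G => (Nat.card (MulAction.fixedBy Ω g) : ℂ)) (fun g => χ (g ^ k))
      = classInner (fun g : G => (Nat.card (MulAction.fixedBy Ω g) : ℂ)) χ := by
  obtain ⟨m, hm1, hm2⟩ := perm_inner_nat a hχ
  obtain ⟨m', hm1', hm2'⟩ := perm_inner_nat a (isCharacter_comp_pow hχ k hk)
  have hHne : (Nat.card (MulAction.stabilizer G a) : ℂ) ≠ 0 := by
    exact_mod_cast Nat.card_pos.ne'
  have h := perm_stab_sum_pow a χ k hk.symm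
  rw [hm1, hm1']
  have h3 : (Nat.card (MulAction.stabilizer G a) : ℂ) * (m' : ℂ)
      = (Nat.card (MulAction.stabilizer G a) : ℂ) * (m : ℂ) := by
    rw [← hm2, ← hm2']
    exact h
  exact mul_left_cancel₀ hHne h3

/-- A character fixed by all Galois conjugations is integer valued. -/
theorem char_int_of_pow_stable {χ : G → ℂ} (hχ : IsCharacter G χ)
    (hstab : ∀ k : ℕ, k.Coprime (Nat.card G) → ∀ g : G, χ (g ^ k) = χ g) (g : G) :
    ∃ z : ℤ, χ g = (z : ℂ) := by
  have hN : 0 < Nat.card G := Nat.card_pos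
  have hζ := Complex.isPrimitiveRoot_exp (Nat.card G) hN.ne'
  obtain ⟨P, hP⟩ := char_poly hχ g (Nat.card G) hN pow_card_eq_one' _ hζ
  refine Helper2.int_of_aeval_primitiveRoots hN P (χ g) ?_
  intro η hη
  obtain ⟨j, hj, rfl⟩ := hζ.eq_pow_of_pow_eq_one hη.pow_eq_one
  have hjcop : j.Coprime (Nat.card G) := (hζ.pow_iff_coprime hN j).mp hη
  rw [← hP j]
  exact hstab j hjcop g

open scoped Classical in
/-- A sum of integer values is an integer. -/
theorem dc_sum_int (P : G → Prop) (φ : G → ℂ) (hφ : ∀ g : G, ∃ z : ℤ, φ g = (z : ℂ)) :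
    ∃ Z : ℤ, (∑ g : G, if P g then φ g else 0) = (Z : ℂ) := by
  choose z hz using hφ
  refine ⟨∑ g : G, if P g then z g else 0, ?_⟩
  rw [Int.cast_sum]
  refine Finset.sum_congr rfl fun g _ => ?_
  by_cases hg : P g
  · rw [if_pos hg, if_pos hg, hz g]
  · rw [if_neg hg, if_neg hg, Int.cast_zero]

open scoped Classical in
/-- For an inversion-invariant function the sums over a double coset and over its inverse
agree. -/
theorem dc_inv_sum (a b : Ω) (φ : G → ℂ) (hφ : ∀ g : G, φ g⁻¹ = φ g) :
    (∑ g : G, if dcMem a b g⁻¹ then φ g else 0) = ∑ g : G, if dcMem a b g then φ g else 0 := by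
  refine Fintype.sum_equiv (Equiv.inv G) _ _ (fun g => ?_)
  show (if dcMem a b g⁻¹ then φ g else 0) = if dcMem a b g⁻¹ then φ g⁻¹ else 0
  rw [hφ]

end PermBiinv

end Cfsg.Agent.Helper24
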