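import Cfsg.Agent.Helper24.PermBiinv

set_option autoImplicit false

namespace Cfsg.Agent.Helper24

open Cfsg

/-- The integer equations behind Wielandt's rank 3 theorem for degree `2m`. -/
theorem rank3_dioph (m k : ℕ) (θ₁ θ₂ : ℤ) (hk2 : 2 ≤ k) (hk : k + 3 ≤ 2 * m)
    (h1 : (k : ℤ) + ((m : ℤ) - 1) * θ₁ + (m : ℤ) * θ₂ = 0)
    (h2 : (k : ℤ) ^ 2 + ((m : ℤ) - 1) * θ₁ ^ 2 + (m : ℤ) * θ₂ ^ 2 = 2 * (m : ℤ) * (k : ℤ)) :
    ∃ a : ℕ, 0 < a ∧ m = 2 * a ^ 2 + 2 * a + 1 ∧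
      (k = a * (2 * a + 1) ∨ k = (a + 1) * (2 * a + 1)) := by
  obtain ⟨M, hM⟩ : ∃ M : ℤ, M = (m : ℤ) := ⟨_, rfl⟩
  obtain ⟨K, hK⟩ : ∃ K : ℤ, K = (k : ℤ) := ⟨_, rfl⟩
  rw [← hM, ← hK] at h1 h2
  have hK2 : 2 ≤ K := by
    rw [hK]
    exact_mod_cast hk2
  have hKM : K + 3 ≤ 2 * M := by
    rw [hK, hM]
    exact_mod_cast hk
  have hM3 : 3 ≤ M := by omega
  obtain ⟨e, he⟩ : ∃ e : ℤ, e = θ₁ + θ₂ := ⟨_, rfl⟩
  have ht1 : θ₁ = K + M * e := by
    rw [he]
    linear_combination -h1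
  have ht2 : θ₂ = -K - (M - 1) * e := by
    rw [he]
    linear_combination h1
  have h3 : M * (2 * K ^ 2 + 4 * (M - 1) * K * e + (M - 1) * (2 * M - 1) * e ^ 2 - 2 * K)
      = 0 := by
    rw [ht1, ht2] at h2
    linear_combination h2
  have hMne : M ≠ 0 := by omega
  have h4 : 2 * K ^ 2 + 4 * (M - 1) * K * e + (M - 1) * (2 * M - 1) * e ^ 2 - 2 * K = 0 :=
    (mul_eq_zero.mp h3).resolve_left hMne
  have hw : (2 * K + 2 * (M - 1) * e - 1) ^ 2 = 1 - 2 * (M - 1) * (e * (e + 2)) := by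
    linear_combination 2 * h4
  have he_bounds : -2 ≤ e ∧ e ≤ 0 := by
    have hsq := sq_nonneg (2 * K + 2 * (M - 1) * e - 1)
    rw [hw] at hsq
    constructor
    · by_contra hlt
      have h5 : e ≤ -3 := by omega
      have h6 : 3 ≤ e * (e + 2) := by
        nlinarith [mul_nonneg (by linarith : (0 : ℤ) ≤ -3 - e) (by linarith : (0 : ℤ) ≤ 1 - e)]
      nlinarith [mul_nonneg (by linarith : (0 : ℤ) ≤ M - 3)
        (by linarith : (0 : ℤ) ≤ e * (e + 2) - 3)]
    · by_contra hgt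
      have h5 : 1 ≤ e := by omega
      have h6 : 3 ≤ e * (e + 2) := by
        nlinarith [mul_nonneg (by linarith : (0 : ℤ) ≤ e + 3) (by linarith : (0 : ℤ) ≤ e - 1)]
      nlinarith [mul_nonneg (by linarith : (0 : ℤ) ≤ M - 3)
        (by linarith : (0 : ℤ) ≤ e * (e + 2) - 3)]
  obtain ⟨he1, he2⟩ := he_bounds
  have hcase : e = -2 ∨ e = -1 ∨ e = 0 := by omega
  rcases hcase with h | h | h
  · exfalso
    rw [h] at h4
    nlinarith [mul_pos (by linarith : (0 : ℤ) < 2 * M - 1 - K)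
      (by linarith : (0 : ℤ) < 2 * M - 2 - K)]
  · rw [h] at h4
    have hw' : (2 * K - 2 * M + 1) ^ 2 = 2 * M - 1 := by
      linear_combination 2 * h4
    obtain ⟨a, ha⟩ : ∃ a : ℕ, (2 * K - 2 * M + 1).natAbs = 2 * a + 1 := by
      have hodd : Odd (2 * K - 2 * M + 1) := ⟨K - M, by ring⟩
      obtain ⟨a, ha⟩ := Int.natAbs_odd.mpr hodd
      exact ⟨a, ha⟩
    have h5 : ((2 * a + 1 : ℕ) : ℤ) ^ 2 = 2 * M - 1 := by
      rw [← ha, Int.natAbs_sq]
      exact hw'
    push_cast at h5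
    have hapos : 0 < a := by
      rcases Nat.eq_zero_or_pos a with h0 | h0
      · exfalso
        rw [h0] at h5
        norm_num at h5
        omega
      · exact h0
    have hm' : (m : ℤ) = 2 * (a : ℤ) ^ 2 + 2 * a + 1 := by
      rw [← hM]
      linarith
    have hmN : m = 2 * a ^ 2 + 2 * a + 1 := by exact_mod_cast hm'
    rcases Int.natAbs_eq (2 * K - 2 * M + 1) with hW | hW
    · rw [ha] at hW
      push_cast at hW
      refine ⟨a, hapos, hmN, Or.inr ?_⟩
      have hk' : (k : ℤ) = ((a : ℤ) + 1) * (2 * a + 1) := by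
        rw [← hK]
        linarith
      exact_mod_cast hk'
    · rw [ha] at hW
      push_cast at hW
      refine ⟨a, hapos, hmN, Or.inl ?_⟩
      have hk' : (k : ℤ) = (a : ℤ) * (2 * a + 1) := by
        rw [← hK]
        linarith
      exact_mod_cast hk'
  · exfalso
    rw [h] at h4
    nlinarith [mul_nonneg (by linarith : (0 : ℤ) ≤ K - 2) (by linarith : (0 : ℤ) ≤ K)]

section PermRank3

variable {G : Type*} [Group G] [Fintype G] {Ω : Type*} [Fintype Ω] [MulAction G Ω]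

/-- A suborbit is a single point exactly when the point stabiliser fixes it. -/
theorem orbit_card_one_iff (a ω : Ω) :
    Nat.card (MulAction.orbit (MulAction.stabilizer G a) ω) = 1 ↔
      ∀ h : G, h • a = a → h • ω = ω := by
  rw [Nat.card_eq_one_iff_unique]
  constructor
  · rintro ⟨hsub, -⟩ h hh
    have h1 : (⟨h, MulAction.mem_stabilizer_iff.mpr hh⟩ : MulAction.stabilizer G a) • ω
        ∈ MulAction.orbit (MulAction.stabilizer G a) ω := MulAction.mem_orbit ω _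
    have h2 := @Subsingleton.elim _ hsub
      (⟨_, h1⟩ : MulAction.orbit (MulAction.stabilizer G a) ω)
      ⟨ω, MulAction.mem_orbit_self ω⟩
    exact congrArg Subtype.val h2
  · intro hfix
    refine ⟨⟨fun x y => ?_⟩, ⟨⟨ω, MulAction.mem_orbit_self ω⟩⟩⟩
    obtain ⟨x, ⟨hx, rfl⟩⟩ := x
    obtain ⟨y, ⟨hy, rfl⟩⟩ := y
    apply Subtype.ext
    show (hx : G) • ω = (hy : G) • ω
    rw [hfix hx (MulAction.mem_stabilizer_iff.mp hx.2),
      hfix hy (MulAction.mem_stabilizer_iff.mp hy.2)]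

/-- In a primitive group, if a point stabiliser fixes a second point then it fixes every
point. -/
theorem prim_fixed_all (hprim : MulAction.IsPreprimitive G Ω) (a b : Ω) (hab : b ≠ a)
    (hfix : ∀ h : G, h • a = a → h • b = b) :
    ∀ (ω : Ω) (h : G), h • a = a → h • ω = ω := by
  haveI : MulAction.IsPretransitive G Ω := hprim.toIsPretransitive
  haveI : Nontrivial Ω := ⟨⟨b, a, hab⟩⟩
  have hco : IsCoatom (MulAction.stabilizer G a) :=
    (MulAction.isCoatom_stabilizer_iff_preprimitive G a).mpr hprim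
  have hle : MulAction.stabilizer G a ≤ MulAction.stabilizer G b := by
    intro h hh
    exact MulAction.mem_stabilizer_iff.mpr (hfix h (MulAction.mem_stabilizer_iff.mp hh))
  have hcard : Nat.card (MulAction.stabilizer G b) ≤ Nat.card (MulAction.stabilizer G a) := by
    have h1 := perm_card_group (G := G) a
    have h2 := perm_card_group (G := G) b
    have hΩ : 0 < Fintype.card Ω := Fintype.card_pos_iff.mpr ⟨a⟩
    rw [h1] at h2
    exact (Nat.eq_of_mul_eq_mul_left hΩ h2).ge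
  have heq : MulAction.stabilizer G a = MulAction.stabilizer G b :=
    Subgroup.eq_of_le_of_card_ge hle hcard
  obtain ⟨u, hu⟩ := MulAction.exists_smul_eq G a b
  have hconj : ∀ h : G, (u * h * u⁻¹) • b = b ↔ h • a = a := by
    intro h
    rw [← hu, ← mul_smul, inv_mul_cancel_right, mul_smul]
    exact ⟨fun hh => smul_left_cancel u hh, fun hh => by rw [hh]⟩
  have hnorm : u ∈ Subgroup.normalizer (MulAction.stabilizer G a : Set G) := by
    rw [Subgroup.mem_normalizer_iff]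
    intro h
    constructor
    · intro hh
      rw [heq, MulAction.mem_stabilizer_iff]
      exact (hconj h).mpr (MulAction.mem_stabilizer_iff.mp hh)
    · intro hh
      rw [heq, MulAction.mem_stabilizer_iff] at hh
      exact MulAction.mem_stabilizer_iff.mpr ((hconj h).mp hh)
  have hnot : u ∉ MulAction.stabilizer G a := by
    intro h
    rw [MulAction.mem_stabilizer_iff] at h
    exact hab (hu.symm.trans h)
  have htop : Subgroup.normalizer (MulAction.stabilizer G a : Set G) = ⊤ := by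
    apply hco.2
    refine lt_of_le_of_ne Subgroup.le_normalizer (fun h => hnot ?_)
    rw [h]
    exact hnorm
  have hnormal : (MulAction.stabilizer G a).Normal := Subgroup.normalizer_eq_top_iff.mp htop
  intro ω h hh
  obtain ⟨v, rfl⟩ := MulAction.exists_smul_eq G a ω
  have h1 : v⁻¹ * h * v ∈ MulAction.stabilizer G a := by
    have h2 := hnormal.conj_mem h (MulAction.mem_stabilizer_iff.mpr hh) v⁻¹
    rw [inv_inv] at h2
    exact h2
  rw [MulAction.mem_stabilizer_iff] at h1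
  have h3 : h • v • a = v • (v⁻¹ * h * v) • a := by
    rw [← mul_smul, ← mul_smul, mul_assoc, mul_inv_cancel_left]
  rw [h3, h1]

/-- Bounds on a non-trivial subdegree of a primitive group of even degree whose suborbit
reciprocals add up to three. -/
theorem rank3_bounds (hprim : MulAction.IsPreprimitive G Ω) {m : ℕ}
    (hm : Fintype.card Ω = 2 * m) (a₀ : Ω)
    (hsum : ∑ ω : Ω, ((Nat.card (MulAction.orbit (MulAction.stabilizer G a₀) ω) : ℚ))⁻¹ = 3)
    (b : Ω) (hb : b ≠ a₀) :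
    2 ≤ Nat.card (MulAction.orbit (MulAction.stabilizer G a₀) b) ∧
      Nat.card (MulAction.orbit (MulAction.stabilizer G a₀) b) + 3 ≤ 2 * m := by
  classical
  have hge2 : ∀ ω : Ω, ω ≠ a₀ →
      2 ≤ Nat.card (MulAction.orbit (MulAction.stabilizer G a₀) ω) := by
    intro ω hω
    by_contra hlt
    have hpos := perm_orbit_pos (G := G) a₀ ω
    have h1 : Nat.card (MulAction.orbit (MulAction.stabilizer G a₀) ω) = 1 := by omega
    have hfix := (orbit_card_one_iff (G := G) a₀ ω).mp h1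
    have hall := prim_fixed_all hprim a₀ ω hω hfix
    have h2 : ∀ ω' : Ω,
        ((Nat.card (MulAction.orbit (MulAction.stabilizer G a₀) ω') : ℚ))⁻¹ = 1 := by
      intro ω'
      rw [(orbit_card_one_iff (G := G) a₀ ω').mpr (hall ω')]
      norm_num
    rw [Finset.sum_congr rfl (fun ω' _ => h2 ω'), Finset.sum_const, Finset.card_univ, hm,
      nsmul_eq_mul, mul_one] at hsum
    have h3 : 2 * m = 3 := by exact_mod_cast hsum
    omega
  obtain ⟨k, hk⟩ : ∃ k : ℕ, k = Nat.card (MulAction.orbit (MulAction.stabilizer G a₀) b) :=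
    ⟨_, rfl⟩
  have hOcard : (Finset.univ.filter
      (fun ω : Ω => ω ∈ MulAction.orbit (MulAction.stabilizer G a₀) b)).card = k := by
    rw [hk, Nat.card_coe_set_eq, ← Set.ncard_coe_finset]
    congr 1
    ext ω
    simp
  rw [← hk]
  have hk2 : 2 ≤ k := by
    rw [hk]
    exact hge2 b hb
  refine ⟨hk2, ?_⟩
  have hkq : (k : ℚ) ≠ 0 := by
    have : k ≠ 0 := by omega
    exact_mod_cast this
  have hkk : (k : ℚ) * (k : ℚ)⁻¹ = 1 := mul_inv_cancel₀ hkq
  have ha₀ : a₀ ∉ MulAction.orbit (MulAction.stabilizer G a₀) b := by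
    rintro ⟨h, hh⟩
    apply hb
    have h1 : (h : G) • b = a₀ := hh
    have h2 : (h : G) • a₀ = a₀ := MulAction.mem_stabilizer_iff.mp h.2
    exact smul_left_cancel (h : G) (h1.trans h2.symm)
  have hpt : ∀ ω : Ω, ((Nat.card (MulAction.orbit (MulAction.stabilizer G a₀) ω) : ℚ))⁻¹
      ≤ 1 / 2 + (if ω = a₀ then (1 / 2 : ℚ) else 0)
        + (if ω ∈ MulAction.orbit (MulAction.stabilizer G a₀) b
            then ((k : ℚ)⁻¹ - 1 / 2) else 0) := by
    intro ω
    by_cases h1 : ω = a₀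
    · rw [h1, if_pos (rfl : a₀ = a₀), if_neg ha₀,
        (orbit_card_one_iff (G := G) a₀ a₀).mpr (fun h hh => hh)]
      norm_num
    · rw [if_neg h1]
      by_cases h2 : ω ∈ MulAction.orbit (MulAction.stabilizer G a₀) b
      · rw [if_pos h2, MulAction.orbit_eq_iff.mpr h2, ← hk]
        linarith
      · rw [if_neg h2]
        have h3 := hge2 ω h1
        have h4 : (2 : ℚ) ≤ (Nat.card (MulAction.orbit (MulAction.stabilizer G a₀) ω) : ℚ) := by
          exact_mod_cast h3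
        have h5 : ((Nat.card (MulAction.orbit (MulAction.stabilizer G a₀) ω) : ℚ))⁻¹
            ≤ (2 : ℚ)⁻¹ := inv_anti₀ (by norm_num) h4
        have h6 : (2 : ℚ)⁻¹ = 1 / 2 := by norm_num
        rw [h6] at h5
        linarith
  have hle := Finset.sum_le_sum (s := Finset.univ) (fun ω _ => hpt ω)
  rw [hsum, Finset.sum_add_distrib, Finset.sum_add_distrib, Finset.sum_const, Finset.card_univ,
    hm, Finset.sum_ite_eq' Finset.univ a₀ (fun _ => (1 / 2 : ℚ)), if_pos (Finset.mem_univ a₀),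
    ← Finset.sum_filter, Finset.sum_const, hOcard, nsmul_eq_mul, nsmul_eq_mul] at hle
  push_cast at hle
  have h8 : (k : ℚ) + 3 ≤ 2 * (m : ℚ) := by linarith [hle, hkk]
  exact_mod_cast h8

open scoped Classical in
/-- The multiplicities of the irreducible characters in `1 + χ₁ + χ₂`. -/
theorem rank3_inner {χ₁ χ₂ : G → ℂ} (h₁ : IsIrrCharacter G χ₁) (h₂ : IsIrrCharacter G χ₂)
    (hπ : (fun g : G => (Nat.card (MulAction.fixedBy Ω g) : ℂ)) = fun g => 1 + χ₁ g + χ₂ g)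
    {χ : G → ℂ} (hχ : IsIrrCharacter G χ) :
    classInner (fun g : G => (Nat.card (MulAction.fixedBy Ω g) : ℂ)) χ
      = (if (fun _ : G => (1 : ℂ)) = χ then (1 : ℂ) else 0) + (if χ₁ = χ then (1 : ℂ) else 0)
        + (if χ₂ = χ then (1 : ℂ) else 0) := by
  have h0 : (fun g : G => 1 + χ₁ g + χ₂ g) = (fun _ : G => (1 : ℂ)) + χ₁ + χ₂ := rfl
  have e0 := classInner_irr_cl (Helper2.isIrrCharacter_one_fun (G := G)) hχ
  have e1 := classInner_irr_cl h₁ hχ
  have e2 := classInner_irr_cl h₂ hχ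
  rw [hπ, h0, Helper2.classInner_add_left, Helper2.classInner_add_left, e0, e1, e2]

open scoped Classical in
/-- Sums over the irreducible characters weighted by the multiplicities in `1 + χ₁ + χ₂`. -/
theorem rank3_sum [Fintype (IrrCharacter G)] {χ₁ χ₂ : G → ℂ} (h₁ : IsIrrCharacter G χ₁)
    (h₂ : IsIrrCharacter G χ₂)
    (hin : ∀ χ : G → ℂ, IsIrrCharacter G χ →
      classInner (fun g : G => (Nat.card (MulAction.fixedBy Ω g) : ℂ)) χ
        = (if (fun _ : G => (1 : ℂ)) = χ then (1 : ℂ) else 0)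
          + (if χ₁ = χ then (1 : ℂ) else 0) + (if χ₂ = χ then (1 : ℂ) else 0))
    (F : (G → ℂ) → ℂ) :
    (∑ χ : IrrCharacter G,
        classInner (fun g : G => (Nat.card (MulAction.fixedBy Ω g) : ℂ)) (χ : G → ℂ)
          * F (χ : G → ℂ))
      = F (fun _ => 1) + F χ₁ + F χ₂ := by
  have h1 : ∀ χ : IrrCharacter G,
      classInner (fun g : G => (Nat.card (MulAction.fixedBy Ω g) : ℂ)) (χ : G → ℂ)
          * F (χ : G → ℂ)
      = (if (fun _ : G => (1 : ℂ)) = (χ : G → ℂ) then (1 : ℂ) else 0) * F (χ : G → ℂ)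
        + (if χ₁ = (χ : G → ℂ) then (1 : ℂ) else 0) * F (χ : G → ℂ)
        + (if χ₂ = (χ : G → ℂ) then (1 : ℂ) else 0) * F (χ : G → ℂ) := by
    intro χ
    rw [hin (χ : G → ℂ) χ.2, add_mul, add_mul]
  rw [Finset.sum_congr rfl (fun χ _ => h1 χ), Finset.sum_add_distrib, Finset.sum_add_distrib,
    irr_sum_single _ Helper2.isIrrCharacter_one_fun F, irr_sum_single _ h₁ F,
    irr_sum_single _ h₂ F]

open scoped Classical in
/-- A constituent of `1 + χ₁ + χ₂` distinguished by its degree is fixed by all Galois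
conjugations. -/
theorem rank3_stable [MulAction.IsPretransitive G Ω] (a₀ : Ω) {χ₁ χ₂ : G → ℂ}
    (h₁ : IsIrrCharacter G χ₁)
    (hin : ∀ χ : G → ℂ, IsIrrCharacter G χ →
      classInner (fun g : G => (Nat.card (MulAction.fixedBy Ω g) : ℂ)) χ
        = (if (fun _ : G => (1 : ℂ)) = χ then (1 : ℂ) else 0)
          + (if χ₁ = χ then (1 : ℂ) else 0) + (if χ₂ = χ then (1 : ℂ) else 0))
    (hdeg : χ₂ 1 ≠ χ₁ 1) (h01 : χ₁ ≠ fun _ => 1)
    (k : ℕ) (hk : k.Coprime (Nat.card G)) (g : G) : χ₁ (g ^ k) = χ₁ g := by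
  have hirr := isIrrCharacter_comp_pow h₁ k hk
  have hval := perm_inner_pow a₀ (isCharacter_of_irr h₁) k hk
  rw [hin _ hirr, hin _ h₁] at hval
  have e0 : ¬ ((fun _ : G => (1 : ℂ)) = fun g => χ₁ (g ^ k)) := by
    intro h
    apply h01
    funext x
    have h5 := congrFun h ((powCoprime hk.symm).symm x)
    have hx : ((powCoprime hk.symm).symm x) ^ k = x := (powCoprime hk.symm).apply_symm_apply x
    have h6 : (1 : ℂ) = χ₁ (((powCoprime hk.symm).symm x) ^ k) := h5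
    rw [hx] at h6
    exact h6.symm
  have e2 : ¬ (χ₂ = fun g => χ₁ (g ^ k)) := by
    intro h
    apply hdeg
    have h5 := congrFun h 1
    have h6 : χ₂ 1 = χ₁ (1 ^ k) := h5
    rw [one_pow] at h6
    exact h6
  by_cases e1 : χ₁ = fun g => χ₁ (g ^ k)
  · exact (congrFun e1 g).symm
  · exfalso
    rw [if_neg e0, if_neg e1, if_neg e2, if_pos (rfl : χ₁ = χ₁)] at hval
    by_cases c0 : (fun _ : G => (1 : ℂ)) = χ₁
    · exact h01 c0.symm
    · rw [if_neg c0] at hval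
      by_cases c2 : χ₂ = χ₁
      · rw [if_pos c2] at hval
        norm_num at hval
      · rw [if_neg c2] at hval
        norm_num at hval

set_option maxHeartbeats 1600000 in
open scoped Classical in
/-- Wielandt's theorem on primitive rank 3 groups of degree `2m` with character degrees
`1, m - 1, m`, for one suborbit. -/
theorem rank3_point (hprim : MulAction.IsPreprimitive G Ω) {m : ℕ}
    (hm : Fintype.card Ω = 2 * m) (a₀ : Ω)
    (hrank : Nat.card (MulAction.orbitRel.Quotient (MulAction.stabilizer G a₀) Ω) = 3)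
    (χ₁ χ₂ : G → ℂ) (h₁ : IsIrrCharacter G χ₁) (h₂ : IsIrrCharacter G χ₂)
    (hπ : (fun g : G => (Nat.card (MulAction.fixedBy Ω g) : ℂ)) = fun g => 1 + χ₁ g + χ₂ g)
    (hd₁ : χ₁ 1 = (m : ℂ) - 1) (hd₂ : χ₂ 1 = m) (b : Ω) (hb : b ≠ a₀) :
    ∃ a : ℕ, 0 < a ∧ m = 2 * a ^ 2 + 2 * a + 1 ∧
      (Nat.card (MulAction.orbit (MulAction.stabilizer G a₀) b) = a * (2 * a + 1) ∨
        Nat.card (MulAction.orbit (MulAction.stabilizer G a₀) b) = (a + 1) * (2 * a + 1)) := by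
  haveI : MulAction.IsPretransitive G Ω := hprim.toIsPretransitive
  have := finite_irrCharacter (G := G)
  have := Fintype.ofFinite (IrrCharacter G)
  have hin : ∀ χ : G → ℂ, IsIrrCharacter G χ →
      classInner (fun g : G => (Nat.card (MulAction.fixedBy Ω g) : ℂ)) χ
        = (if (fun _ : G => (1 : ℂ)) = χ then (1 : ℂ) else 0)
          + (if χ₁ = χ then (1 : ℂ) else 0) + (if χ₂ = χ then (1 : ℂ) else 0) :=
    fun χ hχ => rank3_inner h₁ h₂ hπ hχ
  obtain ⟨mm, hmm1, hmm2, -, hmm4, hmm5⟩ := perm_data (G := G) a₀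
  have hone : classInner (fun g : G => (Nat.card (MulAction.fixedBy Ω g) : ℂ))
      (fun _ : G => (1 : ℂ)) = 1 := by
    have h := hmm1 ⟨fun _ => 1, Helper2.isIrrCharacter_one_fun⟩
    rw [hmm2 ⟨fun _ => 1, Helper2.isIrrCharacter_one_fun⟩ rfl, Nat.cast_one] at h
    exact h
  have hone' := hin _ (Helper2.isIrrCharacter_one_fun (G := G))
  rw [hone, if_pos (rfl : (fun _ : G => (1 : ℂ)) = fun _ => 1)] at hone'
  have hne : χ₁ ≠ (fun _ : G => (1 : ℂ)) ∧ χ₂ ≠ (fun _ : G => (1 : ℂ)) := by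
    by_cases c1 : χ₁ = (fun _ : G => (1 : ℂ))
    · exfalso
      rw [if_pos c1] at hone'
      by_cases c2 : χ₂ = (fun _ : G => (1 : ℂ))
      · rw [if_pos c2] at hone'
        norm_num at hone'
      · rw [if_neg c2] at hone'
        norm_num at hone'
    · by_cases c2 : χ₂ = (fun _ : G => (1 : ℂ))
      · exfalso
        rw [if_neg c1, if_pos c2] at hone'
        norm_num at hone'
      · exact ⟨c1, c2⟩
  have hdne : (m : ℂ) ≠ (m : ℂ) - 1 := by
    intro h
    have h' : (1 : ℂ) = 0 := by linear_combination h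
    exact one_ne_zero h'
  have h12 : χ₁ ≠ χ₂ := by
    intro h
    have h3 : χ₁ 1 = χ₂ 1 := by rw [h]
    rw [hd₁, hd₂] at h3
    exact hdne h3.symm
  have hmf : ∀ χ : IrrCharacter G,
      classInner (fun g : G => (Nat.card (MulAction.fixedBy Ω g) : ℂ)) (χ : G → ℂ) = 0 ∨
      classInner (fun g : G => (Nat.card (MulAction.fixedBy Ω g) : ℂ)) (χ : G → ℂ) = 1 := by
    intro χ
    rw [hin (χ : G → ℂ) χ.2]
    by_cases e0 : (fun _ : G => (1 : ℂ)) = (χ : G → ℂ)
    · right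
      rw [if_pos e0, if_neg (fun h : χ₁ = (χ : G → ℂ) => hne.1 (h.trans e0.symm)),
        if_neg (fun h : χ₂ = (χ : G → ℂ) => hne.2 (h.trans e0.symm))]
      norm_num
    · rw [if_neg e0]
      by_cases e1 : χ₁ = (χ : G → ℂ)
      · right
        rw [if_pos e1, if_neg (fun h : χ₂ = (χ : G → ℂ) => h12 (e1.trans h.symm))]
        norm_num
      · rw [if_neg e1]
        by_cases e2 : χ₂ = (χ : G → ℂ)
        · right
          rw [if_pos e2]
          norm_num
        · left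
          rw [if_neg e2]
          norm_num
  obtain ⟨eq1, eq2⟩ := perm_mf_eqs a₀ b hb hmf
  have hsum3 : ∑ ω : Ω,
      ((Nat.card (MulAction.orbit (MulAction.stabilizer G a₀) ω) : ℚ))⁻¹ = 3 := by
    rw [← hmm5]
    have h1 : ((∑ χ : IrrCharacter G, (mm χ) ^ 2 : ℕ) : ℚ) = 3 := by
      rw [hmm4, hrank]
      norm_num
    push_cast at h1
    exact h1
  obtain ⟨hc, hhc⟩ : ∃ hc : ℕ, hc = (Finset.univ.filter (fun g : G => g • a₀ = a₀)).card :=
    ⟨_, rfl⟩
  have hcpos : 0 < hc := by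
    rw [hhc]
    exact Finset.card_pos.mpr ⟨1, by simp⟩
  have hcne : (hc : ℂ) ≠ 0 := by exact_mod_cast hcpos.ne'
  obtain ⟨k, hk⟩ : ∃ k : ℕ, k = Nat.card (MulAction.orbit (MulAction.stabilizer G a₀) b) :=
    ⟨_, rfl⟩
  have hk23 := rank3_bounds hprim hm a₀ hsum3 b hb
  rw [← hk] at hk23 ⊢
  obtain ⟨hk2, hk3⟩ := hk23
  have hD : ((Finset.univ.filter (fun g : G => dcMem a₀ b g)).card : ℂ) = (hc : ℂ) * k := by
    rw [perm_dc_card a₀ b, ← hhc, ← hk, Nat.cast_mul]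
  have hD1 : (∑ g : G, if dcMem a₀ b g then (1 : ℂ) else 0) = (hc : ℂ) * k := by
    rw [← Finset.sum_filter, Finset.sum_const, nsmul_eq_mul, mul_one, hD]
  have hG' : Nat.card G = 2 * m * hc := by
    rw [perm_card_group (G := G) a₀, hm, ← perm_hc a₀, ← hhc]
  have hG : (Nat.card G : ℂ) = 2 * (m : ℂ) * (hc : ℂ) := by
    rw [hG']
    norm_num
  have E1 : (1 : ℂ) * (∑ g : G, if dcMem a₀ b g then (1 : ℂ) else 0)
      + χ₁ 1 * (∑ g : G, if dcMem a₀ b g then χ₁ g else 0)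
      + χ₂ 1 * (∑ g : G, if dcMem a₀ b g then χ₂ g else 0) = 0 :=
    (rank3_sum h₁ h₂ hin
      (fun ψ : G → ℂ => ψ 1 * ∑ g : G, if dcMem a₀ b g then ψ g else 0)).symm.trans eq1
  have E2 : (1 : ℂ) * ((∑ g : G, if dcMem a₀ b g⁻¹ then (1 : ℂ) else 0)
        * (∑ g : G, if dcMem a₀ b g then (1 : ℂ) else 0))
      + χ₁ 1 * ((∑ g : G, if dcMem a₀ b g⁻¹ then χ₁ g else 0)
        * (∑ g : G, if dcMem a₀ b g then χ₁ g else 0))
      + χ₂ 1 * ((∑ g : G, if dcMem a₀ b g⁻¹ then χ₂ g else 0)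
        * (∑ g : G, if dcMem a₀ b g then χ₂ g else 0))
      = (Nat.card G : ℂ) * ((Finset.univ.filter (fun g : G => dcMem a₀ b g)).card : ℂ) :=
    (rank3_sum h₁ h₂ hin
      (fun ψ : G → ℂ => ψ 1 * ((∑ g : G, if dcMem a₀ b g⁻¹ then ψ g else 0)
        * ∑ g : G, if dcMem a₀ b g then ψ g else 0))).symm.trans eq2
  have hint₁ : ∀ g : G, ∃ z : ℤ, χ₁ g = (z : ℂ) :=
    char_int_of_pow_stable (isCharacter_of_irr h₁)
      (fun k hk g => rank3_stable a₀ h₁ hin (by rw [hd₁, hd₂]; exact hdne) hne.1 k hk g)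
  have hint₂ : ∀ g : G, ∃ z : ℤ, χ₂ g = (z : ℂ) :=
    char_int_of_pow_stable (isCharacter_of_irr h₂)
      (fun k hk g => rank3_stable a₀ h₂ (χ₂ := χ₁)
        (fun χ hχ => by rw [hin χ hχ]; ring)
        (by rw [hd₁, hd₂]; exact hdne.symm) hne.2 k hk g)
  have hreal : ∀ χ : G → ℂ, IsIrrCharacter G χ → (∀ g : G, ∃ z : ℤ, χ g = (z : ℂ)) →
      ∀ g : G, χ g⁻¹ = χ g := by
    intro χ hχ hz g
    obtain ⟨z, hz⟩ := hz g
    rw [char_inv (isCharacter_of_irr hχ) g, hz]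
    exact map_intCast (starRingEnd ℂ) z
  have hθ : ∀ χ : G → ℂ, IsIrrCharacter G χ → (∀ g : G, ∃ z : ℤ, χ g = (z : ℂ)) →
      ∃ θ : ℤ, (∑ g : G, if dcMem a₀ b g then χ g else 0) = (hc : ℂ) * θ := by
    intro χ hχ hz
    obtain ⟨Z, hZ⟩ := dc_sum_int (dcMem a₀ b) χ hz
    obtain ⟨d, ρ, hirr, hρ⟩ := hχ
    have h1 := (perm_rep_main ρ a₀ b).1
    rw [hρ, ← hhc, hZ] at h1
    have h2 : ((hc : ℂ))⁻¹ * (Z : ℂ) = (((Z : ℚ) / (hc : ℚ) : ℚ) : ℂ) := by
      push_cast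
      rw [div_eq_inv_mul]
    rw [h2] at h1
    obtain ⟨θ, hθ⟩ := Helper2.int_of_isIntegral_rat h1
    refine ⟨θ, ?_⟩
    have hcq : (hc : ℚ) ≠ 0 := by exact_mod_cast hcpos.ne'
    have h3 : (Z : ℚ) = (hc : ℚ) * θ := by
      rw [div_eq_iff hcq] at hθ
      rw [hθ]
      ring
    have h4 : Z = (hc : ℤ) * θ := by exact_mod_cast h3
    rw [hZ, h4, Int.cast_mul, Int.cast_natCast]
  obtain ⟨θ₁, hθ₁⟩ := hθ χ₁ h₁ hint₁
  obtain ⟨θ₂, hθ₂⟩ := hθ χ₂ h₂ hint₂
  have hT₁' := dc_inv_sum a₀ b χ₁ (hreal χ₁ h₁ hint₁)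
  have hT₂' := dc_inv_sum a₀ b χ₂ (hreal χ₂ h₂ hint₂)
  have hT₀ : (∑ g : G, if dcMem a₀ b g⁻¹ then (1 : ℂ) else 0) = (hc : ℂ) * k :=
    (dc_inv_sum a₀ b (fun _ : G => (1 : ℂ)) (fun _ => rfl)).trans hD1
  rw [hD1, hθ₁, hθ₂, hd₁, hd₂] at E1
  rw [hT₀, hD1, hT₁', hT₂', hθ₁, hθ₂, hd₁, hd₂, hG, hD] at E2
  have e1 : (k : ℤ) + ((m : ℤ) - 1) * θ₁ + (m : ℤ) * θ₂ = 0 := by
    have h : (hc : ℂ) * ((k : ℂ) + ((m : ℂ) - 1) * θ₁ + (m : ℂ) * θ₂) = 0 := by
      linear_combination E1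
    have h' := (mul_eq_zero.mp h).resolve_left hcne
    exact_mod_cast h'
  have e2 : (k : ℤ) ^ 2 + ((m : ℤ) - 1) * θ₁ ^ 2 + (m : ℤ) * θ₂ ^ 2
      = 2 * (m : ℤ) * (k : ℤ) := by
    have h : (hc : ℂ) ^ 2 * ((k : ℂ) ^ 2 + ((m : ℂ) - 1) * θ₁ ^ 2 + (m : ℂ) * θ₂ ^ 2
        - 2 * (m : ℂ) * (k : ℂ)) = 0 := by
      linear_combination E2
    have h' := (mul_eq_zero.mp h).resolve_left (pow_ne_zero 2 hcne)
    have h'' : (k : ℂ) ^ 2 + ((m : ℂ) - 1) * θ₁ ^ 2 + (m : ℂ) * θ₂ ^ 2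
        = 2 * (m : ℂ) * (k : ℂ) := by
      linear_combination h'
    exact_mod_cast h''
  exact rank3_dioph m k θ₁ θ₂ hk2 hk3 e1 e2

end PermRank3

end Cfsg.Agent.Helper24
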