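import Mathlib
import Cfsg.Agent.Helper25.FSIndicator
import Cfsg.Agent.Helper24.Schur

set_option autoImplicit false

namespace Cfsg.Agent.Helper24

open Cfsg Finset Matrix Cfsg.Agent.Helper25
open scoped ComplexOrder

/-- Invariant bilinear forms of a matrix representation whose character is a real-valued
irreducible character: they exist and are all `ν`-symmetric, `ν` the Frobenius–Schur indicator. -/
theorem fs_form {G : Type*} [Group G] [Fintype G] {n : ℕ} (X : G → Matrix (Fin n) (Fin n) ℂ)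
    (hXmul : ∀ g h, X (g * h) = X g * X h) {χ : G → ℂ} (hχ : IsIrrCharacter G χ)
    (htr : ∀ g, (X g).trace = χ g) (hreal : ∀ g, (χ g).im = 0) :
    (∃ M : Matrix (Fin n) (Fin n) ℂ, M ≠ 0 ∧ ∀ g : G, (X g)ᵀ * M * X g = M) ∧
    ∀ M : Matrix (Fin n) (Fin n) ℂ, (∀ g : G, (X g)ᵀ * M * X g = M) →
      Mᵀ = ((Nat.card G : ℂ)⁻¹ * ∑ s : G, χ (s * s)) • M := by
  classical
  have hne : (Nat.card G : ℂ) ≠ 0 := by exact_mod_cast Nat.card_pos.ne'
  have hchar := isCharacter_of_irr hχ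
  have hconj : ∀ g, (starRingEnd ℂ) (χ g) = χ g :=
    fun g => Complex.conj_eq_iff_im.mpr (hreal g)
  obtain ⟨D, hD⟩ : ∃ D : G → Matrix (Fin n) (Fin n) ℂ,
      D = fun g => (X g⁻¹)ᵀ := ⟨_, rfl⟩
  have hDmul : ∀ g h, D (g * h) = D g * D h := by
    intro g h
    rw [hD]
    show (X (g * h)⁻¹)ᵀ = (X g⁻¹)ᵀ * (X h⁻¹)ᵀ
    rw [_root_.mul_inv_rev, hXmul, Matrix.transpose_mul]
  have hDtr : ∀ g, (D g).trace = χ g := by
    intro g
    rw [hD]
    show ((X g⁻¹)ᵀ).trace = _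
    rw [Matrix.trace_transpose, htr, char_inv hchar, hconj]
  have hDDtr : ∀ g, (D g * D g).trace = χ (g * g) := by
    intro g
    rw [← hDmul, hDtr]
  have hDconj : ∀ (g : G) (M : Matrix (Fin n) (Fin n) ℂ),
      conjT (D g) M = (X g⁻¹)ᵀ * M * X g⁻¹ := by
    intro g M
    rw [conjT_apply, hD]
    show (X g⁻¹)ᵀ * M * ((X g⁻¹)ᵀ)ᵀ = _
    rw [Matrix.transpose_transpose]
  obtain ⟨P, hP⟩ : ∃ P : Module.End ℂ (Matrix (Fin n) (Fin n) ℂ),
      P = (Nat.card G : ℂ)⁻¹ • ∑ g : G, conjT (D g) := ⟨_, rfl⟩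
  have hcomp : ∀ g h : G, conjT (D h) * conjT (D g) = conjT (D (h * g)) := by
    intro g h
    apply LinearMap.ext
    intro X
    simp only [Module.End.mul_apply, conjT_apply, hDmul, Matrix.transpose_mul, Matrix.mul_assoc]
  have hinv : ∀ h : G, conjT (D h) * P = P := by
    intro h
    rw [hP, mul_smul_comm, Finset.mul_sum]
    congr 1
    simp only [hcomp]
    exact Fintype.sum_equiv (Equiv.mulLeft h) _ _ (fun g => rfl)
  have hidem : P * P = P := by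
    calc P * P = ((Nat.card G : ℂ)⁻¹ • ∑ g : G, conjT (D g)) * P := by rw [← hP]
      _ = (Nat.card G : ℂ)⁻¹ • ∑ g : G, conjT (D g) * P := by
          rw [smul_mul_assoc, Finset.sum_mul]
      _ = (Nat.card G : ℂ)⁻¹ • ∑ _g : G, P := by simp only [hinv]
      _ = P := by
          rw [Finset.sum_const, Finset.card_univ, ← Nat.card_eq_fintype_card,
            ← Nat.cast_smul_eq_nsmul ℂ, smul_smul, inv_mul_cancel₀ hne, one_smul]
  have hcomm : ∀ g : G, conjT (D g) * transT n = transT n * conjT (D g) := by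
    intro g
    apply LinearMap.ext
    intro X
    simp only [Module.End.mul_apply, conjT_apply, transT_apply, Matrix.transpose_mul,
      Matrix.transpose_transpose, Matrix.mul_assoc]
  have hPT : P * transT n = transT n * P := by
    rw [hP, smul_mul_assoc, mul_smul_comm, Finset.sum_mul, Finset.mul_sum]
    simp only [hcomm]
  have htrP : LinearMap.trace ℂ _ P = 1 := by
    rw [hP, map_smul, map_sum]
    simp only [trace_conjT, smul_eq_mul]
    have h1 := Helper2.classInner_irr hχ hχ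
    rw [if_pos rfl] at h1
    rw [← h1]
    unfold classInner
    congr 1
    refine Finset.sum_congr rfl fun g _ => ?_
    rw [hDtr, hconj, pow_two]
  have htrPT : LinearMap.trace ℂ _ (P * transT n)
      = (Nat.card G : ℂ)⁻¹ * ∑ s : G, χ (s * s) := by
    rw [hP, smul_mul_assoc, Finset.sum_mul, map_smul, map_sum]
    simp only [trace_conjT_transT, smul_eq_mul, hDDtr]
  have hidem' : IsIdempotentElem P := hidem
  have hproj := LinearMap.IsIdempotentElem.isProj_range P hidem'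
  have hfr : Module.finrank ℂ (LinearMap.range P) = 1 := by
    have h1 := hproj.trace
    rw [htrP] at h1
    exact_mod_cast h1.symm
  obtain ⟨⟨B, hB⟩, hB0, hspan⟩ := finrank_eq_one_iff'.mp hfr
  have hPB : P B = B := hproj.map_id B hB
  have hB0' : B ≠ 0 := fun h => hB0 (Subtype.ext h)
  have hfix_of_inv : ∀ M : Matrix (Fin n) (Fin n) ℂ,
      (∀ g : G, (X g)ᵀ * M * X g = M) → P M = M := by
    intro M hM
    rw [hP, LinearMap.smul_apply, LinearMap.sum_apply]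
    have : ∀ g : G, conjT (D g) M = M := fun g => by rw [hDconj]; exact hM g⁻¹
    rw [Finset.sum_congr rfl (fun g _ => this g), Finset.sum_const, Finset.card_univ,
      ← Nat.card_eq_fintype_card, ← Nat.cast_smul_eq_nsmul ℂ, smul_smul, inv_mul_cancel₀ hne,
      one_smul]
  have hinv_of_fix : ∀ M : Matrix (Fin n) (Fin n) ℂ, P M = M →
      ∀ g : G, (X g)ᵀ * M * X g = M := by
    intro M hM g
    have h1 : conjT (D g⁻¹) (P M) = P M := by
      rw [← Module.End.mul_apply, hinv]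
    rw [hM, hDconj, inv_inv] at h1
    exact h1
  have hTB : transT n B ∈ LinearMap.range P :=
    ⟨transT n B, by rw [← Module.End.mul_apply, hPT, Module.End.mul_apply, hPB]⟩
  obtain ⟨ε, hε⟩ := hspan ⟨transT n B, hTB⟩
  have hε' : ε • B = transT n B := congrArg Subtype.val hε
  have hPTε : P * transT n = ε • P := by
    apply LinearMap.ext
    intro X
    rw [hPT, Module.End.mul_apply, LinearMap.smul_apply]
    obtain ⟨c, hc⟩ := hspan ⟨P X, LinearMap.mem_range_self P X⟩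
    have hc' : c • B = P X := congrArg Subtype.val hc
    rw [← hc', map_smul, ← hε', smul_comm]
  have hεν : ε = (Nat.card G : ℂ)⁻¹ * ∑ s : G, χ (s * s) := by
    rw [← htrPT, hPTε, map_smul, htrP, smul_eq_mul, mul_one]
  refine ⟨⟨B, hB0', hinv_of_fix B hPB⟩, ?_⟩
  intro M hM
  have hPM := hfix_of_inv M hM
  obtain ⟨c, hc⟩ := hspan ⟨M, ⟨M, hPM⟩⟩
  have hc' : c • B = M := congrArg Subtype.val hc
  rw [← hεν, ← hc', Matrix.transpose_smul]
  have : Bᵀ = ε • B := by rw [hε']; rfl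
  rw [this, smul_comm]

/-- Schur's lemma in matrix form. -/
theorem schur_matrix {G : Type*} [Group G] {n : ℕ} (ρ : Representation ℂ G (Fin n → ℂ))
    (hirr : ρ.IsIrreducible) (A : Matrix (Fin n) (Fin n) ℂ)
    (hA : ∀ g, A * LinearMap.toMatrix' (ρ g) = LinearMap.toMatrix' (ρ g) * A) :
    ∃ c : ℂ, A = c • (1 : Matrix (Fin n) (Fin n) ℂ) := by
  haveI := hirr
  let f : Representation.IntertwiningMap ρ ρ :=
    { toLinearMap := Matrix.toLin' A
      isIntertwining' := fun g => by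
        apply LinearMap.toMatrix'.injective
        rw [LinearMap.toMatrix'_comp, LinearMap.toMatrix'_comp, LinearMap.toMatrix'_toLin']
        exact hA g }
  obtain ⟨c, hc⟩ := schur_scalar ρ f
  refine ⟨c, ?_⟩
  have h1 : Matrix.toLin' A = c • LinearMap.id := hc
  have h2 := congrArg LinearMap.toMatrix' h1
  rw [LinearMap.toMatrix'_toLin', map_smul, LinearMap.toMatrix'_id] at h2
  exact h2

/-- Hilbert 90 for `GL_n(ℂ)/ℝ`: a matrix `K` with `K K̄ = 1` is of the form `C C̄⁻¹`. -/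
theorem hilbert90_matrix {n : ℕ} (K : Matrix (Fin n) (Fin n) ℂ) (hK : K * (Kᴴ)ᵀ = 1) :
    ∃ C Ci : Matrix (Fin n) (Fin n) ℂ, C * Ci = 1 ∧ Ci * C = 1 ∧ K * (Cᴴ)ᵀ = C := by
  classical
  obtain ⟨A₀, hA₀⟩ : ∃ A₀ : Matrix (Fin n) (Fin n) ℂ, A₀ = 1 + K := ⟨_, rfl⟩
  obtain ⟨A₁, hA₁⟩ : ∃ A₁ : Matrix (Fin n) (Fin n) ℂ, A₁ = Complex.I • (1 - K) := ⟨_, rfl⟩
  let Mp : Matrix (Fin n) (Fin n) (Polynomial ℂ) :=
    A₀.map Polynomial.C + (Polynomial.X : Polynomial ℂ) • A₁.map Polynomial.C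
  have heval : ∀ t : ℂ, Mp.det.eval t = (A₀ + t • A₁).det := by
    intro t
    have h1 := RingHom.map_det (Polynomial.evalRingHom t) Mp
    have h2 : (Polynomial.evalRingHom t).mapMatrix Mp = A₀ + t • A₁ := by
      ext i j
      simp [Mp, Matrix.add_apply, Matrix.smul_apply, Matrix.map_apply]
      ring
    rw [h2] at h1
    exact h1
  have hp0 : Mp.det ≠ 0 := by
    intro h
    have h1 := heval (-Complex.I)
    rw [h, Polynomial.eval_zero] at h1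
    have h2 : A₀ + (-Complex.I) • A₁ = (2 : ℂ) • (1 : Matrix (Fin n) (Fin n) ℂ) := by
      rw [hA₀, hA₁, smul_smul]
      have : -Complex.I * Complex.I = 1 := by rw [neg_mul, Complex.I_mul_I, neg_neg]
      rw [this, one_smul, two_smul]; abel
    rw [h2, Matrix.det_smul, Matrix.det_one, mul_one] at h1
    exact (pow_ne_zero _ (two_ne_zero)) h1.symm
  obtain ⟨s, hs⟩ : ∃ s : ℝ, Mp.det.eval (s : ℂ) ≠ 0 := by
    by_contra hcon
    push_neg at hcon
    apply hp0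
    apply Polynomial.eq_zero_of_infinite_isRoot
    apply Set.infinite_of_injective_forall_mem Complex.ofReal_injective
    intro r
    exact hcon r
  have hCdet : IsUnit (A₀ + (s : ℂ) • A₁).det := by
    rw [isUnit_iff_ne_zero, ← heval]; exact hs
  refine ⟨A₀ + (s : ℂ) • A₁, (A₀ + (s : ℂ) • A₁)⁻¹, Matrix.mul_nonsing_inv _ hCdet,
    Matrix.nonsing_inv_mul _ hCdet, ?_⟩
  have hcjC : ((A₀ + (s : ℂ) • A₁)ᴴ)ᵀ =
      (1 + (Kᴴ)ᵀ) + ((s : ℂ) * (-Complex.I)) • (1 - (Kᴴ)ᵀ) := by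
    rw [hA₀, hA₁]
    simp only [Matrix.conjTranspose_add, Matrix.conjTranspose_smul, Matrix.conjTranspose_sub,
      Matrix.conjTranspose_one, Matrix.transpose_add, Matrix.transpose_smul,
      Matrix.transpose_sub, Matrix.transpose_one, smul_smul, Complex.star_def, map_mul,
      Complex.conj_ofReal, Complex.conj_I]
  rw [hcjC, Matrix.mul_add, Matrix.mul_add, Matrix.mul_one, Matrix.mul_smul, Matrix.mul_sub,
    Matrix.mul_one, hK, hA₀, hA₁, smul_smul]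
  have : (K - 1 : Matrix (Fin n) (Fin n) ℂ) = -(1 - K) := by abel
  rw [this, smul_neg, ← neg_smul]
  congr 1
  · abel
  · congr 1; ring

/-- The Gram matrix `∑ X(g)ᴴ X(g)` of a matrix representation is positive definite and
invariant. -/
theorem posDef_gram {G : Type*} [Group G] [Fintype G] {n : ℕ}
    (X : G → Matrix (Fin n) (Fin n) ℂ) (hXmul : ∀ g h, X (g * h) = X g * X h) (hX1 : X 1 = 1) :
    (∑ g : G, (X g)ᴴ * X g).PosDef ∧
      ∀ g, (X g)ᴴ * (∑ k : G, (X k)ᴴ * X k) * X g = ∑ k : G, (X k)ᴴ * X k := by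
  classical
  have hXinv : ∀ g, X g⁻¹ * X g = 1 := fun g => by rw [← hXmul, inv_mul_cancel, hX1]
  constructor
  · apply Matrix.posDef_sum Finset.univ_nonempty
    intro g _
    apply Matrix.PosDef.conjTranspose_mul_self
    apply Function.LeftInverse.injective (g := (X g⁻¹).mulVec)
    intro a
    rw [Matrix.mulVec_mulVec, hXinv, Matrix.one_mulVec]
  · intro g
    rw [Finset.mul_sum, Finset.sum_mul]
    refine Fintype.sum_equiv (Equiv.mulRight g) _ _ (fun k => ?_)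
    show (X g)ᴴ * ((X k)ᴴ * X k) * X g = (X (k * g))ᴴ * X (k * g)
    rw [hXmul, Matrix.conjTranspose_mul]; simp only [Matrix.mul_assoc]

/-- A matrix representation with Schur's lemma and a nonzero symmetric invariant form is
equivalent to a real matrix representation. -/
theorem real_form_of_symm {G : Type*} [Group G] [Fintype G] {n : ℕ}
    (X : G → Matrix (Fin n) (Fin n) ℂ) (hXmul : ∀ g h, X (g * h) = X g * X h) (hX1 : X 1 = 1)
    (hschur : ∀ A : Matrix (Fin n) (Fin n) ℂ, (∀ g, A * X g = X g * A) →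
      ∃ c : ℂ, A = c • (1 : Matrix (Fin n) (Fin n) ℂ))
    (B : Matrix (Fin n) (Fin n) ℂ) (hB0 : B ≠ 0) (hBsymm : Bᵀ = B)
    (hBinv : ∀ g : G, (X g)ᵀ * B * X g = B) :
    ∃ Y : G → Matrix (Fin n) (Fin n) ℝ, (∀ g h, Y (g * h) = Y g * Y h) ∧ Y 1 = 1 ∧
      ∀ g, ((Y g).trace : ℂ) = (X g).trace := by
  classical
  have hXinv : ∀ g, X g⁻¹ * X g = 1 := fun g => by rw [← hXmul, inv_mul_cancel, hX1]
  have hXinv' : ∀ g, X g * X g⁻¹ = 1 := fun g => by rw [← hXmul, mul_inv_cancel, hX1]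
  obtain ⟨H, hHdef⟩ : ∃ H : Matrix (Fin n) (Fin n) ℂ, H = ∑ g : G, (X g)ᴴ * X g := ⟨_, rfl⟩
  have hHpd : H.PosDef := by rw [hHdef]; exact (posDef_gram X hXmul hX1).1
  have hHinv : ∀ g, (X g)ᴴ * H * X g = H := by
    intro g; rw [hHdef]; exact (posDef_gram X hXmul hX1).2 g
  have hHunit : IsUnit H.det := (Matrix.isUnit_iff_isUnit_det _).mp hHpd.isUnit
  obtain ⟨Hi, hHidef⟩ : ∃ Hi : Matrix (Fin n) (Fin n) ℂ, Hi = H⁻¹ := ⟨_, rfl⟩
  have hHHi : H * Hi = 1 := by rw [hHidef]; exact Matrix.mul_nonsing_inv _ hHunit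
  have hHiH : Hi * H = 1 := by rw [hHidef]; exact Matrix.nonsing_inv_mul _ hHunit
  have hHipd : Hi.PosDef := by rw [hHidef]; exact hHpd.inv
  have hHiherm : Hiᴴ = Hi := hHipd.isHermitian
  have hHX : ∀ g, H * X g = (X g⁻¹)ᴴ * H := by
    intro g
    calc H * X g = ((X g⁻¹)ᴴ * (X g)ᴴ) * (H * X g) := by
          rw [← Matrix.conjTranspose_mul, hXinv', Matrix.conjTranspose_one, Matrix.one_mul]
      _ = (X g⁻¹)ᴴ * ((X g)ᴴ * H * X g) := by simp only [Matrix.mul_assoc]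
      _ = (X g⁻¹)ᴴ * H := by rw [hHinv g]
  have hXHi : ∀ g, X g * Hi = Hi * (X g⁻¹)ᴴ := by
    intro g
    calc X g * Hi = (Hi * H) * (X g * Hi) := by rw [hHiH, Matrix.one_mul]
      _ = Hi * (H * X g) * Hi := by simp only [Matrix.mul_assoc]
      _ = Hi * ((X g⁻¹)ᴴ * H) * Hi := by rw [hHX]
      _ = Hi * (X g⁻¹)ᴴ * (H * Hi) := by simp only [Matrix.mul_assoc]
      _ = Hi * (X g⁻¹)ᴴ := by rw [hHHi, Matrix.mul_one]
  have hBX : ∀ g, B * X g = (X g⁻¹)ᵀ * B := by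
    intro g
    calc B * X g = ((X g⁻¹)ᵀ * (X g)ᵀ) * (B * X g) := by
          rw [← Matrix.transpose_mul, hXinv', Matrix.transpose_one, Matrix.one_mul]
      _ = (X g⁻¹)ᵀ * ((X g)ᵀ * B * X g) := by simp only [Matrix.mul_assoc]
      _ = (X g⁻¹)ᵀ * B := by rw [hBinv g]
  have hBH : (Bᴴ)ᵀ = Bᴴ := by
    conv_rhs => rw [← hBsymm]
    rfl
  have hBX' : ∀ g, Bᴴ * ((X g)ᴴ)ᵀ = (X g⁻¹)ᴴ * Bᴴ := by
    intro g
    have h1 := congrArg (fun M : Matrix (Fin n) (Fin n) ℂ => (Mᴴ)ᵀ) (hBX g)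
    simp only [Matrix.conjTranspose_mul, Matrix.transpose_mul] at h1
    rw [hBH] at h1
    have h2 : ((((X g⁻¹)ᵀ)ᴴ)ᵀ) = (X g⁻¹)ᴴ := by
      show (((X g⁻¹)ᴴ)ᵀ)ᵀ = _
      rw [Matrix.transpose_transpose]
    rw [h2] at h1
    exact h1
  have hHiT : ∀ g, Hiᵀ * (X g⁻¹)ᵀ = ((X g)ᴴ)ᵀ * Hiᵀ := by
    intro g
    rw [← Matrix.transpose_mul, ← Matrix.transpose_mul]
    congr 1
    have := hXHi g⁻¹
    rw [inv_inv] at this
    exact this
  have hAcomm : ∀ g, (Hi * Bᴴ * Hiᵀ * B) * X g = X g * (Hi * Bᴴ * Hiᵀ * B) := by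
    intro g
    calc Hi * Bᴴ * Hiᵀ * B * X g = Hi * Bᴴ * Hiᵀ * (B * X g) := by
          simp only [Matrix.mul_assoc]
      _ = Hi * Bᴴ * (Hiᵀ * (X g⁻¹)ᵀ) * B := by rw [hBX]; simp only [Matrix.mul_assoc]
      _ = Hi * Bᴴ * (((X g)ᴴ)ᵀ * Hiᵀ) * B := by rw [hHiT g]
      _ = Hi * (Bᴴ * ((X g)ᴴ)ᵀ) * Hiᵀ * B := by simp only [Matrix.mul_assoc]
      _ = Hi * ((X g⁻¹)ᴴ * Bᴴ) * Hiᵀ * B := by rw [hBX']
      _ = (Hi * (X g⁻¹)ᴴ) * Bᴴ * Hiᵀ * B := by simp only [Matrix.mul_assoc]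
      _ = X g * Hi * Bᴴ * Hiᵀ * B := by rw [← hXHi]
      _ = X g * (Hi * Bᴴ * Hiᵀ * B) := by simp only [Matrix.mul_assoc]
  obtain ⟨lam, hlam⟩ := hschur _ hAcomm
  obtain ⟨v, hv⟩ : ∃ v : Fin n → ℂ, B *ᵥ v ≠ 0 := by
    by_contra hcon
    push_neg at hcon
    apply hB0
    apply Matrix.toLin'.injective
    apply LinearMap.ext
    intro v
    rw [Matrix.toLin'_apply, hcon v]
    simp
  have hv0 : v ≠ 0 := by
    rintro rfl
    exact hv (Matrix.mulVec_zero B)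
  have h1 : 0 < star (B *ᵥ v) ⬝ᵥ (Hiᵀ *ᵥ (B *ᵥ v)) :=
    hHipd.transpose.dotProduct_mulVec_pos hv
  have h2 : 0 < star v ⬝ᵥ (H *ᵥ v) := hHpd.dotProduct_mulVec_pos hv0
  have h3 : Bᴴ * Hiᵀ * B = lam • H := by
    calc Bᴴ * Hiᵀ * B = (H * Hi) * Bᴴ * Hiᵀ * B := by rw [hHHi, Matrix.one_mul]
      _ = H * (Hi * Bᴴ * Hiᵀ * B) := by simp only [Matrix.mul_assoc]
      _ = lam • H := by rw [hlam, Matrix.mul_smul, Matrix.mul_one]
  have h4 : star (B *ᵥ v) ⬝ᵥ (Hiᵀ *ᵥ (B *ᵥ v)) = lam * (star v ⬝ᵥ (H *ᵥ v)) := by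
    have e1 : star v ⬝ᵥ ((Bᴴ * Hiᵀ * B) *ᵥ v) = star (B *ᵥ v) ⬝ᵥ (Hiᵀ *ᵥ (B *ᵥ v)) := by
      rw [← Matrix.mulVec_mulVec, ← Matrix.mulVec_mulVec, Matrix.dotProduct_mulVec,
        ← Matrix.star_mulVec]
    rw [← e1, h3, Matrix.smul_mulVec, dotProduct_smul, smul_eq_mul]
  rw [h4] at h1
  have hlam_pos : 0 < lam.re ∧ lam.im = 0 := by
    obtain ⟨hr, hi⟩ := Complex.pos_iff.mp h2
    obtain ⟨hr1, hi1⟩ := Complex.pos_iff.mp h1
    rw [Complex.mul_re, ← hi, mul_zero, sub_zero] at hr1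
    rw [Complex.mul_im, ← hi, mul_zero, zero_add] at hi1
    have him : lam.im = 0 := by
      rcases mul_eq_zero.mp hi1.symm with h | h
      · exact h
      · exact absurd h hr.ne'
    refine ⟨?_, him⟩
    by_contra hneg
    push_neg at hneg
    nlinarith [mul_nonpos_of_nonpos_of_nonneg hneg hr.le]
  obtain ⟨r, hr0, hrl⟩ : ∃ r : ℝ, 0 < r ∧ lam = (r : ℂ) :=
    ⟨lam.re, hlam_pos.1, Complex.ext (Complex.ofReal_re _).symm
      (hlam_pos.2.trans (Complex.ofReal_im _).symm)⟩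
  obtain ⟨c, hc⟩ : ∃ c : ℝ, (c : ℂ) * (c : ℂ) * lam = 1 := by
    refine ⟨(Real.sqrt r)⁻¹, ?_⟩
    have hs : Real.sqrt r * Real.sqrt r = r := Real.mul_self_sqrt hr0.le
    have hs0 : Real.sqrt r ≠ 0 := (Real.sqrt_pos.mpr hr0).ne'
    have key : (Real.sqrt r)⁻¹ * (Real.sqrt r)⁻¹ * r = 1 := by
      calc (Real.sqrt r)⁻¹ * (Real.sqrt r)⁻¹ * r
          = (Real.sqrt r)⁻¹ * (Real.sqrt r)⁻¹ * (Real.sqrt r * Real.sqrt r) := by rw [hs]
        _ = 1 := by field_simp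
    rw [hrl]
    exact_mod_cast key
  obtain ⟨K, hKdef⟩ : ∃ K : Matrix (Fin n) (Fin n) ℂ, K = (c : ℂ) • (Hi * Bᴴ) := ⟨_, rfl⟩
  have hK0 : ((Hi * Bᴴ)ᴴ)ᵀ = Hiᵀ * B := by
    rw [Matrix.conjTranspose_mul, Matrix.conjTranspose_conjTranspose, hHiherm,
      Matrix.transpose_mul, hBsymm]
  have hKK : K * (Kᴴ)ᵀ = 1 := by
    rw [hKdef, Matrix.conjTranspose_smul, Matrix.transpose_smul, hK0, Matrix.smul_mul,
      Matrix.mul_smul, smul_smul]
    have e : Hi * Bᴴ * (Hiᵀ * B) = lam • (1 : Matrix (Fin n) (Fin n) ℂ) := by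
      rw [← hlam]; simp only [Matrix.mul_assoc]
    rw [e, smul_smul]
    have e2 : (c : ℂ) * star (c : ℂ) * lam = 1 := by
      rw [Complex.star_def, Complex.conj_ofReal]; exact hc
    rw [e2, one_smul]
  have hKX : ∀ g, K * ((X g)ᴴ)ᵀ = X g * K := by
    intro g
    rw [hKdef, Matrix.smul_mul, Matrix.mul_smul]
    congr 1
    calc Hi * Bᴴ * ((X g)ᴴ)ᵀ = Hi * (Bᴴ * ((X g)ᴴ)ᵀ) := by simp only [Matrix.mul_assoc]
      _ = Hi * ((X g⁻¹)ᴴ * Bᴴ) := by rw [hBX']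
      _ = (Hi * (X g⁻¹)ᴴ) * Bᴴ := by simp only [Matrix.mul_assoc]
      _ = X g * Hi * Bᴴ := by rw [← hXHi]
      _ = X g * (Hi * Bᴴ) := by simp only [Matrix.mul_assoc]
  obtain ⟨C, Ci, hCCi, hCiC, hKC⟩ := hilbert90_matrix K hKK
  have hKK' : (Kᴴ)ᵀ * K = 1 := mul_eq_one_comm.mp hKK
  have hcjC : (Cᴴ)ᵀ = (Kᴴ)ᵀ * C := by
    calc (Cᴴ)ᵀ = ((Kᴴ)ᵀ * K) * (Cᴴ)ᵀ := by rw [hKK', Matrix.one_mul]
      _ = (Kᴴ)ᵀ * (K * (Cᴴ)ᵀ) := by simp only [Matrix.mul_assoc]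
      _ = (Kᴴ)ᵀ * C := by rw [hKC]
  have hcjmul : ∀ M N : Matrix (Fin n) (Fin n) ℂ, ((M * N)ᴴ)ᵀ = (Mᴴ)ᵀ * (Nᴴ)ᵀ := by
    intro M N; rw [Matrix.conjTranspose_mul, Matrix.transpose_mul]
  have hcjCi : (Ciᴴ)ᵀ = Ci * K := by
    have e1 : (Ciᴴ)ᵀ * (Cᴴ)ᵀ = 1 := by
      rw [← hcjmul, hCiC, Matrix.conjTranspose_one, Matrix.transpose_one]
    have e2 : (Cᴴ)ᵀ * (Ci * K) = 1 := by
      rw [hcjC]
      calc (Kᴴ)ᵀ * C * (Ci * K) = (Kᴴ)ᵀ * (C * Ci) * K := by simp only [Matrix.mul_assoc]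
        _ = 1 := by rw [hCCi, Matrix.mul_one, hKK']
    calc (Ciᴴ)ᵀ = (Ciᴴ)ᵀ * ((Cᴴ)ᵀ * (Ci * K)) := by rw [e2, Matrix.mul_one]
      _ = ((Ciᴴ)ᵀ * (Cᴴ)ᵀ) * (Ci * K) := by simp only [Matrix.mul_assoc]
      _ = Ci * K := by rw [e1, Matrix.one_mul]
  have hYreal : ∀ g, ((Ci * X g * C)ᴴ)ᵀ = Ci * X g * C := by
    intro g
    rw [hcjmul, hcjmul, hcjCi, hcjC]
    calc Ci * K * ((X g)ᴴ)ᵀ * ((Kᴴ)ᵀ * C) = Ci * (K * ((X g)ᴴ)ᵀ) * (Kᴴ)ᵀ * C := by
          simp only [Matrix.mul_assoc]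
      _ = Ci * (X g * K) * (Kᴴ)ᵀ * C := by rw [hKX]
      _ = Ci * X g * (K * (Kᴴ)ᵀ) * C := by simp only [Matrix.mul_assoc]
      _ = Ci * X g * C := by rw [hKK, Matrix.mul_one]
  let Y : G → Matrix (Fin n) (Fin n) ℝ := fun g => (Ci * X g * C).map Complex.re
  have hYmap : ∀ g, (Y g).map Complex.ofRealHom = Ci * X g * C := by
    intro g
    ext i j
    have h := congrFun (congrFun (hYreal g) i) j
    rw [Matrix.transpose_apply, Matrix.conjTranspose_apply] at h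
    show ((Complex.re ((Ci * X g * C) i j) : ℝ) : ℂ) = (Ci * X g * C) i j
    exact Complex.conj_eq_iff_re.mp h
  have hinj : Function.Injective
      (fun M : Matrix (Fin n) (Fin n) ℝ => M.map Complex.ofRealHom) :=
    Matrix.map_injective Complex.ofReal_injective
  refine ⟨Y, ?_, ?_, ?_⟩
  · intro g h
    apply hinj
    show (Y (g * h)).map Complex.ofRealHom = (Y g * Y h).map Complex.ofRealHom
    rw [Matrix.map_mul, hYmap, hYmap, hYmap, hXmul]
    calc Ci * (X g * X h) * C = Ci * X g * (1 : Matrix (Fin n) (Fin n) ℂ) * X h * C := by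
          rw [Matrix.mul_one]; simp only [Matrix.mul_assoc]
      _ = Ci * X g * (C * Ci) * X h * C := by rw [hCCi]
      _ = Ci * X g * C * (Ci * X h * C) := by simp only [Matrix.mul_assoc]
  · apply hinj
    show (Y 1).map Complex.ofRealHom = (1 : Matrix (Fin n) (Fin n) ℝ).map Complex.ofRealHom
    rw [hYmap, hX1, Matrix.mul_one, hCiC, Matrix.map_one _ (map_zero _) (map_one _)]
  · intro g
    have h1 : ((Y g).trace : ℂ) = ((Y g).map Complex.ofRealHom).trace :=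
      AddMonoidHom.map_trace Complex.ofRealHom.toAddMonoidHom (Y g)
    rw [h1, hYmap, Matrix.trace_mul_comm, ← Matrix.mul_assoc, hCCi, Matrix.one_mul]

end Cfsg.Agent.Helper24
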