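import Cfsg.Agent.Helper24.PermMultFree
import Cfsg.Agent.Helper24.RealRep
import Cfsg.Agent.Helper25.FSIndicator

set_option autoImplicit false

namespace Cfsg.Agent.Helper24

open Cfsg Matrix

/-- A subspace on which a skew-symmetric form is nondegenerate has even dimension. -/
theorem even_finrank_of_skew {n : ℕ} (M : Matrix (Fin n) (Fin n) ℂ) (hM : Mᵀ = -M)
    (W : Submodule ℂ (Fin n → ℂ))
    (hW : ∀ v ∈ W, (∀ u ∈ W, u ⬝ᵥ M *ᵥ v = 0) → v = 0) : Even (Module.finrank ℂ W) := by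
  classical
  obtain ⟨m, hm⟩ : ∃ m : ℕ, m = Module.finrank ℂ W := ⟨_, rfl⟩
  rw [← hm]
  have b : Module.Basis (Fin m) ℂ W := Module.finBasisOfFinrankEq ℂ W hm.symm
  obtain ⟨Γ, hΓ⟩ : ∃ Γ : Matrix (Fin m) (Fin m) ℂ,
      Γ = Matrix.of (fun i j => (b i : Fin n → ℂ) ⬝ᵥ M *ᵥ (b j : Fin n → ℂ)) := ⟨_, rfl⟩
  have halt : ∀ x y : Fin n → ℂ, x ⬝ᵥ M *ᵥ y = -(y ⬝ᵥ M *ᵥ x) := by
    intro x y
    have h1 : y ⬝ᵥ M *ᵥ x = -(x ⬝ᵥ M *ᵥ y) := by
      rw [Matrix.dotProduct_mulVec, ← Matrix.mulVec_transpose, hM, Matrix.neg_mulVec,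
        neg_dotProduct, dotProduct_comm]
    rw [h1, neg_neg]
  have hΓT : Γᵀ = -Γ := by
    ext i j
    rw [hΓ]
    show (b j : Fin n → ℂ) ⬝ᵥ M *ᵥ (b i : Fin n → ℂ)
      = -((b i : Fin n → ℂ) ⬝ᵥ M *ᵥ (b j : Fin n → ℂ))
    exact halt _ _
  have hdet : Γ.det ≠ 0 := by
    intro h0
    obtain ⟨c, hc0, hc⟩ := Matrix.exists_mulVec_eq_zero_iff.mpr h0
    obtain ⟨v, hv⟩ : ∃ v : W, v = ∑ j, c j • b j := ⟨_, rfl⟩
    have hvcoe : (v : Fin n → ℂ) = ∑ j, c j • (b j : Fin n → ℂ) := by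
      rw [hv, Submodule.coe_sum]
      rfl
    have h1 : ∀ i, (b i : Fin n → ℂ) ⬝ᵥ M *ᵥ (v : Fin n → ℂ) = 0 := by
      intro i
      calc (b i : Fin n → ℂ) ⬝ᵥ M *ᵥ (v : Fin n → ℂ) = ∑ j, Γ i j * c j := by
            rw [hvcoe, Matrix.mulVec_sum, dotProduct_sum]
            refine Finset.sum_congr rfl fun j _ => ?_
            rw [Matrix.mulVec_smul, dotProduct_smul, hΓ, smul_eq_mul, mul_comm]
            rfl
        _ = (Γ *ᵥ c) i := rfl
        _ = 0 := congrFun hc i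
    have h3 : ∀ u ∈ W, u ⬝ᵥ M *ᵥ (v : Fin n → ℂ) = 0 := by
      intro u hu
      have h4 : (⟨u, hu⟩ : W) = ∑ i, b.repr ⟨u, hu⟩ i • b i := (b.sum_repr ⟨u, hu⟩).symm
      have h5 : u = ∑ i, b.repr ⟨u, hu⟩ i • (b i : Fin n → ℂ) := by
        have h6 := congrArg (fun w : W => (w : Fin n → ℂ)) h4
        simp only [Submodule.coe_sum, Submodule.coe_smul] at h6
        exact h6
      rw [h5, sum_dotProduct]
      refine Finset.sum_eq_zero fun i _ => ?_
      rw [smul_dotProduct, h1 i, smul_zero]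
    have hv0 : (v : Fin n → ℂ) = 0 := hW v v.2 h3
    have hv0' : v = 0 := Subtype.ext hv0
    rw [hv] at hv0'
    have hc' := Fintype.linearIndependent_iff.mp b.linearIndependent c hv0'
    exact hc0 (funext hc')
  have h1 : Γ.det = (-1) ^ m * Γ.det := by
    conv_lhs => rw [← Matrix.det_transpose, hΓT, Matrix.det_neg, Fintype.card_fin]
  have h2 : ((-1 : ℂ)) ^ m = 1 := by
    have h3 : ((-1 : ℂ) ^ m - 1) * Γ.det = 0 := by linear_combination -h1
    rcases mul_eq_zero.mp h3 with h4 | h4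
    · exact sub_eq_zero.mp h4
    · exact absurd h4 hdet
  exact (neg_one_pow_eq_one_iff_even (by norm_num)).mp h2

set_option maxHeartbeats 800000 in
/-- For an irreducible representation with Frobenius–Schur indicator `-1`, the fixed space of
every subgroup has even dimension. -/
theorem invariants_even_of_fs_neg {G : Type*} [Group G] [Fintype G] {n : ℕ}
    (ρ : Representation ℂ G (Fin n → ℂ)) (hirr : ρ.IsIrreducible)
    (hν : (Nat.card G : ℂ)⁻¹ * ∑ g : G, ρ.character (g * g) = -1) (H : Subgroup G)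
    (ρH : Representation ℂ H (Fin n → ℂ)) (hρH : ρH = ρ.comp H.subtype) :
    Even (Module.finrank ℂ (Representation.invariants ρH)) := by
  classical
  have hirrχ : IsIrrCharacter G ρ.character := ⟨n, ρ, hirr, rfl⟩
  have hreal : ∀ g : G, (ρ.character g).im = 0 := by
    by_contra hcon
    push Not at hcon
    have h0 := (Helper25.fs_indicator hirrχ).2 hcon
    rw [h0] at hν
    norm_num at hν
  have hXmul : ∀ g h : G, LinearMap.toMatrix' (ρ (g * h)) =
      LinearMap.toMatrix' (ρ g) * LinearMap.toMatrix' (ρ h) := fun g h => by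
    rw [map_mul, LinearMap.toMatrix'_mul]
  have htr : ∀ g : G, (LinearMap.toMatrix' (ρ g)).trace = ρ.character g := by
    intro g
    show _ = LinearMap.trace ℂ (Fin n → ℂ) (ρ g)
    rw [LinearMap.trace_eq_matrix_trace ℂ (Pi.basisFun ℂ (Fin n)),
      LinearMap.toMatrix_eq_toMatrix']
  obtain ⟨⟨M, hM0, hMinv0⟩, hMT⟩ :=
    fs_form (fun g => LinearMap.toMatrix' (ρ g)) hXmul hirrχ htr hreal
  have hMinv : ∀ g : G, (LinearMap.toMatrix' (ρ g))ᵀ * M * LinearMap.toMatrix' (ρ g) = M :=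
    hMinv0
  have hMneg : Mᵀ = -M := by
    rw [hMT M hMinv0, hν, neg_one_smul]
  have hBinv : ∀ (g : G) (x y : Fin n → ℂ), (ρ g x) ⬝ᵥ M *ᵥ (ρ g y) = x ⬝ᵥ M *ᵥ y := by
    intro g x y
    rw [← LinearMap.toMatrix'_mulVec (ρ g) x, ← LinearMap.toMatrix'_mulVec (ρ g) y,
      ← Matrix.vecMul_transpose (LinearMap.toMatrix' (ρ g)) x, ← Matrix.dotProduct_mulVec,
      Matrix.mulVec_mulVec y M (LinearMap.toMatrix' (ρ g)),
      Matrix.mulVec_mulVec y _ (M * LinearMap.toMatrix' (ρ g)), ← Matrix.mul_assoc, hMinv g]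
  have hdot0 : ∀ w : Fin n → ℂ, (∀ x : Fin n → ℂ, x ⬝ᵥ w = 0) → w = 0 := by
    intro w hw
    funext i
    have h1 := hw (Pi.single i 1)
    rw [single_one_dotProduct] at h1
    exact h1
  have hker : ∀ v : Fin n → ℂ, M *ᵥ v = 0 → v = 0 := by
    let τ : Subrepresentation ρ :=
      { toSubmodule := LinearMap.ker (Matrix.toLin' M)
        apply_mem_toSubmodule := by
          intro g v hv
          rw [LinearMap.mem_ker, Matrix.toLin'_apply] at hv ⊢
          apply hdot0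
          intro x
          have hx : ρ g (ρ g⁻¹ x) = x := by
            rw [← Module.End.mul_apply, ← map_mul, mul_inv_cancel, map_one,
              Module.End.one_apply]
          rw [← hx, hBinv g (ρ g⁻¹ x) v, hv, dotProduct_zero] }
    haveI := hirr
    intro v hv
    have hvτ : v ∈ τ.toSubmodule := by
      show v ∈ LinearMap.ker (Matrix.toLin' M)
      rw [LinearMap.mem_ker, Matrix.toLin'_apply]
      exact hv
    rcases eq_bot_or_eq_top τ with h | h
    · have h2 : τ.toSubmodule = (⊥ : Submodule ℂ (Fin n → ℂ)) :=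
        congrArg Subrepresentation.toSubmodule h
      rw [h2] at hvτ
      exact (Submodule.mem_bot ℂ).mp hvτ
    · exfalso
      have h2 : τ.toSubmodule = (⊤ : Submodule ℂ (Fin n → ℂ)) :=
        congrArg Subrepresentation.toSubmodule h
      have h3 : LinearMap.ker (Matrix.toLin' M) = ⊤ := h2
      have h4 : Matrix.toLin' M = 0 := LinearMap.ker_eq_top.mp h3
      exact hM0 ((LinearEquiv.map_eq_zero_iff _).mp h4)
  have hHne : (Nat.card H : ℂ) ≠ 0 := by exact_mod_cast Nat.card_pos.ne'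
  apply even_finrank_of_skew M hMneg
  intro v hv hperp
  have hvfix : ∀ h : H, ρ (h : G) v = v := by
    intro h
    have h1 := (Representation.mem_invariants ρH v).mp hv h
    rw [hρH] at h1
    exact h1
  apply hker
  apply hdot0
  intro x
  obtain ⟨y, hy⟩ : ∃ y : Fin n → ℂ, y = ∑ h : H, ρ (h : G) x := ⟨_, rfl⟩
  have hyW : y ∈ Representation.invariants ρH := by
    rw [Representation.mem_invariants]
    intro k
    rw [hy, map_sum]
    exact Fintype.sum_equiv (Equiv.mulLeft k) _ _ (fun h => by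
      rw [hρH]
      show ρ (k : G) (ρ (h : G) x) = ρ ((k * h : H) : G) x
      rw [Subgroup.coe_mul, map_mul]
      rfl)
  have h1 : y ⬝ᵥ M *ᵥ v = (Nat.card H : ℂ) * (x ⬝ᵥ M *ᵥ v) := by
    rw [hy, sum_dotProduct]
    have h2 : ∀ h : H, (ρ (h : G) x) ⬝ᵥ M *ᵥ v = x ⬝ᵥ M *ᵥ v := by
      intro h
      conv_lhs => rw [← hvfix h]
      exact hBinv (h : G) x v
    rw [Finset.sum_congr rfl (fun h _ => h2 h), Finset.sum_const, Finset.card_univ,
      nsmul_eq_mul, Nat.card_eq_fintype_card]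
  have h3 := hperp y hyW
  rw [h1] at h3
  exact (mul_eq_zero.mp h3).resolve_left hHne

end Cfsg.Agent.Helper24
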