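import Cfsg.Agent.Helper24.PermReal

set_option autoImplicit false

namespace Cfsg.Agent.Helper24

open Cfsg

section SelfPaired

variable {G : Type*} [Group G] [Fintype G] {Ω : Type*} [Fintype Ω] [MulAction G Ω]

open scoped Classical in
theorem perm_stab_sum_finrank {V : Type*} [AddCommGroup V] [Module ℂ V] [FiniteDimensional ℂ V]
    (ρ : Representation ℂ G V) (a : Ω) (ρH : Representation ℂ (MulAction.stabilizer G a) V)
    (hρH : ρH = ρ.comp (MulAction.stabilizer G a).subtype) :
    (∑ g : G, if g • a = a then ρ.character g else 0)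
      = (Nat.card (MulAction.stabilizer G a) : ℂ)
        * (Module.finrank ℂ (Representation.invariants ρH) : ℂ) := by
  have hne : (Nat.card (MulAction.stabilizer G a) : ℂ) ≠ 0 := by
    exact_mod_cast Nat.card_pos.ne'
  have : Invertible (Nat.card (MulAction.stabilizer G a) : ℂ) := invertibleOfNonzero hne
  have hfin := Representation.card_inv_mul_sum_char_eq_finrank (ρ := ρH)
  rw [← hfin, ← mul_assoc, mul_inv_cancel₀ hne, one_mul, perm_sum_stab, hρH]
  exact Fintype.sum_equiv (Equiv.refl _) _ _ (fun _ => rfl)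

/-- The multiplicity in a transitive permutation character of an irreducible character with
Frobenius–Schur indicator `-1` is even. -/
theorem perm_mult_even [MulAction.IsPretransitive G Ω] (a : Ω) {χ : G → ℂ}
    (hχ : IsIrrCharacter G χ) (hν : (Nat.card G : ℂ)⁻¹ * ∑ g : G, χ (g * g) = -1) (m : ℕ)
    (hm : classInner (fun g : G => (Nat.card (MulAction.fixedBy Ω g) : ℂ)) χ = m) :
    Even m := by
  classical
  obtain ⟨n, ρ, hirr, rfl⟩ := hχ
  have hne : (Nat.card (MulAction.stabilizer G a) : ℂ) ≠ 0 := by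
    exact_mod_cast Nat.card_pos.ne'
  obtain ⟨ρH, hρH⟩ : ∃ ρH : Representation ℂ (MulAction.stabilizer G a) (Fin n → ℂ),
      ρH = ρ.comp (MulAction.stabilizer G a).subtype := ⟨_, rfl⟩
  have h1 := perm_stab_sum_finrank ρ a ρH hρH
  obtain ⟨m', hm'1, hm'2⟩ := perm_inner_nat (Ω := Ω) a
    (isCharacter_of_irr (⟨n, ρ, hirr, rfl⟩ : IsIrrCharacter G ρ.character))
  have h2 : m = m' := by exact_mod_cast hm.symm.trans hm'1
  have h3 : m' = Module.finrank ℂ (Representation.invariants ρH) := by
    have h4 := hm'2.symm.trans h1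
    exact_mod_cast mul_left_cancel₀ hne h4
  rw [h2, h3]
  exact invariants_even_of_fs_neg ρ hirr hν _ ρH hρH

open scoped Classical in
theorem swap_count_le (a b : Ω) :
    (Finset.univ.filter (fun g : G => g • a = b ∧ g • b = a)).card
      ≤ (Finset.univ.filter (fun g : G => g • a = a ∧ g • b = b)).card ∧
    ((Finset.univ.filter (fun g : G => g • a = b ∧ g • b = a)).card
      = (Finset.univ.filter (fun g : G => g • a = a ∧ g • b = b)).card ↔
      ∃ g : G, g • a = b ∧ g • b = a) := by
  by_cases hex : ∃ g : G, g • a = b ∧ g • b = a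
  · obtain ⟨g₀, h1, h2⟩ := hex
    have heq : (Finset.univ.filter (fun g : G => g • a = b ∧ g • b = a)).card
        = (Finset.univ.filter (fun g : G => g • a = a ∧ g • b = b)).card := by
      symm
      refine Finset.card_bij (fun g _ => g₀ * g) ?_ ?_ ?_
      · intro g hg
        simp only [Finset.mem_filter, Finset.mem_univ, true_and] at hg ⊢
        rw [mul_smul, mul_smul, hg.1, hg.2]
        exact ⟨h1, h2⟩
      · intro g₁ _ g₂ _ h
        exact mul_left_cancel h
      · intro g hg
        simp only [Finset.mem_filter, Finset.mem_univ, true_and] at hg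
        refine ⟨g₀⁻¹ * g, ?_, by rw [mul_inv_cancel_left]⟩
        simp only [Finset.mem_filter, Finset.mem_univ, true_and]
        rw [mul_smul, mul_smul, hg.1, hg.2]
        exact ⟨by rw [inv_smul_eq_iff, h1], by rw [inv_smul_eq_iff, h2]⟩
    exact ⟨heq.le, ⟨fun _ => ⟨g₀, h1, h2⟩, fun _ => heq⟩⟩
  · have h0 : (Finset.univ.filter (fun g : G => g • a = b ∧ g • b = a)).card = 0 := by
      rw [Finset.card_eq_zero, Finset.filter_eq_empty_iff]
      intro g _ hg
      exact hex ⟨g, hg⟩
    have h1 : 0 < (Finset.univ.filter (fun g : G => g • a = a ∧ g • b = b)).card :=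
      Finset.card_pos.mpr ⟨1, by simp⟩
    refine ⟨by omega, ⟨fun h => absurd h (by omega), fun h => absurd h hex⟩⟩

open scoped Classical in
theorem perm_sq_count : ∑ g : G, (Nat.card (MulAction.fixedBy Ω (g * g)) : ℂ)
    = ∑ p : Ω × Ω,
      ((Finset.univ.filter (fun g : G => g • p.1 = p.2 ∧ g • p.2 = p.1)).card : ℂ) := by
  rw [Fintype.sum_prod_type]
  have h1 : ∀ g : G, (Nat.card (MulAction.fixedBy Ω (g * g)) : ℂ)
      = ∑ a : Ω, ∑ b : Ω, if g • a = b ∧ g • b = a then (1 : ℂ) else 0 := by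
    intro g
    rw [perm_fix_sum]
    refine Finset.sum_congr rfl fun a _ => ?_
    have h2 : ∀ b : Ω, (if g • a = b ∧ g • b = a then (1 : ℂ) else 0)
        = if g • a = b then (if g • b = a then (1 : ℂ) else 0) else 0 :=
      fun b => by rw [ite_and]
    rw [Finset.sum_congr rfl (fun b _ => h2 b),
      Finset.sum_ite_eq Finset.univ (g • a) (fun b => if g • b = a then (1 : ℂ) else 0),
      if_pos (Finset.mem_univ _), mul_smul]
  rw [Finset.sum_congr rfl (fun g _ => h1 g), Finset.sum_comm]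
  refine Finset.sum_congr rfl fun a _ => ?_
  rw [Finset.sum_comm]
  refine Finset.sum_congr rfl fun b _ => ?_
  rw [Finset.card_filter]
  push_cast
  try rfl

open scoped Classical in
theorem perm_mul_count : ∑ g : G, (Nat.card (MulAction.fixedBy Ω g) : ℂ)
      * (Nat.card (MulAction.fixedBy Ω g) : ℂ)
    = ∑ p : Ω × Ω,
      ((Finset.univ.filter (fun g : G => g • p.1 = p.1 ∧ g • p.2 = p.2)).card : ℂ) := by
  rw [Fintype.sum_prod_type]
  have h1 : ∀ g : G, (Nat.card (MulAction.fixedBy Ω g) : ℂ)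
      * (Nat.card (MulAction.fixedBy Ω g) : ℂ)
      = ∑ a : Ω, ∑ b : Ω, if g • a = a ∧ g • b = b then (1 : ℂ) else 0 := by
    intro g
    rw [perm_fix_sum, Finset.sum_mul_sum]
    refine Finset.sum_congr rfl fun a _ => ?_
    refine Finset.sum_congr rfl fun b _ => ?_
    by_cases ha : g • a = a
    · by_cases hb : g • b = b
      · rw [if_pos ha, if_pos hb, if_pos ⟨ha, hb⟩, mul_one]
      · rw [if_pos ha, if_neg hb, mul_zero, if_neg (fun h : g • a = a ∧ g • b = b => hb h.2)]
    · rw [if_neg ha, zero_mul, if_neg (fun h : g • a = a ∧ g • b = b => ha h.1)]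
  rw [Finset.sum_congr rfl (fun g _ => h1 g), Finset.sum_comm]
  refine Finset.sum_congr rfl fun a _ => ?_
  rw [Finset.sum_comm]
  refine Finset.sum_congr rfl fun b _ => ?_
  rw [Finset.card_filter]
  push_cast
  try rfl

set_option maxHeartbeats 1600000 in
/-- All suborbits of a transitive group are self-paired iff the permutation character is
multiplicity-free with real-valued constituents. -/
theorem perm_self_paired [MulAction.IsPretransitive G Ω] :
    (∀ a b : Ω, ∃ g : G, g • a = b ∧ g • b = a) ↔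
    ∀ χ : G → ℂ, IsIrrCharacter G χ →
      classInner (fun g : G => (Nat.card (MulAction.fixedBy Ω g) : ℂ)) χ ≠ 0 →
      classInner (fun g : G => (Nat.card (MulAction.fixedBy Ω g) : ℂ)) χ = 1 ∧
      ∀ g : G, (starRingEnd ℂ) (χ g) = χ g := by
  classical
  by_cases hΩ : Nonempty Ω
  swap
  · have hE : IsEmpty Ω := not_nonempty_iff.mp hΩ
    constructor
    · intro _ χ hχ hne
      exfalso
      apply hne
      unfold classInner
      have h0 : ∀ g : G, (Nat.card (MulAction.fixedBy Ω g) : ℂ) = 0 := by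
        intro g
        rw [perm_fix_sum, Finset.univ_eq_empty, Finset.sum_empty]
      simp only [h0, zero_mul, Finset.sum_const_zero, mul_zero]
    · intro _ a
      exact (hΩ ⟨a⟩).elim
  obtain ⟨a⟩ := hΩ
  have := finite_irrCharacter (G := G)
  have := Fintype.ofFinite (IrrCharacter G)
  have hGne : (Nat.card G : ℂ) ≠ 0 := by exact_mod_cast Nat.card_pos.ne'
  obtain ⟨m, hm1, -, -, -, -⟩ := perm_data (G := G) a
  have hnu : ∀ χ : IrrCharacter G, ∃ z : ℤ,
      (Nat.card G : ℂ)⁻¹ * ∑ g : G, (χ : G → ℂ) (g * g) = z ∧ (z = 1 ∨ z = -1 ∨ z = 0) ∧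
      (z ≠ 0 → ∀ s : G, ((χ : G → ℂ) s).im = 0) ∧
      ((∀ s : G, ((χ : G → ℂ) s).im = 0) → z ≠ 0) := by
    intro χ
    have hfs := Helper25.fs_indicator χ.2
    by_cases hreal : ∀ s : G, ((χ : G → ℂ) s).im = 0
    · rcases hfs.1 hreal with h | h
      · exact ⟨1, by rw [h, Int.cast_one], Or.inl rfl, fun _ => hreal, fun _ => by norm_num⟩
      · exact ⟨-1, by rw [h]; norm_num, Or.inr (Or.inl rfl), fun _ => hreal,
          fun _ => by norm_num⟩
    · have hreal' := hreal
      push Not at hreal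
      exact ⟨0, by rw [hfs.2 hreal, Int.cast_zero], Or.inr (Or.inr rfl),
        fun h => absurd rfl h, fun h => absurd h hreal'⟩
  choose nu hnu1 hnu2 hnu3 hnu4 using hnu
  have hexp : ∀ g : G, (Nat.card (MulAction.fixedBy Ω g) : ℂ)
      = ∑ χ : IrrCharacter G, (m χ : ℂ) * (χ : G → ℂ) g := by
    intro g
    have h2 : (Nat.card (MulAction.fixedBy Ω g) : ℂ)
        = ∑ χ : IrrCharacter G,
          (classInner (fun g : G => (Nat.card (MulAction.fixedBy Ω g) : ℂ)) (χ : G → ℂ)
            • (χ : G → ℂ)) g := by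
      have h3 := congrFun
        (Helper2.class_fn_expansion (perm_isClassFunction (G := G) (Ω := Ω))) g
      rw [Finset.sum_apply] at h3
      exact h3
    rw [h2]
    refine Finset.sum_congr rfl fun χ _ => ?_
    rw [Pi.smul_apply, smul_eq_mul, hm1 χ]
  have hC5 : ∑ g : G, (Nat.card (MulAction.fixedBy Ω (g * g)) : ℂ)
      = (Nat.card G : ℂ) * ∑ χ : IrrCharacter G, (m χ : ℂ) * (nu χ : ℂ) := by
    rw [Finset.sum_congr rfl (fun g _ => hexp (g * g)), Finset.sum_comm, Finset.mul_sum]
    refine Finset.sum_congr rfl fun χ _ => ?_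
    rw [← Finset.mul_sum, ← hnu1 χ]
    linear_combination (-(m χ : ℂ) * ∑ g : G, (χ : G → ℂ) (g * g)) * (mul_inv_cancel₀ hGne)
  have hC4 : ∑ g : G, (Nat.card (MulAction.fixedBy Ω g) : ℂ)
        * (Nat.card (MulAction.fixedBy Ω g) : ℂ)
      = (Nat.card G : ℂ) * ∑ χ : IrrCharacter G, (m χ : ℂ) ^ 2 := by
    have h1 : ∀ χ : IrrCharacter G,
        ∑ g : G, (Nat.card (MulAction.fixedBy Ω g) : ℂ) * (χ : G → ℂ) g
          = (Nat.card G : ℂ) * (m χ : ℂ) := by
      intro χ
      have h2 := hm1 χ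
      unfold classInner at h2
      have h3 : ∑ g : G, (Nat.card (MulAction.fixedBy Ω g) : ℂ)
          * (starRingEnd ℂ) ((χ : G → ℂ) g) = (Nat.card G : ℂ) * (m χ : ℂ) := by
        rw [← h2, ← mul_assoc, mul_inv_cancel₀ hGne, one_mul]
      have h4 := congrArg (starRingEnd ℂ) h3
      rw [map_sum, map_mul, map_natCast, map_natCast] at h4
      rw [← h4]
      refine Finset.sum_congr rfl fun g _ => ?_
      rw [map_mul, map_natCast, Complex.conj_conj]
    have h5 : ∀ g : G, (Nat.card (MulAction.fixedBy Ω g) : ℂ)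
        * (Nat.card (MulAction.fixedBy Ω g) : ℂ)
        = ∑ χ : IrrCharacter G, (m χ : ℂ)
          * ((Nat.card (MulAction.fixedBy Ω g) : ℂ) * (χ : G → ℂ) g) := by
      intro g
      calc (Nat.card (MulAction.fixedBy Ω g) : ℂ) * (Nat.card (MulAction.fixedBy Ω g) : ℂ)
          = (Nat.card (MulAction.fixedBy Ω g) : ℂ)
            * ∑ χ : IrrCharacter G, (m χ : ℂ) * (χ : G → ℂ) g := by rw [← hexp g]
        _ = ∑ χ : IrrCharacter G, (m χ : ℂ)
            * ((Nat.card (MulAction.fixedBy Ω g) : ℂ) * (χ : G → ℂ) g) := by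
          rw [Finset.mul_sum]
          refine Finset.sum_congr rfl fun χ _ => ?_
          ring
    rw [Finset.sum_congr rfl (fun g _ => h5 g), Finset.sum_comm, Finset.mul_sum]
    refine Finset.sum_congr rfl fun χ _ => ?_
    rw [← Finset.mul_sum, h1 χ]
    ring
  have hN := perm_sq_count (G := G) (Ω := Ω)
  have hM := perm_mul_count (G := G) (Ω := Ω)
  rw [hC5] at hN
  rw [hC4] at hM
  have hkey : (∑ p : Ω × Ω, (Finset.univ.filter
        (fun g : G => g • p.1 = p.2 ∧ g • p.2 = p.1)).card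
      = ∑ p : Ω × Ω, (Finset.univ.filter
        (fun g : G => g • p.1 = p.1 ∧ g • p.2 = p.2)).card) ↔
      ∑ χ : IrrCharacter G, (m χ : ℤ) * nu χ = ∑ χ : IrrCharacter G, (m χ : ℤ) ^ 2 := by
    constructor
    · intro h
      have h1 : (Nat.card G : ℂ) * ∑ χ : IrrCharacter G, (m χ : ℂ) * (nu χ : ℂ)
          = (Nat.card G : ℂ) * ∑ χ : IrrCharacter G, (m χ : ℂ) ^ 2 := by
        rw [hN, hM]
        exact_mod_cast h
      have h2 := mul_left_cancel₀ hGne h1
      exact_mod_cast h2
    · intro h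
      have h1 : (∑ χ : IrrCharacter G, (m χ : ℂ) * (nu χ : ℂ))
          = ∑ χ : IrrCharacter G, (m χ : ℂ) ^ 2 := by exact_mod_cast h
      rw [h1] at hN
      exact_mod_cast hN.symm.trans hM
  have hterm : ∀ χ ∈ (Finset.univ : Finset (IrrCharacter G)),
      (m χ : ℤ) * nu χ ≤ (m χ : ℤ) ^ 2 := by
    intro χ _
    have h0 : (0 : ℤ) ≤ (m χ : ℤ) := Int.natCast_nonneg _
    have h1 : nu χ ≤ 1 := by
      rcases hnu2 χ with h | h | h <;> rw [h] <;> norm_num
    rcases Nat.eq_zero_or_pos (m χ) with h | h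
    · rw [h]
      simp
    · have h2 : (1 : ℤ) ≤ (m χ : ℤ) := by exact_mod_cast h
      calc (m χ : ℤ) * nu χ ≤ (m χ : ℤ) * 1 := mul_le_mul_of_nonneg_left h1 h0
        _ ≤ (m χ : ℤ) * (m χ : ℤ) := mul_le_mul_of_nonneg_left h2 h0
        _ = (m χ : ℤ) ^ 2 := (sq _).symm
  have hsumiff := Finset.sum_eq_sum_iff_of_le hterm
  constructor
  · intro hswap χ hχ hne
    have hNM : ∑ p : Ω × Ω, (Finset.univ.filter
          (fun g : G => g • p.1 = p.2 ∧ g • p.2 = p.1)).card
        = ∑ p : Ω × Ω, (Finset.univ.filter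
          (fun g : G => g • p.1 = p.1 ∧ g • p.2 = p.2)).card :=
      Finset.sum_congr rfl fun p _ => ((swap_count_le p.1 p.2).2.mpr (hswap p.1 p.2))
    have hall := hsumiff.mp (hkey.mp hNM)
    obtain ⟨χ', hχ'⟩ : ∃ χ' : IrrCharacter G, (χ' : G → ℂ) = χ := ⟨⟨χ, hχ⟩, rfl⟩
    have hmne : m χ' ≠ 0 := by
      intro h
      apply hne
      rw [← hχ', hm1 χ', h, Nat.cast_zero]
    have h1 := hall χ' (Finset.mem_univ _)
    have hmz : (m χ' : ℤ) ≠ 0 := by exact_mod_cast hmne
    have h2 : nu χ' = (m χ' : ℤ) := by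
      have h3 : (m χ' : ℤ) * nu χ' = (m χ' : ℤ) * (m χ' : ℤ) := by rw [h1, sq]
      exact mul_left_cancel₀ hmz h3
    have h3 : nu χ' = 1 := by
      rcases hnu2 χ' with h | h | h
      · exact h
      · exfalso
        rw [h] at h2
        have h4 : (0 : ℤ) ≤ (m χ' : ℤ) := Int.natCast_nonneg _
        omega
      · exfalso
        rw [h] at h2
        exact hmz h2.symm
    have h4 : m χ' = 1 := by
      rw [h3] at h2
      exact_mod_cast h2.symm
    refine ⟨by rw [← hχ', hm1 χ', h4, Nat.cast_one], fun g => ?_⟩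
    rw [← hχ']
    exact Complex.conj_eq_iff_im.mpr (hnu3 χ' (by rw [h3]; norm_num) g)
  · intro hall a' b'
    have hsum : ∑ χ : IrrCharacter G, (m χ : ℤ) * nu χ
        = ∑ χ : IrrCharacter G, (m χ : ℤ) ^ 2 := by
      refine Finset.sum_congr rfl fun χ _ => ?_
      by_cases h0 : m χ = 0
      · rw [h0]
        simp
      · have hne : classInner (fun g : G => (Nat.card (MulAction.fixedBy Ω g) : ℂ))
            (χ : G → ℂ) ≠ 0 := by
          rw [hm1 χ]
          exact_mod_cast h0
        obtain ⟨h1, h2⟩ := hall χ χ.2 hne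
        have hm : m χ = 1 := by
          rw [hm1 χ] at h1
          exact_mod_cast h1
        have hreal : ∀ s : G, ((χ : G → ℂ) s).im = 0 :=
          fun s => Complex.conj_eq_iff_im.mp (h2 s)
        have hnz := hnu4 χ hreal
        have hnu1' : nu χ = 1 := by
          rcases hnu2 χ with h | h | h
          · exact h
          · exfalso
            have hν : (Nat.card G : ℂ)⁻¹ * ∑ g : G, (χ : G → ℂ) (g * g) = -1 := by
              rw [hnu1 χ, h]
              norm_num
            have hev := perm_mult_even a χ.2 hν (m χ) (hm1 χ)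
            rw [hm] at hev
            exact absurd hev (by decide)
          · exact absurd h hnz
        rw [hm, hnu1']
        norm_num
    have hNM := hkey.mpr hsum
    have hle : ∀ p ∈ (Finset.univ : Finset (Ω × Ω)),
        (Finset.univ.filter (fun g : G => g • p.1 = p.2 ∧ g • p.2 = p.1)).card
          ≤ (Finset.univ.filter (fun g : G => g • p.1 = p.1 ∧ g • p.2 = p.2)).card :=
      fun p _ => (swap_count_le p.1 p.2).1
    have hpt := (Finset.sum_eq_sum_iff_of_le hle).mp hNM (a', b') (Finset.mem_univ _)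
    exact (swap_count_le a' b').2.mp hpt

end SelfPaired

end Cfsg.Agent.Helper24
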