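import Mathlib
import Cfsg.Agent.Lead.PGroup
import Cfsg.Agent.Helper24.Class2
import Cfsg.Agent.Helper24.Critical
import Cfsg.Prelude.Def_Transfer

set_option autoImplicit false

namespace Cfsg.Agent.Helper24

open scoped commutatorElement

/-- If `G = [G, A]` and `A` fixes the characteristic subgroup `H` elementwise, then `H` is
central. -/
theorem char_le_center_of_fixed {G : Type*} [Group G] (A : Subgroup (MulAut G))
    (hGA : Subgroup.closure {x : G | ∃ g : G, ∃ a ∈ A, x = g⁻¹ * a g} = ⊤)
    (H : Subgroup G) [hH : H.Characteristic] (hfix : ∀ a ∈ A, ∀ h ∈ H, a h = h) :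
    H ≤ Subgroup.center G := by
  have hHn : H.Normal := inferInstance
  have hle : Subgroup.closure {x : G | ∃ g : G, ∃ a ∈ A, x = g⁻¹ * a g} ≤
      Subgroup.centralizer (H : Set G) := by
    rw [Subgroup.closure_le]
    rintro x ⟨g, a, ha, rfl⟩
    rw [SetLike.mem_coe, Subgroup.mem_centralizer_iff]
    intro h hh
    have h1 : a (g * h * g⁻¹) = g * h * g⁻¹ := hfix a ha _ (hHn.conj_mem h hh g)
    rw [map_mul, map_mul, map_inv, hfix a ha h hh] at h1
    calc h * (g⁻¹ * a g) = g⁻¹ * (g * h * g⁻¹) * a g := by group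
      _ = g⁻¹ * (a g * h * (a g)⁻¹) * a g := by rw [h1]
      _ = g⁻¹ * a g * h := by group
  rw [hGA] at hle
  intro h hh
  rw [Subgroup.mem_center_iff]
  intro g
  have := hle (Subgroup.mem_top g)
  rw [Subgroup.mem_centralizer_iff] at this
  exact (this h hh).symm

/-- A nilpotent group in which every characteristic abelian subgroup is central has class at
most two. -/
theorem commutator_le_center_of_char_abelian_central {G : Type*} [Group G] [Group.IsNilpotent G]
    (hc : ∀ H : Subgroup G, H.Characteristic → IsMulCommutative H → H ≤ Subgroup.center G) :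
    commutator G ≤ Subgroup.center G := by
  classical
  have hex : ∃ n, (⊤ : Subgroup G).lowerCentralSeries n = ⊥ :=
    Subgroup.nilpotent_iff_lowerCentralSeries.mp inferInstance
  have hc2 : Nat.find hex ≤ 2 := by
    by_contra hcon
    obtain ⟨c, hc'⟩ : ∃ c, Nat.find hex = c + 3 := ⟨Nat.find hex - 3, by omega⟩
    have hbot : (⊤ : Subgroup G).lowerCentralSeries (c + 3) = ⊥ := hc' ▸ Nat.find_spec hex
    have h1 : ⁅⁅(⊤ : Subgroup G), (⊤ : Subgroup G)⁆, (⊤ : Subgroup G).lowerCentralSeries (c + 1)⁆ = ⊥ := by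
      apply Subgroup.commutator_commutator_eq_bot_of_rotate
      · rw [Subgroup.commutator_comm (⊤ : Subgroup G) ((⊤ : Subgroup G).lowerCentralSeries (c + 1)),
          ← Subgroup.lowerCentralSeries_succ, ← Subgroup.lowerCentralSeries_succ]
        exact hbot
      · rw [← Subgroup.lowerCentralSeries_succ, ← Subgroup.lowerCentralSeries_succ]
        exact hbot
    have hM1 : (⊤ : Subgroup G).lowerCentralSeries (c + 1) ≤ ⁅(⊤ : Subgroup G), (⊤ : Subgroup G)⁆ :=
      Subgroup.lowerCentralSeries_antitone (⊤ : Subgroup G) (show 1 ≤ c + 1 by omega)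
    have hMcomm : IsMulCommutative ((⊤ : Subgroup G).lowerCentralSeries (c + 1)) := by
      have h2 : ⁅(⊤ : Subgroup G).lowerCentralSeries (c + 1),
          (⊤ : Subgroup G).lowerCentralSeries (c + 1)⁆ = ⊥ := by
        rw [eq_bot_iff, ← h1]
        exact Subgroup.commutator_mono hM1 le_rfl
      rw [Subgroup.commutator_eq_bot_iff_le_centralizer] at h2
      refine ⟨⟨fun a b => Subtype.ext ?_⟩⟩
      have h3 := h2 b.2
      rw [Subgroup.mem_centralizer_iff] at h3
      exact h3 a a.2
    have hMcen := hc ((⊤ : Subgroup G).lowerCentralSeries (c + 1)) inferInstance hMcomm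
    have h3 : (⊤ : Subgroup G).lowerCentralSeries (c + 2) = ⊥ := by
      rw [Subgroup.lowerCentralSeries_succ, Subgroup.commutator_eq_bot_iff_le_centralizer,
        Subgroup.coe_top, Subgroup.centralizer_univ]
      exact hMcen
    exact Nat.find_min hex (show c + 2 < Nat.find hex by omega) h3
  have h2 : (⊤ : Subgroup G).lowerCentralSeries 2 = ⊥ := by
    rw [eq_bot_iff, ← Nat.find_spec hex]
    exact Subgroup.lowerCentralSeries_antitone _ hc2
  rw [Subgroup.lowerCentralSeries_succ, Subgroup.lowerCentralSeries_succ,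
    Subgroup.lowerCentralSeries_zero, Subgroup.commutator_eq_bot_iff_le_centralizer,
    Subgroup.coe_top, Subgroup.centralizer_univ] at h2
  exact h2

/-- Coprime action with `G = [G, A]`: the fixed points lie in the derived subgroup. -/
theorem fixed_mem_commutator_of_coprime {G : Type*} [Group G] [Finite G] {p : ℕ} [Fact p.Prime]
    (hG : IsPGroup p G) (A : Subgroup (MulAut G)) (hA : Nat.Coprime (Nat.card A) p)
    (hGA : Subgroup.closure {x : G | ∃ g : G, ∃ a ∈ A, x = g⁻¹ * a g} = ⊤)
    (g : G) (hg : ∀ a ∈ A, a g = g) : g ∈ commutator G := by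
  classical
  haveI : Fintype A := Fintype.ofFinite A
  let π : G →* Abelianization G := Abelianization.of
  let T : G →* Abelianization G := ∏ a : A, π.comp (a : MulAut G).toMonoidHom
  have hT : ∀ x, T x = ∏ a : A, π ((a : MulAut G) x) := by
    intro x
    simp only [T, MonoidHom.finsetProd_apply]
    rfl
  have hTinv : ∀ (b : A) (x : G), T ((b : MulAut G) x) = T x := by
    intro b x
    rw [hT, hT]
    exact Fintype.prod_equiv (Equiv.mulRight b) _ _ (fun a => by
      simp [MulAut.mul_apply])
  have hTtriv : ∀ x, T x = 1 := by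
    intro x
    have hx : x ∈ Subgroup.closure {x : G | ∃ g : G, ∃ a ∈ A, x = g⁻¹ * a g} :=
      hGA ▸ Subgroup.mem_top x
    induction hx using Subgroup.closure_induction with
    | mem y hy =>
      obtain ⟨g, a, ha, rfl⟩ := hy
      rw [map_mul, map_inv, hTinv ⟨a, ha⟩ g, inv_mul_cancel]
    | one => exact map_one T
    | mul y z _ _ hy hz => rw [map_mul, hy, hz, one_mul]
    | inv y _ hy => rw [map_inv, hy, inv_one]
  have h1 : π g ^ Nat.card A = 1 := by
    have h0 := hTtriv g
    rw [hT] at h0
    have h2 : ∀ a : A, π ((a : MulAut G) g) = π g := fun a => by rw [hg a a.2]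
    simp only [h2, Finset.prod_const, Finset.card_univ] at h0
    rwa [Nat.card_eq_fintype_card]
  obtain ⟨k, hk⟩ := hG g
  have h3 : π g ^ p ^ k = 1 := by rw [← map_pow, hk, map_one]
  have h4 : orderOf (π g) = 1 :=
    ((hA.pow_right k).coprime_dvd_left (orderOf_dvd_of_pow_eq_one h1)).eq_one_of_dvd
      (orderOf_dvd_of_pow_eq_one h3)
  have h5 : π g = 1 := orderOf_eq_one_iff.mp h4
  rw [← Abelianization.ker_of G]
  exact h5

/-- In a finite `p`-group of class at most two in which every characteristic abelian subgroup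
is central, all `p`-th powers are central. -/
theorem pow_prime_mem_center_of_char_abelian_central {G : Type*} [Group G] [Finite G] {p : ℕ}
    [Fact p.Prime] (hG : IsPGroup p G) (hcl : commutator G ≤ Subgroup.center G)
    (hc : ∀ H : Subgroup G, H.Characteristic → IsMulCommutative H → H ≤ Subgroup.center G) :
    ∀ x : G, x ^ p ∈ Subgroup.center G := by
  have hpp : p.Prime := Fact.out
  have hcc : ∀ a b g : G, Commute ⁅a, b⁆ g := by
    intro a b g
    have hmem : ⁅a, b⁆ ∈ commutator G := by
      rw [commutator_def]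
      exact Subgroup.commutator_mem_commutator (Subgroup.mem_top a) (Subgroup.mem_top b)
    exact ((Subgroup.mem_center_iff.mp (hcl hmem)) g).symm
  have step : ∀ k : ℕ, 1 ≤ k → (∀ x : G, x ^ p ^ (k + 1) ∈ Subgroup.center G) →
      ∀ x : G, x ^ p ^ k ∈ Subgroup.center G := by
    intro k hk hk1
    have hScomm : ∀ y ∈ {y : G | ∃ x : G, y = x ^ p ^ k}, ∀ z ∈ {y : G | ∃ x : G, y = x ^ p ^ k},
        y * z = z * y := by
      rintro _ ⟨x, rfl⟩ _ ⟨y, rfl⟩
      have h1 : ⁅x ^ p ^ k, y ^ p ^ k⁆ = 1 := by
        rw [commutator_pow_left x (y ^ p ^ k) (hcc _ _ _) (p ^ k),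
          ← commutatorElement_inv (y ^ p ^ k) x, commutator_pow_left y x (hcc _ _ _) (p ^ k),
          inv_pow, ← pow_mul, ← commutator_pow_left y x (hcc _ _ _) (p ^ k * p ^ k)]
        have h2 : y ^ (p ^ k * p ^ k) ∈ Subgroup.center G := by
          have h3 : p ^ k * p ^ k = p ^ (k + 1) * p ^ (k - 1) := by
            rw [← pow_add, ← pow_add]; congr 1; omega
          rw [h3, pow_mul]; exact Subgroup.pow_mem _ (hk1 y) _
        rw [inv_eq_one, commutatorElement_eq_one_iff_commute]
        exact (Subgroup.mem_center_iff.mp h2 x).symm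
      exact (commutatorElement_eq_one_iff_commute.mp h1).eq
    have hUc : IsMulCommutative (Subgroup.closure {y : G | ∃ x : G, y = x ^ p ^ k}) :=
      Subgroup.isMulCommutative_closure hScomm
    have hUch : (Subgroup.closure {y : G | ∃ x : G, y = x ^ p ^ k}).Characteristic := by
      rw [Subgroup.characteristic_iff_map_le]
      intro ϕ
      rw [MonoidHom.map_closure, Subgroup.closure_le]
      rintro _ ⟨_, ⟨x, rfl⟩, rfl⟩
      apply Subgroup.subset_closure
      exact ⟨ϕ x, by simp⟩
    intro x
    exact hc _ hUch hUc (Subgroup.subset_closure ⟨x, rfl⟩)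
  obtain ⟨n, hn⟩ := IsPGroup.iff_card.mp hG
  have hbig : ∀ k, n ≤ k → ∀ x : G, x ^ p ^ k ∈ Subgroup.center G := by
    intro k hk x
    have h1 : x ^ p ^ n = 1 := by rw [← hn]; exact pow_card_eq_one'
    obtain ⟨d, rfl⟩ := Nat.exists_eq_add_of_le hk
    rw [pow_add, pow_mul, h1, one_pow]
    exact Subgroup.one_mem _
  have hall : ∀ d k : ℕ, 1 ≤ k → n ≤ k + d → ∀ x : G, x ^ p ^ k ∈ Subgroup.center G := by
    intro d
    induction d with
    | zero => intro k _ hk; exact hbig k (by omega)
    | succ d ih =>
      intro k hk hkd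
      exact step k hk (ih (k + 1) (by omega) (by omega))
  intro x
  have := hall n 1 le_rfl (by omega) x
  rwa [pow_one] at this

/-- Coprime automorphisms with `G = [G, A]` centralising all characteristic abelian subgroups:
`G` is special and `Z(G) = C_G(A)`. -/
theorem special_of_coprime_action {G : Type*} [Group G] [Finite G] {p : ℕ} [Fact p.Prime]
    (hG : IsPGroup p G) (A : Subgroup (MulAut G)) (hA : Nat.Coprime (Nat.card A) p)
    (hGA : Subgroup.closure {x : G | ∃ g : G, ∃ a ∈ A, x = g⁻¹ * a g} = ⊤)
    (hchar : ∀ H : Subgroup G, H.Characteristic → IsMulCommutative H →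
      ∀ a ∈ A, ∀ h ∈ H, a h = h) :
    Cfsg.IsSpecial p G ∧ (∀ g : G, (g ∈ Subgroup.center G ↔ ∀ a ∈ A, a g = g)) := by
  have hpp : p.Prime := Fact.out
  haveI := hG.isNilpotent
  have hc : ∀ H : Subgroup G, H.Characteristic → IsMulCommutative H → H ≤ Subgroup.center G :=
    fun H hH hHc => by
      haveI := hH
      exact char_le_center_of_fixed A hGA H (hchar H hH hHc)
  have hcl := commutator_le_center_of_char_abelian_central hc
  have hZfix : ∀ a ∈ A, ∀ h ∈ Subgroup.center G, a h = h :=
    hchar (Subgroup.center G) inferInstance inferInstance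
  have hfixcomm : ∀ g, (∀ a ∈ A, a g = g) → g ∈ commutator G :=
    fun g hg => fixed_mem_commutator_of_coprime hG A hA hGA g hg
  have hZeq : commutator G = Subgroup.center G :=
    le_antisymm hcl (fun g hg => hfixcomm g (fun a ha => hZfix a ha g hg))
  have hpow := pow_prime_mem_center_of_char_abelian_central hG hcl hc
  have hfr : frattini G = Subgroup.center G := by
    apply le_antisymm
    · apply frattini_le_of_elementary_quotient hpp (Subgroup.center G)
      · intro x y
        apply hcl
        rw [commutator_def]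
        exact Subgroup.commutator_mem_commutator (Subgroup.mem_top x) (Subgroup.mem_top y)
      · exact hpow
    · rw [← hZeq]; exact Cfsg.Agent.Lead.commutator_le_frattini hG
  exact ⟨⟨hG, hfr, hZeq⟩, fun g => ⟨fun hg a ha => hZfix a ha g hg, fun hg => hcl (hfixcomm g hg)⟩⟩

end Cfsg.Agent.Helper24
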