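import Mathlib
import Cfsg.Prelude.Def_PLocal
import Cfsg.Agent.Helper1.ThTrans
import Cfsg.Agent.Helper4.ElemAb

set_option autoImplicit false

namespace Cfsg.Agent.Helper24

universe u

theorem omegaOne_map_inj {S H : Type*} [Group S] [Group H] (p : ℕ) (f : S →* H)
    (hf : Function.Injective f) (K : Subgroup S) :
    (Cfsg.omegaOne p K).map f = Cfsg.omegaOne p (K.map f) := by
  unfold Cfsg.omegaOne
  rw [MonoidHom.map_closure]
  congr 1
  ext y
  constructor
  · rintro ⟨x, ⟨hxK, hxp⟩, rfl⟩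
    exact ⟨Subgroup.mem_map_of_mem f hxK, by rw [← map_pow, hxp, map_one]⟩
  · rintro ⟨⟨x, hxK, rfl⟩, hyp⟩
    exact ⟨x, ⟨hxK, hf (by rw [map_pow, hyp, map_one])⟩, rfl⟩

theorem inf_centralizer_map_inj {S H : Type*} [Group S] [Group H] (f : S →* H)
    (hf : Function.Injective f) (J : Subgroup S) :
    (J ⊓ Subgroup.centralizer (J : Set S)).map f
      = J.map f ⊓ Subgroup.centralizer ((J.map f : Subgroup H) : Set H) := by
  ext y
  constructor
  · rintro ⟨x, hx, rfl⟩
    obtain ⟨hxJ, hxC⟩ := Subgroup.mem_inf.mp hx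
    refine Subgroup.mem_inf.mpr ⟨Subgroup.mem_map_of_mem f hxJ, ?_⟩
    rw [Subgroup.mem_centralizer_iff]
    rintro h ⟨j, hj, rfl⟩
    have h1 := (Subgroup.mem_centralizer_iff.mp hxC) j hj
    rw [← map_mul, ← map_mul, h1]
  · intro hy
    obtain ⟨hyJ, hyC⟩ := Subgroup.mem_inf.mp hy
    obtain ⟨x, hxJ, rfl⟩ := hyJ
    refine ⟨x, Subgroup.mem_inf.mpr ⟨hxJ, ?_⟩, rfl⟩
    rw [Subgroup.mem_centralizer_iff]
    intro j hj
    have h1 := (Subgroup.mem_centralizer_iff.mp hyC) (f j) (Subgroup.mem_map_of_mem f hj)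
    rw [← map_mul, ← map_mul] at h1
    exact hf h1

theorem closure_normal_of_conj_invariant {H : Type*} [Group H] (T : Set H)
    (hT : ∀ g : H, ∀ t ∈ T, g * t * g⁻¹ ∈ T) : (Subgroup.closure T).Normal := by
  constructor
  intro n hn g
  induction hn using Subgroup.closure_induction with
  | mem x hx => exact Subgroup.subset_closure (hT g x hx)
  | one => rw [mul_one, mul_inv_cancel]; exact Subgroup.one_mem _
  | mul x y _ _ ihx ihy =>
    have e : g * (x * y) * g⁻¹ = (g * x * g⁻¹) * (g * y * g⁻¹) := by group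
    rw [e]; exact Subgroup.mul_mem _ ihx ihy
  | inv x _ ih =>
    have e : g * x⁻¹ * g⁻¹ = (g * x * g⁻¹)⁻¹ := by group
    rw [e]; exact Subgroup.inv_mem _ ih

theorem omegaOne_center_normal {H : Type*} [Group H] (p : ℕ) (N : Subgroup H) [hN : N.Normal] :
    (Cfsg.omegaOne p (N ⊓ Subgroup.centralizer (N : Set H))).Normal := by
  unfold Cfsg.omegaOne
  apply closure_normal_of_conj_invariant
  rintro g t ⟨ht, htp⟩
  have hn : (N ⊓ Subgroup.centralizer (N : Set H)).Normal := inferInstance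
  exact ⟨hn.conj_mem t ht g, by rw [conj_pow, htp, mul_one, mul_inv_cancel]⟩

theorem omegaOne_center_le_omegaCenterThompson {S : Type u} [Group S] [Finite S] (p : ℕ) :
    Cfsg.omegaOne p (Subgroup.center S) ≤ Cfsg.omegaCenterThompson p S := by
  unfold Cfsg.omegaCenterThompson Cfsg.omegaOne
  apply Subgroup.closure_mono
  rintro x ⟨hxc, hxp⟩
  refine ⟨Subgroup.mem_inf.mpr ⟨?_, ?_⟩, hxp⟩
  · obtain ⟨A, hA⟩ := Cfsg.Agent.Helper4.maxEA_nonempty (G := S) p
    have hzA : Subgroup.zpowers x ≤ Subgroup.centralizer (A : Set S) := by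
      rw [Subgroup.zpowers_le, Subgroup.mem_centralizer_iff]
      intro a _
      exact (Subgroup.mem_center_iff.mp hxc a)
    have hEA := Cfsg.Agent.Helper4.isElementaryAbelian_sup hA.1
      (Cfsg.Agent.Helper4.isElementaryAbelian_zpowers x hxp) hzA
    have hcard := hA.2 _ hEA
    have hEq : A = A ⊔ Subgroup.zpowers x := Subgroup.eq_of_le_of_card_ge le_sup_left hcard
    have hxA : x ∈ A := by
      rw [hEq]; exact (le_sup_right : Subgroup.zpowers x ≤ _) (Subgroup.mem_zpowers x)
    exact (le_sSup hA : A ≤ Cfsg.thompsonSubgroup p S) hxA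
  · rw [Subgroup.mem_centralizer_iff]
    intro a _
    exact (Subgroup.mem_center_iff.mp hxc a)

theorem omegaCenterThompson_map_inj {S H : Type u} [Group S] [Group H] (p : ℕ) (f : S →* H)
    (hf : Function.Injective f) :
    (Cfsg.omegaCenterThompson p S).map f
      = Cfsg.omegaOne p ((Cfsg.thompsonSubgroup p S).map f ⊓
          Subgroup.centralizer (((Cfsg.thompsonSubgroup p S).map f : Subgroup H) : Set H)) := by
  unfold Cfsg.omegaCenterThompson
  rw [omegaOne_map_inj p f hf, inf_centralizer_map_inj f hf]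

theorem omegaCenterThompson_map_equiv {S S' : Type u} [Group S] [Group S'] (p : ℕ)
    (η : S ≃* S') :
    (Cfsg.omegaCenterThompson p S).map η.toMonoidHom = Cfsg.omegaCenterThompson p S' := by
  rw [omegaCenterThompson_map_inj p η.toMonoidHom η.injective,
    Cfsg.Agent.Helper1.thompsonSubgroup_map_mulEquiv p η]
  rfl

theorem map_comp_symm_eq {S S' H : Type*} [Group S] [Group S'] [Group H] (η : S ≃* S')
    (τ : S →* H) (K : Subgroup S) :
    (K.map η.toMonoidHom).map (τ.comp η.symm.toMonoidHom) = K.map τ := by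
  rw [Subgroup.map_map]
  congr 1
  ext x
  simp

theorem isStableEmbedding_comp_symm {S S' H : Type u} [Group S] [Group S'] [Group H] (p : ℕ)
    (η : S ≃* S') (τ : S →* H) (hτ : Cfsg.IsStableEmbedding p τ) :
    Cfsg.IsStableEmbedding p (τ.comp η.symm.toMonoidHom) := by
  obtain ⟨hinj, hfin, ⟨Psyl, hPsyl⟩, hcent, hJn, hV⟩ := hτ
  unfold Cfsg.IsStableEmbedding
  refine ⟨?_, hfin, ⟨Psyl, ?_⟩, hcent, ?_, ?_⟩
  · intro a b hab
    exact η.symm.injective (hinj hab)
  · rw [hPsyl]
    ext y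
    constructor
    · rintro ⟨s, rfl⟩
      exact ⟨η s, by simp⟩
    · rintro ⟨s', rfl⟩
      exact ⟨η.symm s', rfl⟩
  · have e : (Cfsg.thompsonSubgroup p S').map (τ.comp η.symm.toMonoidHom)
        = (Cfsg.thompsonSubgroup p S).map τ := by
      rw [← Cfsg.Agent.Helper1.thompsonSubgroup_map_mulEquiv p η, map_comp_symm_eq]
    rw [e]; exact hJn
  · intro V hVn hVle
    have e : (Cfsg.omegaCenterThompson p S').map (τ.comp η.symm.toMonoidHom)
        = (Cfsg.omegaCenterThompson p S).map τ := by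
      rw [← omegaCenterThompson_map_equiv p η, map_comp_symm_eq]
    rw [e] at hVle
    exact hV V hVle

theorem stableNormalClosure_map_le {S S' : Type u} [Group S] [Group S'] (p : ℕ) (η : S ≃* S') :
    (Cfsg.stableNormalClosure p S).map η.toMonoidHom ≤ Cfsg.stableNormalClosure p S' := by
  unfold Cfsg.stableNormalClosure
  apply le_sInf
  intro W' hW'
  rw [Subgroup.map_le_iff_le_comap]
  apply sInf_le
  refine ⟨?_, ?_⟩
  · unfold Cfsg.omegaOne
    rw [Subgroup.closure_le]
    rintro x ⟨hxc, hxp⟩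
    rw [SetLike.mem_coe, Subgroup.mem_comap]
    apply hW'.1
    unfold Cfsg.omegaOne
    refine Subgroup.subset_closure ⟨?_, by rw [← map_pow, hxp, map_one]⟩
    rw [Subgroup.mem_center_iff]
    intro g
    have hsurj : Function.Surjective η.toMonoidHom := η.surjective
    obtain ⟨s, rfl⟩ := hsurj g
    rw [← map_mul, ← map_mul, Subgroup.mem_center_iff.mp hxc s]
  · intro H instH τ hτ
    have h1 := hW'.2 H (τ.comp η.symm.toMonoidHom) (isStableEmbedding_comp_symm p η τ hτ)
    have e : W'.map (τ.comp η.symm.toMonoidHom) = (W'.comap η.toMonoidHom).map τ := by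
      ext y
      constructor
      · rintro ⟨w, hw, rfl⟩
        refine ⟨η.symm w, ?_, rfl⟩
        rw [SetLike.mem_coe, Subgroup.mem_comap]
        simpa using hw
      · rintro ⟨s, hs, rfl⟩
        exact ⟨η.toMonoidHom s, Subgroup.mem_comap.mp hs, by simp⟩
    rw [← e]; exact h1

end Cfsg.Agent.Helper24
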