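import Mathlib
import Cfsg.Agent.Helper1.Basic

set_option autoImplicit false

namespace Cfsg.Agent.Helper24

/-- Sylow conjugacy inside a subgroup `H`, stated for subgroups of the ambient group. -/
theorem sylow_conj_in_subgroup {G : Type*} [Group G] [Finite G] (p : ℕ) [Fact p.Prime]
    (H Q₁ Q₂ : Subgroup G) (h₁ : Q₁ ≤ H) (h₂ : Q₂ ≤ H)
    (hc₁ : Nat.card Q₁ = p ^ (Nat.card H).factorization p)
    (hc₂ : Nat.card Q₂ = p ^ (Nat.card H).factorization p) :
    ∃ x ∈ H, ∀ y, y ∈ Q₂ ↔ x⁻¹ * y * x ∈ Q₁ := by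
  have e₁ : Nat.card (Q₁.subgroupOf H) = p ^ (Nat.card H).factorization p := by
    rw [← hc₁]; exact Nat.card_congr (Subgroup.subgroupOfEquivOfLe h₁).toEquiv
  have e₂ : Nat.card (Q₂.subgroupOf H) = p ^ (Nat.card H).factorization p := by
    rw [← hc₂]; exact Nat.card_congr (Subgroup.subgroupOfEquivOfLe h₂).toEquiv
  obtain ⟨x, hx⟩ := MulAction.exists_smul_eq H (Sylow.ofCard (Q₁.subgroupOf H) e₁)
    (Sylow.ofCard (Q₂.subgroupOf H) e₂)
  refine ⟨(x : G), x.2, fun y => ?_⟩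
  constructor
  · intro hy
    have hyH : y ∈ H := h₂ hy
    have h3 : (⟨y, hyH⟩ : H) ∈ (Sylow.ofCard (Q₂.subgroupOf H) e₂ : Subgroup H) := by
      rw [Sylow.coe_ofCard]; exact Subgroup.mem_subgroupOf.mpr hy
    rw [← hx, Sylow.smul_def, Sylow.pointwise_smul_def, Cfsg.Agent.Helper1.mem_conj_smul,
      Sylow.coe_ofCard, Subgroup.mem_subgroupOf] at h3
    exact h3
  · intro hy
    have hyH : y ∈ H := by
      have h4 : (x : G)⁻¹ * y * (x : G) ∈ H := h₁ hy
      have h5 := H.mul_mem (H.mul_mem x.2 h4) (H.inv_mem x.2)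
      have e : (x : G) * ((x : G)⁻¹ * y * (x : G)) * (x : G)⁻¹ = y := by group
      rwa [e] at h5
    have h3 : (⟨y, hyH⟩ : H) ∈ (Sylow.ofCard (Q₂.subgroupOf H) e₂ : Subgroup H) := by
      rw [← hx, Sylow.smul_def, Sylow.pointwise_smul_def, Cfsg.Agent.Helper1.mem_conj_smul,
        Sylow.coe_ofCard, Subgroup.mem_subgroupOf]
      exact hy
    rw [Sylow.coe_ofCard, Subgroup.mem_subgroupOf] at h3
    exact h3

end Cfsg.Agent.Helper24
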